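import Mathlib
import Cfsg.Prelude.Def_Solvable

/-!
# S3999 (Thompson's same-order-type problem for Frobenius groups): piece statements

`F` a Frobenius group, `G` with the same order type.  Then `G` is a Frobenius group and
`G` is solvable iff `F` is.

Landed inputs: `Cfsg.Agent.S0034.result` (`|kernel| = [F : H] ≡ 1 mod |H|`),
`Cfsg.Agent.S0035.result` (the kernel is a normal subgroup `N` with `IsComplement' N H`),
`Cfsg.Agent.S0042.result` (the kernel is nilpotent), `Cfsg.Agent.S0039.result` (semidirect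
criterion), `Cfsg.Agent.S3359.result` (non-solvable Frobenius complements: `SL(2,5) × M` of index
`≤ 2`).

Plan.  `e : F ≃ G` preserving orders (OrdEquiv).  `F = K ⋊ H`, `k = |K|`, `h = |H|` coprime,
every element of `F` has order dividing `k` or `h`, and `F` has a normal Sylow `p`-subgroup for
every prime `p ∣ k` (FProf; `K` is nilpotent).  Hence `G` has a normal Sylow `p`-subgroup for every
`p ∣ k` (SylTr), their join `L` is normal of order `k` (HallK), a complement `C` of `L`
(Schur-Zassenhaus) is a Frobenius complement because no element of `G` has order divisible by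
primes of both `k` and `h` (FrobC).
Solvability: a non-solvable Frobenius group `X` has `|X|_3 = 3`, `|X|_5 = 5` and no element of
order `15` (NSA, Shrink, `S3359`, NSB, NSC, SL15), while a solvable group with `|Y|_3 = 3`,
`|Y|_5 = 5` has an element of order `15` (Solv15: a Hall `{3,5}`-subgroup has order `15`).
-/

set_option autoImplicit false

universe u v

namespace Cfsg.Agent.Lib.Helper80.FTStmt

/-- OrdEquiv.  Equal numbers of elements of each order give an order-preserving bijection.
(For each `m` the fibres `{x // orderOf x = m}` are finite of equal card, so equivalent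
(`Finite.card_eq` / `Nat.card_eq_iff...`); glue with `Equiv.sigmaFiberEquiv orderOf` on both sides
and `Equiv.sigmaCongrRight`.  Same as the piece CNTCONGR of the S3998 call.) -/
def OrdEquiv : Prop :=
  ∀ {F : Type u} {G : Type v} [Group F] [Finite F] [Group G] [Finite G],
    (∀ m : ℕ, Nat.card {g : F // orderOf g = m} = Nat.card {h : G // orderOf h = m}) →
    ∃ e : F ≃ G, ∀ x : F, orderOf (e x) = orderOf x

/-- FProf.  Profile of a Frobenius group `F` with complement `H`: `k = H.index`, `h = |H|`.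
`S0035`: `N` normal, `(N : Set F) = frobeniusKernel H`, `IsComplement' N H`, so `|N| = k`
(`S0034`, or `Subgroup.IsComplement'.card_mul`), `|F| = k * h`; `k % h = 1 % h` (`S0034`) gives
`k.Coprime h`; `1 < h` as `H ≠ ⊥`, `1 < k` as `H ≠ ⊤`.  Orders: `x ∈ N` has `orderOf x ∣ k`;
`x ∉ N` is not in the kernel set, so `x ∈ MulAut.conj g • H` for some `g`, `x = g * y * g⁻¹` with
`y ∈ H` and `orderOf x = orderOf y ∣ h`.  Normal Sylows: `S0042` gives `N'` nilpotent with the
same carrier, so `N` is nilpotent; for `p ∣ k` a Sylow `p`-subgroup `P₀` of `N` is normal in `N`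
(`isNilpotent_of_finite_tfae`), hence the unique one, hence `P₀.map N.subtype` is normal in `F`
(conjugation by `g` maps it to the image of a Sylow `p`-subgroup of `N`), and it is a Sylow
`p`-subgroup of `F` because `p ∤ h = [F : N]` (`IsPGroup.toSylow` / `Sylow.ofCard`). -/
def FProf : Prop :=
  ∀ {F : Type u} [Group F] [Finite F], (∃ C : Subgroup F, Cfsg.IsFrobeniusComplement C) →
    ∃ k h : ℕ, 1 < k ∧ 1 < h ∧ k.Coprime h ∧ Nat.card F = k * h ∧
      (∀ x : F, orderOf x ∣ k ∨ orderOf x ∣ h) ∧
      (∀ (p : ℕ) [Fact p.Prime], p ∣ k → ∃ P : Sylow p F, (P : Subgroup F).Normal)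

/-- SylTr.  A normal Sylow `p`-subgroup is visible in the order type.
`P` normal Sylow of `F`: every `x` with `orderOf x = p ^ n` lies in `P` (`zpowers x` is a
`p`-group, lies in a Sylow, all Sylows equal `P`), and every element of `P` has such an order; so
`S_F = {x | ∃ n, orderOf x = p ^ n}` has card `|P| = p ^ (Nat.card F).factorization p`
(`Sylow.card_eq_multiplicity`).  `e` maps `S_F` onto `S_G`, and `Nat.card G = Nat.card F`.  Any
Sylow `Q` of `G` is contained in `S_G` and has the same card, so `(Q : Set G) = S_G`, which is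
invariant under conjugation (`orderOf_conj`): `Q` is normal. -/
def SylTr : Prop :=
  ∀ {F : Type u} {G : Type v} [Group F] [Finite F] [Group G] [Finite G] (e : F ≃ G),
    (∀ x : F, orderOf (e x) = orderOf x) → ∀ (p : ℕ) [Fact p.Prime],
    (∃ P : Sylow p F, (P : Subgroup F).Normal) → ∃ Q : Sylow p G, (Q : Subgroup G).Normal

/-- HallK.  The join `L` of the normal Sylow `p`-subgroups `P_p`, `p ∣ k` (`p ∈ k.primeFactors`),
is normal of order `k`.  `|P_p| = p ^ (k * h).factorization p = p ^ k.factorization p` (`p ∤ h`).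
`k ∣ |L|`: `P_p ≤ L` for each `p ∣ k` (`Nat.factorization_prime_le_iff_dvd` or
`Nat.Coprime.mul_dvd_of_dvd_of_dvd` over the prime factors).  `|L| ∣ k`: by `Finset.induction`
`|⨆ p ∈ s, P_p| ∣ ∏ p ∈ s, |P_p|` (`|A ⊔ B| ∣ |A| * |B|` for `B` normal:
`Cfsg.Agent.Lib.Helper63.S28FR.card_sup_dvd`), and `∏ p ∈ k.primeFactors, p ^ k.factorization p = k`
(`Nat.factorization_prod_pow_eq_self`). -/
def HallK : Prop :=
  ∀ {G : Type u} [Group G] [Finite G] (k h : ℕ), Nat.card G = k * h → k.Coprime h →
    (∀ (p : ℕ) [Fact p.Prime], p ∣ k → ∃ P : Sylow p G, (P : Subgroup G).Normal) →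
    ∃ L : Subgroup G, L.Normal ∧ Nat.card L = k

/-- FrobC.  `L` normal of order `k`, index `h` coprime to `k`: a complement `C` exists
(`Subgroup.exists_right_complement'_of_coprime`), `|C| = h > 1`, `L ≠ ⊥`.  By
`Cfsg.Agent.S0039.result L C hc hL hC` it suffices: `c ∈ C`, `c ≠ 1`, `l ∈ L` commuting with `c`
implies `l = 1`.  Else `orderOf l ∣ k`, `orderOf c ∣ h` are coprime and `> 1`, so
`orderOf (l * c) = orderOf l * orderOf c` (`Commute.orderOf_mul_eq_mul_orderOf_of_coprime`) divides
neither `k` nor `h`. -/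
def FrobC : Prop :=
  ∀ {G : Type u} [Group G] [Finite G] (k h : ℕ), 1 < k → 1 < h → k.Coprime h →
    Nat.card G = k * h → (∀ x : G, orderOf x ∣ k ∨ orderOf x ∣ h) →
    ∀ L : Subgroup G, L.Normal → Nat.card L = k →
    ∃ C : Subgroup G, Cfsg.IsFrobeniusComplement C

/-- NSA.  A complement of a non-solvable Frobenius group is not solvable.  (`S0035`: `N` normal,
`IsComplement' N C`; `S0042`: `N'` nilpotent with the same carrier, so `N = N'` is solvable;
`X ⧸ N ≃* C` (or `solvable_of_ker_le_range` with `N.subtype` and the projection onto `C`), so `C`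
solvable would make `X` solvable.) -/
def NSA : Prop :=
  ∀ {X : Type u} [Group X] [Finite X] (C : Subgroup X), Cfsg.IsFrobeniusComplement C →
    ¬ Group.IsSolvable X → ¬ Group.IsSolvable ↥C

/-- Shrink.  Universe bookkeeping for `S3359`: a Frobenius group has a copy in `Type`.
(`L := Fin (Nat.card X)` with the group structure transported along `Finite.equivFin X`
(`Equiv.group`, `Equiv.mulEquiv`), `H := C.map` of that `MulEquiv`; `IsFrobeniusComplement`
transfers along a `MulEquiv`.) -/
def Shrink : Prop :=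
  ∀ {X : Type u} [Group X] [Finite X] (C : Subgroup X), Cfsg.IsFrobeniusComplement C →
    ∃ (L : Type) (_ : Group L) (_ : Finite L) (H : Subgroup L),
      Cfsg.IsFrobeniusComplement H ∧ Nonempty (↥C ≃* ↥H)

/-- SL15.  `SL(2,5)` has order `120` and no element of order `15`.  (See
`Cfsg.Agent.Lib.Helper30.SL25NS`, `Cfsg.Agent.Lib.Helper56.SL25Pres`, `Cfsg.Agent.S3374` for
landed facts; or `decide`-style; or: `u = s ^ 3`, `v = s ^ 5` commute, `(u - 1) ^ 2 = 0`,
`v` fixes the line `ker (u - 1)` with an eigenvalue `λ`, `λ ^ 3 = 1` in `ZMod 5` so `λ = 1`,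
`det v = 1` so `v` is unipotent, `v ^ 5 = 1 = v ^ 3`, `v = 1`.) -/
def SL15 : Prop :=
  Nat.card (Matrix.SpecialLinearGroup (Fin 2) (ZMod 5)) = 120 ∧
    ∀ s : Matrix.SpecialLinearGroup (Fin 2) (ZMod 5), orderOf s ≠ 15

/-- NSB (`main : SL15 → NSB`).  Arithmetic of the `S3359` structure.  `S ⊔ M = C₀` is an internal
direct product, `|C₀| = 120 * |M|`, `|C| = C₀.index * |C₀|` with index `1` or `2`, and
`(|M|, 30) = 1`: the factorizations at `3` and `5` are `1`.  If `orderOf y = 15`: `y ∈ C₀`
(`y = (y ^ 2) ^ 8`, `Subgroup.sq_mem_of_index_two`), `y = s * m` with `s ∈ S`, `m ∈ M`,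
`s ^ 15 = (m ^ 15)⁻¹ ∈ S ⊓ M = ⊥`, `orderOf m ∣ 15` and `∣ |M|`, so `m = 1`, `y = s ∈ S` has
order `15`, against `SL15` through the isomorphism. -/
def NSB : Prop :=
  ∀ {C : Type u} [Group C] [Finite C] (C₀ S M : Subgroup C), C₀.Normal →
    (C₀.index = 1 ∨ C₀.index = 2) → S ⊔ M = C₀ → S ⊓ M = ⊥ →
    (∀ s ∈ S, ∀ x ∈ M, s * x = x * s) →
    Nonempty (↥S ≃* Matrix.SpecialLinearGroup (Fin 2) (ZMod 5)) →
    (Nat.card ↥M).Coprime 30 →
    (Nat.card C).factorization 3 = 1 ∧ (Nat.card C).factorization 5 = 1 ∧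
      ∀ y : C, orderOf y ≠ 15

/-- NSC.  From the complement to the Frobenius group.  `k = C.index` is coprime to `|C|`
(`S0034`: `k % |C| = 1 % |C|`), `|X| = k * |C|`, so the factorizations at `3`, `5` of `|X|` are
those of `|C|` (`3 ∣ |C|`, so `3 ∤ k`).  `orderOf x = 15`: `S0035` gives `N` normal with the
kernel as carrier and `|N| = k`; `x ∈ N` gives `15 ∣ k`, impossible; `x ∉ N` gives
`x ∈ MulAut.conj g • C`, a conjugate of an element of `C` of order `15`. -/
def NSC : Prop :=
  ∀ {X : Type u} [Group X] [Finite X] (C : Subgroup X), Cfsg.IsFrobeniusComplement C →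
    (Nat.card ↥C).factorization 3 = 1 → (Nat.card ↥C).factorization 5 = 1 →
    (∀ y : ↥C, orderOf y ≠ 15) →
    (Nat.card X).factorization 3 = 1 ∧ (Nat.card X).factorization 5 = 1 ∧
      ∀ x : X, orderOf x ≠ 15

/-- Solv15.  A solvable group with `|Y|_3 = 3`, `|Y|_5 = 5` has an element of order `15`.
Route 1: a Hall `{3,5}`-subgroup `D` (landed Hall theorems: `Cfsg.Agent.Lib.Helper91.Hall`,
`Cfsg.Agent.Lib.Helper72.CoprimeHall`, `Cfsg.Agent.S3745`) has order `15`; its Sylow `5`- and
`3`-subgroups are normal (Sylow counting), so elements `a`, `b` of orders `3`, `5` commute and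
`orderOf (a * b) = 15`.  Route 2 (no Hall): induction on `|Y|`; a normal subgroup `A` of prime
index `r` (`Y` solvable, nontrivial); `r ∉ {3, 5}`: induction in `A`; `r = 3`: `P` Sylow `5` of
`A` (order `5`), Frattini `Y = A * N_Y(P)` gives `t` of order `3` normalizing `P`, and `t`
centralizes `P` (`|Aut P| = 4`); `r = 5`: symmetric with `|Aut C_3| = 2`. -/
def Solv15 : Prop :=
  ∀ {Y : Type u} [Group Y] [Finite Y], Group.IsSolvable Y →
    (Nat.card Y).factorization 3 = 1 → (Nat.card Y).factorization 5 = 1 →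
    ∃ y : Y, orderOf y = 15

end Cfsg.Agent.Lib.Helper80.FTStmt
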