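import Mathlib
import Cfsg.Agent.Lib.Helper16.BRStmt2
import Cfsg.Agent.Lib.Helper96.BRCZ
import Cfsg.Agent.Lib.CT.Orth

/-!
Piece [ODD] of S0996 (helper16's split): in the case `δ = -1` the index `e = |N_G(P) : P|` is
even.  Also the shared counting lemma `conj_count`: for `0 < j < e` the number of pairs
`(c, j')`, `0 < j' < e`, with `c * y ^ j * c⁻¹ = y ^ j'` is `e (n + 1)`.
-/

set_option autoImplicit false
set_option maxHeartbeats 1000000
set_option linter.style.haveILetI false

namespace Cfsg.Agent.Lib.Helper80.BGODD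

open Cfsg Cfsg.Agent.Lib.CT.ThirdMain Cfsg.Agent.Lib.Helper16.BRSpec
  Cfsg.Agent.Lib.Helper16.BRStmt2
open scoped ComplexConjugate

universe u
variable {G : Type u} [Group G]

/-- sum of the powers of an `e`-th root of unity -/
theorem geom_sum_root' {ζ : ℂ} {e : ℕ} (h : ζ ^ e = 1) :
    ∑ i ∈ Finset.range e, ζ ^ i = if ζ = 1 then (e : ℂ) else 0 := by
  split_ifs with h1
  · subst h1; simp
  · have h2 := geom_sum_mul ζ e
    rw [h, sub_self] at h2
    exact (mul_eq_zero.1 h2).resolve_right (sub_ne_zero.2 h1)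

/-- Fourier inversion at the index `0`. -/
theorem fourier_zero (p : ℕ) (P : Sylow p G) (e : ℕ) (y : G) (ω : ℂ)
    (mult : IrrCharacter G → ℕ → ℕ) (hR : Res p P e y ω mult) (he : 1 ≤ e)
    (χ : IrrCharacter G) :
    ∑ j ∈ Finset.Ico 1 e, conj ((χ : G → ℂ) (y ^ j)) =
      (e : ℂ) * (mult χ 0 : ℂ) - ∑ i ∈ Finset.range e, (mult χ i : ℂ) := by
  have h1 : ∑ j ∈ Finset.Ico 1 e, (χ : G → ℂ) (y ^ j) =
      (e : ℂ) * (mult χ 0 : ℂ) - ∑ i ∈ Finset.range e, (mult χ i : ℂ) := by
    have h2 : ∀ j ∈ Finset.Ico 1 e, (χ : G → ℂ) (y ^ j) =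
        ∑ i ∈ Finset.range e, (mult χ i : ℂ) * ω ^ (i * j) := by
      intro j hj
      rw [Finset.mem_Ico] at hj
      exact hR.r3 χ j (by omega) hj.2
    rw [Finset.sum_congr rfl h2, Finset.sum_comm]
    have h3 : ∀ i ∈ Finset.range e, ∑ j ∈ Finset.Ico 1 e, (mult χ i : ℂ) * ω ^ (i * j) =
        (mult χ i : ℂ) * ((if i = 0 then (e : ℂ) else 0) - 1) := by
      intro i hi
      rw [Finset.mem_range] at hi
      rw [← Finset.mul_sum]
      congr 1
      have h4 : ∑ j ∈ Finset.Ico 1 e, ω ^ (i * j) =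
          ∑ j ∈ Finset.range e, (ω ^ i) ^ j - 1 := by
        rw [Finset.sum_Ico_eq_sub _ he, Finset.sum_range_one]
        simp only [pow_mul, mul_zero, pow_zero]
      have h5 : (ω ^ i) ^ e = 1 := by
        rw [← pow_mul, mul_comm, pow_mul, hR.hω.pow_eq_one, one_pow]
      have h6 : ω ^ i = 1 ↔ i = 0 := by
        rw [hR.hω.pow_eq_one_iff_dvd]
        constructor
        · intro hd
          exact Nat.eq_zero_of_dvd_of_lt hd hi
        · rintro rfl
          exact dvd_zero e
      rw [h4, geom_sum_root' h5]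
      by_cases hi0 : i = 0
      · rw [if_pos (h6.mpr hi0), if_pos hi0]
      · rw [if_neg (fun h => hi0 (h6.mp h)), if_neg hi0]
    rw [Finset.sum_congr rfl h3]
    have h7 : ∀ i ∈ Finset.range e, (mult χ i : ℂ) * ((if i = 0 then (e : ℂ) else 0) - 1) =
        (if i = 0 then (e : ℂ) * (mult χ 0 : ℂ) else 0) - (mult χ i : ℂ) := by
      intro i _
      by_cases hi0 : i = 0
      · subst hi0
        rw [if_pos rfl, if_pos rfl]
        ring
      · rw [if_neg hi0, if_neg hi0]
        ring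
    rw [Finset.sum_congr rfl h7, Finset.sum_sub_distrib, Finset.sum_ite_eq' (Finset.range e) 0,
      if_pos (Finset.mem_range.mpr (by omega))]
  rw [← map_sum, h1, map_sub, map_mul, map_natCast, map_natCast, map_sum]
  congr 1
  refine Finset.sum_congr rfl fun i _ => ?_
  rw [map_natCast]

/-- The counting lemma. -/
theorem conj_count [Fintype G] [DecidableEq G] [Fintype (IrrCharacter G)]
    (p : ℕ) [Fact p.Prime] (P : Sylow p G) (e t n a b f : ℕ) (A B Y : Set (IrrCharacter G))
    (hT : TabG p P e t n a b (-1) f A B Y) (y : G) (ω : ℂ) (mult : IrrCharacter G → ℕ → ℕ)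
    (hR : Res p P e y ω mult) (hM : MSG p e t n f A B Y mult) (j : ℕ) (hj0 : 0 < j)
    (hj : j < e) :
    ∑ j' ∈ Finset.Ico 1 e, (Finset.univ.filter fun c : G => c * y ^ j * c⁻¹ = y ^ j').card =
      e * (1 + n) := by
  have hp : p.Prime := Fact.out
  have he2 := hT.he
  have hepos : 0 < e := by omega
  -- `y ^ j` is not conjugate to an element of `P`
  have hyN : y ^ j ∈ Subgroup.normalizer ((P : Subgroup G) : Set G) :=
    Subgroup.pow_mem _ hR.hyN j
  have hyjP : y ^ j ∉ (P : Subgroup G) := hR.hyP j hj0 hj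
  have hreg : ¬ p ∣ orderOf (y ^ j) := hR.hreg _ hyN hyjP
  have hnc : ∀ x ∈ (P : Subgroup G), ¬ IsConj (y ^ j) x := by
    intro x hx hc
    have hord : orderOf x = orderOf (y ^ j) := by
      obtain ⟨c, hc⟩ := isConj_iff.mp hc
      rw [← hc]
      exact (SemiconjBy.orderOf_eq c (show SemiconjBy c (y ^ j) (c * y ^ j * c⁻¹) by
        show c * y ^ j = c * y ^ j * c⁻¹ * c
        group)).symm
    have hx1 : x ≠ 1 := by
      rintro rfl
      obtain ⟨c, hc⟩ := isConj_iff.mp hc
      apply hyjP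
      have : y ^ j = 1 := by
        have h2 : y ^ j = c⁻¹ * (c * y ^ j * c⁻¹) * c := by group
        rw [h2, hc]
        group
      rw [this]
      exact Subgroup.one_mem _
    have hxp : orderOf x = p := by
      have h1 : orderOf (⟨x, hx⟩ : ↥(P : Subgroup G)) ∣ Nat.card ↥(P : Subgroup G) :=
        orderOf_dvd_natCard _
      have h2 : orderOf (⟨x, hx⟩ : ↥(P : Subgroup G)) = orderOf x :=
        Subgroup.orderOf_mk x hx
      rw [h2, hT.hP] at h1
      rcases (Nat.dvd_prime hp).mp h1 with h | h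
      · exact absurd (orderOf_eq_one_iff.mp h) hx1
      · exact h
    apply hreg
    rw [← hord, hxp]
  -- the part of the sum coming from `P`
  have hQ : ∑ χ : IrrCharacter G, (χ : G → ℂ) (y ^ j) *
      ∑ i ∈ Finset.range e, (mult χ i : ℂ) = 0 := by
    have hp0 : (p : ℂ) ≠ 0 := by exact_mod_cast hp.ne_zero
    have h1 : (p : ℂ) * ∑ χ : IrrCharacter G, (χ : G → ℂ) (y ^ j) *
        ∑ i ∈ Finset.range e, (mult χ i : ℂ) = 0 := by
      rw [Finset.mul_sum]
      have h2 : ∀ χ : IrrCharacter G, (p : ℂ) * ((χ : G → ℂ) (y ^ j) *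
          ∑ i ∈ Finset.range e, (mult χ i : ℂ)) =
          ∑ x ∈ (Set.toFinite ((P : Subgroup G) : Set G)).toFinset,
            (χ : G → ℂ) (y ^ j) * conj ((χ : G → ℂ) x) := by
        intro χ
        have h3 : (p : ℂ) * ∑ i ∈ Finset.range e, (mult χ i : ℂ) =
            conj ((p : ℂ) * ∑ i ∈ Finset.range e, (mult χ i : ℂ)) := by
          rw [map_mul, map_natCast, map_sum]
          congr 1
          refine Finset.sum_congr rfl fun i _ => ?_
          rw [map_natCast]
        have h4 := hR.r2 χ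
        rw [finsum_mem_eq_finite_toFinset_sum _ (Set.toFinite _)] at h4
        rw [← Finset.mul_sum, ← map_sum, ← h4, ← h3]
        ring
      rw [Finset.sum_congr rfl (fun χ _ => h2 χ), Finset.sum_comm]
      apply Finset.sum_eq_zero
      intro x hx
      have hxP : x ∈ (P : Subgroup G) := (Set.Finite.mem_toFinset _).mp hx
      exact Cfsg.Agent.Lib.CT.Orth.second_orthogonality_sum_of_not_isConj (y ^ j) x (hnc x hxP)
    exact (mul_eq_zero.mp h1).resolve_left hp0
  -- the main part
  have hS : ∑ χ : IrrCharacter G, (χ : G → ℂ) (y ^ j) * ((e : ℂ) * (mult χ 0 : ℂ)) =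
      (e : ℂ) * (1 + (n : ℂ)) := by
    rw [Cfsg.Agent.Lib.Helper96.BRCZ.sum_split A B Y hT.htA hT.htB hT.htY hT.hAB hT.hAY hT.hBY]
    have e1 : ((triv G : IrrCharacter G) : G → ℂ) (y ^ j) *
        ((e : ℂ) * (mult (triv G) 0 : ℂ)) = (e : ℂ) := by
      rw [hM.mT 0 hepos, if_pos rfl, coe_triv]
      simp
    have eA : ∑ χ ∈ (Set.toFinite A).toFinset,
        (χ : G → ℂ) (y ^ j) * ((e : ℂ) * (mult χ 0 : ℂ)) = 0 := by
      apply Finset.sum_eq_zero
      intro χ hχ
      rw [hM.mA0 χ ((Set.Finite.mem_toFinset _).mp hχ)]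
      simp
    have eB : ∑ χ ∈ (Set.toFinite B).toFinset,
        (χ : G → ℂ) (y ^ j) * ((e : ℂ) * (mult χ 0 : ℂ)) = 0 := by
      apply Finset.sum_eq_zero
      intro χ hχ
      rw [hM.mB χ ((Set.Finite.mem_toFinset _).mp hχ) 0 hepos]
      simp
    have eY : ∑ χ ∈ (Set.toFinite Y).toFinset,
        (χ : G → ℂ) (y ^ j) * ((e : ℂ) * (mult χ 0 : ℂ)) = 0 := by
      apply Finset.sum_eq_zero
      intro χ hχ
      rw [hM.mY0 χ ((Set.Finite.mem_toFinset _).mp hχ)]
      simp
    have eZ : ∑ χ ∈ (Set.toFinite (Zset A B Y)).toFinset,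
        (χ : G → ℂ) (y ^ j) * ((e : ℂ) * (mult χ 0 : ℂ)) = (e : ℂ) * (n : ℂ) := by
      have h1 : ∀ χ ∈ (Set.toFinite (Zset A B Y)).toFinset,
          (χ : G → ℂ) (y ^ j) * ((e : ℂ) * (mult χ 0 : ℂ)) =
          (e : ℂ) * ((mdeg p χ ^ 2 : ℕ) : ℂ) := by
        intro χ hχ
        have hχZ : χ ∈ Zset A B Y := (Set.Finite.mem_toFinset _).mp hχ
        have hm := (hM.mZ χ hχZ).2
        have hv : (χ : G → ℂ) (y ^ j) = (mdeg p χ : ℂ) := by
          rw [hR.r3 χ j hj0 hj, Finset.sum_eq_single 0]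
          · rw [hm 0 hepos, if_pos rfl]
            simp
          · intro i hi hi0
            rw [hm i (Finset.mem_range.mp hi), if_neg hi0]
            simp
          · intro h
            exact absurd (Finset.mem_range.mpr hepos) h
        rw [hv, hm 0 hepos, if_pos rfl]
        push_cast
        ring
      rw [Finset.sum_congr rfl h1, ← Finset.mul_sum, ← Nat.cast_sum]
      have h2 := hM.mZs
      rw [finsum_mem_eq_finite_toFinset_sum _ (Set.toFinite _)] at h2
      rw [h2]
    rw [e1, eA, eB, eY, eZ]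
    ring
  -- conclusion
  have hmain : ((∑ j' ∈ Finset.Ico 1 e,
      (Finset.univ.filter fun c : G => c * y ^ j * c⁻¹ = y ^ j').card : ℕ) : ℂ) =
      ((e * (1 + n) : ℕ) : ℂ) := by
    rw [Nat.cast_sum]
    have h1 : ∀ j' ∈ Finset.Ico 1 e,
        (((Finset.univ.filter fun c : G => c * y ^ j * c⁻¹ = y ^ j').card : ℕ) : ℂ) =
        ∑ χ : IrrCharacter G, (χ : G → ℂ) (y ^ j) * conj ((χ : G → ℂ) (y ^ j')) :=
      fun j' _ => (Cfsg.Agent.Lib.CT.Orth.second_orthogonality_card (y ^ j) (y ^ j')).symm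
    rw [Finset.sum_congr rfl h1, Finset.sum_comm]
    have h2 : ∀ χ : IrrCharacter G,
        ∑ j' ∈ Finset.Ico 1 e, (χ : G → ℂ) (y ^ j) * conj ((χ : G → ℂ) (y ^ j')) =
        (χ : G → ℂ) (y ^ j) * ((e : ℂ) * (mult χ 0 : ℂ)) -
          (χ : G → ℂ) (y ^ j) * ∑ i ∈ Finset.range e, (mult χ i : ℂ) := by
      intro χ
      rw [← Finset.mul_sum, fourier_zero p P e y ω mult hR hepos χ]
      ring
    rw [Finset.sum_congr rfl (fun χ _ => h2 χ), Finset.sum_sub_distrib, hS, hQ]
    push_cast
    ring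
  exact_mod_cast hmain

/-- The normalizer of `⟨y⟩` has order `e (n + 1)`. -/
theorem card_normalizer_zpowers [Fintype G] [DecidableEq G] (y : G) (e : ℕ)
    (hyo : orderOf y = e) (he : 2 ≤ e) :
    Nat.card (Subgroup.normalizer ((Subgroup.zpowers y : Subgroup G) : Set G)) =
      ∑ j' ∈ Finset.Ico 1 e, (Finset.univ.filter fun c : G => c * y * c⁻¹ = y ^ j').card := by
  classical
  have hy1 : y ≠ 1 := by
    rintro rfl
    rw [orderOf_one] at hyo
    omega
  have hmem : ∀ c : G, c ∈ Subgroup.normalizer ((Subgroup.zpowers y : Subgroup G) : Set G) ↔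
      ∃ j' ∈ Finset.Ico 1 e, c * y * c⁻¹ = y ^ j' := by
    intro c
    constructor
    · intro hc
      have h1 : c * y * c⁻¹ ∈ Subgroup.zpowers y :=
        (Subgroup.mem_normalizer_iff.mp hc y).mp (Subgroup.mem_zpowers y)
      obtain ⟨k, hk⟩ := Subgroup.mem_zpowers_iff.mp h1
      have hepos : (0 : ℤ) < (e : ℤ) := by exact_mod_cast (by omega : 0 < e)
      have hk0 : 0 ≤ k % (e : ℤ) := Int.emod_nonneg k hepos.ne'
      have hk1 : k % (e : ℤ) < (e : ℤ) := Int.emod_lt_of_pos k hepos
      have hk2 : y ^ (k % (e : ℤ)).toNat = c * y * c⁻¹ := by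
        rw [← hk, ← zpow_natCast, Int.toNat_of_nonneg hk0, ← hyo, zpow_mod_orderOf]
      refine ⟨(k % (e : ℤ)).toNat, ?_, hk2.symm⟩
      rw [Finset.mem_Ico]
      constructor
      · by_contra h0
        have h00 : (k % (e : ℤ)).toNat = 0 := by omega
        rw [h00, pow_zero] at hk2
        apply hy1
        have : y = c⁻¹ * (c * y * c⁻¹) * c := by group
        rw [this, ← hk2]
        group
      · omega
    · rintro ⟨j', _, hj'⟩
      apply Subgroup.mem_normalizer_fintype
      intro x hx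
      obtain ⟨k, rfl⟩ := Subgroup.mem_zpowers_iff.mp hx
      have h1 : c * y ^ k * c⁻¹ = (c * y * c⁻¹) ^ k := (conj_zpow).symm
      show c * y ^ k * c⁻¹ ∈ Subgroup.zpowers y
      rw [h1, hj']
      exact Subgroup.zpow_mem _ (Subgroup.pow_mem _ (Subgroup.mem_zpowers y) j') k
  have h1 : Nat.card (Subgroup.normalizer ((Subgroup.zpowers y : Subgroup G) : Set G)) =
      (Finset.univ.filter fun c : G =>
        c ∈ Subgroup.normalizer ((Subgroup.zpowers y : Subgroup G) : Set G)).card := by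
    rw [← Fintype.card_subtype]
    exact Nat.card_eq_fintype_card
  have h2 : (Finset.univ.filter fun c : G =>
        c ∈ Subgroup.normalizer ((Subgroup.zpowers y : Subgroup G) : Set G)) =
      (Finset.Ico 1 e).biUnion fun j' => Finset.univ.filter fun c : G => c * y * c⁻¹ = y ^ j' := by
    ext c
    simp only [Finset.mem_filter, Finset.mem_univ, true_and, Finset.mem_biUnion]
    exact hmem c
  rw [h1, h2, Finset.card_biUnion]
  intro j₁ hj₁ j₂ hj₂ hne
  show Disjoint (Finset.univ.filter fun c : G => c * y * c⁻¹ = y ^ j₁)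
    (Finset.univ.filter fun c : G => c * y * c⁻¹ = y ^ j₂)
  rw [Finset.disjoint_left]
  intro c hc₁ hc₂
  simp only [Finset.mem_filter, Finset.mem_univ, true_and] at hc₁ hc₂
  apply hne
  have h3 : y ^ j₁ = y ^ j₂ := hc₁.symm.trans hc₂
  rw [Finset.mem_coe, Finset.mem_Ico] at hj₁ hj₂
  exact pow_injOn_Iio_orderOf (by rw [Set.mem_Iio, hyo]; exact hj₁.2)
    (by rw [Set.mem_Iio, hyo]; exact hj₂.2) h3

/-- An involution without fixed points on a finset: the cardinality is even. -/
theorem even_card_of_symm (I : Finset ℕ) (e : ℕ) (hodd : ¬ Even e)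
    (hI1 : ∀ i ∈ I, 0 < i ∧ i < e) (hI2 : ∀ i ∈ I, e - i ∈ I) : Even I.card := by
  have h1 : ∑ i ∈ I, (1 : ZMod 2) = 0 := by
    refine Finset.sum_involution (fun i _ => e - i) ?_ ?_ ?_ ?_
    · intro i _
      decide
    · intro i hi _ h
      apply hodd
      have := hI1 i hi
      exact ⟨i, by omega⟩
    · intro i hi
      exact hI2 i hi
    · intro i hi
      have := hI1 i hi
      show e - (e - i) = i
      omega
  rw [Finset.sum_const, nsmul_eq_mul, mul_one] at h1
  exact (ZMod.natCast_eq_zero_iff_even).mp h1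

theorem main : Cfsg.Agent.Lib.Helper16.BRStmt2.OddCase.{u} := by
  intro G _ _ p _ P e t n a b f A B Y hT y ω mult hR hM hodd
  classical
  haveI := Fintype.ofFinite G
  have := Cfsg.Agent.Lib.CT.Wedderburn.finite_irrCharacter G
  haveI := Fintype.ofFinite (IrrCharacter G)
  have hp : p.Prime := Fact.out
  have he2 := hT.he
  have ht2 := hT.ht
  have hpe := hT.hpe
  have hcount := conj_count p P e t n a b f A B Y hT y ω mult hR hM 1 (by omega) (by omega)
  simp only [pow_one] at hcount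
  have hcard := card_normalizer_zpowers y e hR.hyo he2
  rw [hcount] at hcard
  have hdvd : e * (1 + n) ∣ (1 + n * p) * (p * e) := by
    rw [← hcard, ← hT.hG]
    exact Subgroup.card_subgroup_dvd_card _
  obtain ⟨I, hI1, hI2, hI3⟩ := hM.mI
  have hr_even : Even I.card := even_card_of_symm I e hodd hI1 hI2
  have hr_pos : 0 < I.card := by
    rcases Nat.eq_zero_or_pos I.card with h | h
    · rw [h, Nat.zero_mul] at hI3
      omega
    · exact h
  have hr_lt : I.card < e := by
    have hsub : I ⊆ Finset.Ioo 0 e := by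
      intro i hi
      rw [Finset.mem_Ioo]
      exact hI1 i hi
    have := Finset.card_le_card hsub
    rw [Nat.card_Ioo] at this
    omega
  have hep : e < p := by
    have : e * 2 ≤ e * t := Nat.mul_le_mul_left e ht2
    omega
  have hte : t * e + 1 = p := by rw [hpe]; ring
  have hn1 : n + 1 = I.card * t := by
    have h1 : t * f + t * e = t * (I.card * p) := by rw [← Nat.mul_add, hI3]
    have h2 := hM.htf
    have h3 : (n + 1) * p = (I.card * t) * p := by
      have e1 : (n + 1) * p = n * p + p := by ring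
      have e2 : I.card * t * p = t * (I.card * p) := by ring
      omega
    exact Nat.eq_of_mul_eq_mul_right hp.pos h3
  -- `(n + 1) ∣ (1 + n p) p`
  have hd1 : (1 + n) ∣ (1 + n * p) * p := by
    have h1 : e * (1 + n) ∣ e * ((1 + n * p) * p) := by
      have e1 : e * ((1 + n * p) * p) = (1 + n * p) * (p * e) := by ring
      rw [e1]
      exact hdvd
    exact Nat.dvd_of_mul_dvd_mul_left (by omega) h1
  have hd2 : I.card ∣ f * p := by
    have h1 : t * I.card ∣ t * (f * p) := by
      have e1 : t * I.card = 1 + n := by rw [Nat.mul_comm, ← hn1]; ring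
      have e2 : t * (f * p) = (1 + n * p) * p := by rw [← hM.htf]; ring
      rw [e1, e2]
      exact hd1
    exact Nat.dvd_of_mul_dvd_mul_left (by omega) h1
  have hd3 : I.card ∣ e * p := by
    have h1 : f * p + e * p = I.card * (p * p) := by rw [← Nat.add_mul, hI3]; ring
    have h2 : I.card ∣ f * p + e * p := ⟨p * p, h1⟩
    exact (Nat.dvd_add_right hd2).mp h2
  have hcop : Nat.Coprime I.card p := by
    apply Nat.Coprime.symm
    rw [Nat.Prime.coprime_iff_not_dvd hp]
    intro h
    have := Nat.le_of_dvd hr_pos h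
    omega
  have hd4 : I.card ∣ e := hcop.dvd_of_dvd_mul_right hd3
  apply hodd
  obtain ⟨k, hk⟩ := hr_even
  obtain ⟨m, hm⟩ := hd4
  exact ⟨k * m, by rw [hm, hk]; ring⟩

end Cfsg.Agent.Lib.Helper80.BGODD
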