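import Mathlib
import Cfsg.Agent.Lib.Helper16.BRStmt2
import Cfsg.Agent.Lib.Helper96.BRCZ
import Cfsg.Agent.Lib.Helper64.BRINV
import Cfsg.Agent.Lib.CT.Orth
import Cfsg.Agent.Lib.CT.ClassMult
import Cfsg.Agent.Lib.Helper80.BGODD

/-!
Piece [EVEN] of S0996 (helper16's split): in the case `δ = -1` with `e` even, `n + 1 = t`.
The involution `w = y ^ (e / 2)` has `|C_G(w)| = e (n + 1)`; the number of pairs of conjugates
of `w` with product in `P \ {1}` and the second orthogonality relation at `w` give the claim.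
-/

set_option autoImplicit false
set_option maxHeartbeats 1000000
set_option linter.style.haveILetI false

namespace Cfsg.Agent.Lib.Helper80.BGEVEN

open Cfsg Cfsg.Agent.Lib.CT.ThirdMain Cfsg.Agent.Lib.Helper16.BRSpec
  Cfsg.Agent.Lib.Helper16.BRStmt2
open scoped ComplexConjugate

universe u

theorem main : Cfsg.Agent.Lib.Helper16.BRStmt2.EvenCase.{u} := by
  intro G _ _ p _ P e t n a b f A B Y hT y ω mult hR hM heven
  classical
  haveI := Fintype.ofFinite G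
  have := Cfsg.Agent.Lib.CT.Wedderburn.finite_irrCharacter G
  haveI := Fintype.ofFinite (IrrCharacter G)
  have hp : p.Prime := Fact.out
  have he2' := hT.he
  have ht2 := hT.ht
  have hpe := hT.hpe
  have he2 : 2 * (e / 2) = e := Nat.two_mul_div_two_of_even heven
  have hepos : 0 < e := by omega
  have hm0 : 0 < e / 2 := by omega
  have hme : e / 2 < e := by omega
  have hpodd : Odd p := by
    obtain ⟨m, hm⟩ := heven
    exact ⟨m * t, by rw [hpe, hm]; ring⟩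
  have hp2 : p ≠ 2 := by
    rintro rfl
    exact absurd hpodd (by decide)
  have hp3 : 3 ≤ p := by
    have := hp.two_le
    omega
  obtain ⟨z, hz, hz1⟩ : ∃ z ∈ (P : Subgroup G), z ≠ 1 := by
    by_contra hcon
    have h0 : (P : Subgroup G) = ⊥ := by
      rw [Subgroup.eq_bot_iff_forall]
      intro x hx
      by_contra hx1
      exact hcon ⟨x, hx, hx1⟩
    have h1 := hT.hP
    rw [h0, Subgroup.card_bot] at h1
    exact hp.one_lt.ne h1
  obtain ⟨w, hw⟩ : ∃ w : G, w = y ^ (e / 2) := ⟨_, rfl⟩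
  obtain ⟨c0, hc0⟩ : ∃ c0 : ℕ, c0 = Nat.card (Subgroup.centralizer ({w} : Set G)) := ⟨_, rfl⟩
  have hww : w * w = 1 := by
    rw [hw, ← pow_add, ← two_mul, he2, ← hR.hyo, pow_orderOf_eq_one]
  have hwP : w ∉ (P : Subgroup G) := by rw [hw]; exact hR.hyP _ hm0 hme
  have hwN : w ∈ Subgroup.normalizer ((P : Subgroup G) : Set G) := by
    rw [hw]
    exact Subgroup.pow_mem _ hR.hyN _
  have hinv : ∀ x ∈ (P : Subgroup G), w * x * w⁻¹ = x⁻¹ :=
    Cfsg.Agent.Lib.Helper64.BRINV.main G p hp2 P hT.hP hT.hC w hwN hwP hww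
  have hwreg : ¬ p ∣ orderOf w := by
    intro h
    have h1 : orderOf w ∣ 2 := orderOf_dvd_of_pow_eq_one (by rw [pow_two]; exact hww)
    have h2 := Nat.le_of_dvd (by norm_num) (dvd_trans h h1)
    omega
  -- (E1) the order of the centralizer of `w`
  have hE1 : e * (1 + n) = c0 := by
    have hcount := Cfsg.Agent.Lib.Helper80.BGODD.conj_count p P e t n a b f A B Y hT y ω mult
      hR hM (e / 2) hm0 hme
    rw [← hw] at hcount
    rw [← hcount, Finset.sum_eq_single (e / 2)]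
    · rw [← hw, hc0]
      exact Cfsg.Agent.Lib.CT.Orth.card_conj_eq_of_isConj w w (IsConj.refl w)
    · intro j' hj' hne
      rw [Finset.mem_Ico] at hj'
      apply Cfsg.Agent.Lib.CT.Orth.card_conj_eq_of_not_isConj
      intro hc
      obtain ⟨c, hc⟩ := isConj_iff.mp hc
      have h1 : y ^ j' * y ^ j' = 1 := by
        rw [← hc]
        calc c * w * c⁻¹ * (c * w * c⁻¹) = c * (w * w) * c⁻¹ := by group
          _ = 1 := by rw [hww]; group
      have hdvd : e ∣ 2 * j' := by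
        rw [← hR.hyo]
        apply orderOf_dvd_of_pow_eq_one
        rw [two_mul, pow_add]
        exact h1
      obtain ⟨c', hc'⟩ := hdvd
      have h7 : c' = 1 := by
        have h8 : 0 < c' := by
          rcases Nat.eq_zero_or_pos c' with h | h
          · rw [h] at hc'; omega
          · exact h
        have h9 : c' < 2 := by
          by_contra h10
          have : e * 2 ≤ e * c' := Nat.mul_le_mul_left e (by omega)
          omega
        omega
      rw [h7, mul_one] at hc'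
      omega
    · intro h
      exact absurd (Finset.mem_Ico.mpr ⟨by omega, hme⟩) h
  -- character values at `w`
  have hω2 : ω ^ (e / 2) = -1 := by
    have h1 : IsPrimitiveRoot (ω ^ (e / 2)) 2 :=
      hR.hω.pow hepos (by rw [mul_comm]; exact he2.symm)
    exact h1.eq_neg_one_of_two_right
  obtain ⟨kk, hkk⟩ : ∃ kk : IrrCharacter G → ℤ,
      ∀ χ, kk χ = ∑ i ∈ Finset.range e, (mult χ i : ℤ) * (-1) ^ i := ⟨_, fun _ => rfl⟩
  have hval : ∀ χ : IrrCharacter G, (χ : G → ℂ) w = ((kk χ : ℤ) : ℂ) := by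
    intro χ
    rw [hw, hR.r3 χ (e / 2) hm0 hme, hkk]
    push_cast
    refine Finset.sum_congr rfl fun i _ => ?_
    rw [pow_mul', hω2]
  have hkB : ∀ χ ∈ B, kk χ = 0 := by
    intro χ hχ
    rw [hkk]
    apply Finset.sum_eq_zero
    intro i hi
    rw [hM.mB χ hχ i (Finset.mem_range.mp hi)]
    simp
  have hkZ : ∀ χ ∈ Zset A B Y, kk χ = (mdeg p χ : ℤ) := by
    intro χ hχ
    have hm := (hM.mZ χ hχ).2
    rw [hkk, Finset.sum_eq_single 0]
    · rw [hm 0 hepos, if_pos rfl]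
      simp
    · intro i hi hi0
      rw [hm i (Finset.mem_range.mp hi), if_neg hi0]
      simp
    · intro h
      exact absurd (Finset.mem_range.mpr hepos) h
  obtain ⟨θ₀, hθ₀⟩ : Y.Nonempty := by
    apply Set.nonempty_of_ncard_ne_zero
    rw [hT.cY]
    omega
  obtain ⟨τ, hτ⟩ : ∃ τ : ℤ, τ = kk θ₀ := ⟨_, rfl⟩
  have hkY : ∀ θ ∈ Y, kk θ = τ := by
    intro θ hθ
    have h1 := hT.hYr θ hθ θ₀ hθ₀ w hwreg
    rw [hval θ, hval θ₀] at h1
    rw [hτ]
    exact_mod_cast h1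
  obtain ⟨K, hK⟩ : ∃ K : ℤ, K = ∑ χ ∈ (Set.toFinite A).toFinset, (kk χ) ^ 2 := ⟨_, rfl⟩
  have hSA : (∑ χ ∈ (Set.toFinite A).toFinset, ((kk χ : ℤ) : ℂ) ^ 2) = (K : ℂ) := by
    rw [hK]
    push_cast
    rfl
  -- (E2) pairs of conjugates of `w` with product `z`
  have hcountp : (Finset.univ.filter fun pr : G × G =>
        pr.1 * w * pr.1⁻¹ * (pr.2 * w * pr.2⁻¹) = z).card = p * c0 * c0 := by
    rw [hc0, hw]
    exact Cfsg.Agent.Lib.Helper96.BRCZ.pair_count p hpodd (P : Subgroup G) hT.hP e y hR.hyo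
      heven hepos hR.hcov hR.hconj hR.hyP (by rw [← hw]; exact hinv) z hz hz1
  have hpc := Cfsg.Agent.Lib.CT.ClassMult.conj_pair_count w w z
  rw [hcountp] at hpc
  have hYc : ∑ θ ∈ (Set.toFinite Y).toFinset, (θ : G → ℂ) z = 1 := by
    have h2 := hT.hYc z hz hz1
    rw [finsum_mem_eq_finite_toFinset_sum _ (Set.toFinite Y)] at h2
    rw [h2]
    push_cast
    ring
  have hsum : ∑ χ : IrrCharacter G,
      (χ : G → ℂ) w * (χ : G → ℂ) w * conj ((χ : G → ℂ) z) / (χ : G → ℂ) 1 =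
      1 + (K : ℂ) / ((1 + n * p : ℕ) : ℂ) + (τ : ℂ) ^ 2 / (f : ℂ) := by
    rw [Cfsg.Agent.Lib.Helper96.BRCZ.sum_split A B Y hT.htA hT.htB hT.htY hT.hAB hT.hAY hT.hBY]
    have e1 : ((triv G : IrrCharacter G) : G → ℂ) w * ((triv G : IrrCharacter G) : G → ℂ) w *
        conj (((triv G : IrrCharacter G) : G → ℂ) z) / ((triv G : IrrCharacter G) : G → ℂ) 1
        = 1 := by
      simp [coe_triv]
    have eA : ∑ χ ∈ (Set.toFinite A).toFinset,
        (χ : G → ℂ) w * (χ : G → ℂ) w * conj ((χ : G → ℂ) z) / (χ : G → ℂ) 1 =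
        (K : ℂ) / ((1 + n * p : ℕ) : ℂ) := by
      rw [← hSA, Finset.sum_div]
      refine Finset.sum_congr rfl fun χ hχ => ?_
      have hχA : χ ∈ A := (Set.Finite.mem_toFinset _).mp hχ
      rw [hval χ, (hT.hA χ hχA).1, (hT.hA χ hχA).2 z hz hz1]
      simp [pow_two]
    have eB : ∑ χ ∈ (Set.toFinite B).toFinset,
        (χ : G → ℂ) w * (χ : G → ℂ) w * conj ((χ : G → ℂ) z) / (χ : G → ℂ) 1 = 0 := by
      apply Finset.sum_eq_zero
      intro χ hχ
      have hχB : χ ∈ B := (Set.Finite.mem_toFinset _).mp hχ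
      rw [hval χ, hkB χ hχB]
      simp
    have eY : ∑ θ ∈ (Set.toFinite Y).toFinset,
        (θ : G → ℂ) w * (θ : G → ℂ) w * conj ((θ : G → ℂ) z) / (θ : G → ℂ) 1 =
        (τ : ℂ) ^ 2 / (f : ℂ) := by
      have h1 : ∀ θ ∈ (Set.toFinite Y).toFinset,
          (θ : G → ℂ) w * (θ : G → ℂ) w * conj ((θ : G → ℂ) z) / (θ : G → ℂ) 1 =
          (τ : ℂ) ^ 2 / (f : ℂ) * conj ((θ : G → ℂ) z) := by
        intro θ hθ
        have hθY : θ ∈ Y := (Set.Finite.mem_toFinset _).mp hθ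
        rw [hval θ, hT.hY1 θ hθY, hkY θ hθY]
        ring
      rw [Finset.sum_congr rfl h1, ← Finset.mul_sum, ← map_sum, hYc, map_one, mul_one]
    have eZ : ∑ χ ∈ (Set.toFinite (Zset A B Y)).toFinset,
        (χ : G → ℂ) w * (χ : G → ℂ) w * conj ((χ : G → ℂ) z) / (χ : G → ℂ) 1 = 0 := by
      apply Finset.sum_eq_zero
      intro χ hχ
      have hχZ : χ ∈ Zset A B Y := (Set.Finite.mem_toFinset _).mp hχ
      rw [hT.hZ χ hχZ z hz hz1]
      simp
    rw [e1, eA, eB, eY, eZ]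
    ring
  rw [hsum] at hpc
  -- (E3) second orthogonality at `w`
  have hE3C : (c0 : ℂ) = 1 + (K : ℂ) + (t : ℂ) * (τ : ℂ) ^ 2 + (n : ℂ) := by
    have h1 := Cfsg.Agent.Lib.CT.Orth.second_orthogonality_sum_of_isConj w w (IsConj.refl w)
    rw [← hc0] at h1
    rw [← h1, Cfsg.Agent.Lib.Helper96.BRCZ.sum_split A B Y hT.htA hT.htB hT.htY hT.hAB hT.hAY
      hT.hBY]
    have e1 : ((triv G : IrrCharacter G) : G → ℂ) w *
        conj (((triv G : IrrCharacter G) : G → ℂ) w) = 1 := by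
      simp [coe_triv]
    have eA : ∑ χ ∈ (Set.toFinite A).toFinset, (χ : G → ℂ) w * conj ((χ : G → ℂ) w) =
        (K : ℂ) := by
      rw [← hSA]
      refine Finset.sum_congr rfl fun χ _ => ?_
      rw [hval χ, map_intCast, pow_two]
    have eB : ∑ χ ∈ (Set.toFinite B).toFinset, (χ : G → ℂ) w * conj ((χ : G → ℂ) w) = 0 := by
      apply Finset.sum_eq_zero
      intro χ hχ
      have hχB : χ ∈ B := (Set.Finite.mem_toFinset _).mp hχ
      rw [hval χ, hkB χ hχB]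
      simp
    have eY : ∑ θ ∈ (Set.toFinite Y).toFinset, (θ : G → ℂ) w * conj ((θ : G → ℂ) w) =
        (t : ℂ) * (τ : ℂ) ^ 2 := by
      have h2 : ∀ θ ∈ (Set.toFinite Y).toFinset, (θ : G → ℂ) w * conj ((θ : G → ℂ) w) =
          (τ : ℂ) ^ 2 := by
        intro θ hθ
        have hθY : θ ∈ Y := (Set.Finite.mem_toFinset _).mp hθ
        rw [hval θ, hkY θ hθY, map_intCast, pow_two]
      rw [Finset.sum_congr rfl h2, Finset.sum_const, ← Set.ncard_eq_toFinset_card Y, hT.cY,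
        nsmul_eq_mul]
    have eZ : ∑ χ ∈ (Set.toFinite (Zset A B Y)).toFinset,
        (χ : G → ℂ) w * conj ((χ : G → ℂ) w) = (n : ℂ) := by
      have h2 : ∀ χ ∈ (Set.toFinite (Zset A B Y)).toFinset,
          (χ : G → ℂ) w * conj ((χ : G → ℂ) w) = ((mdeg p χ ^ 2 : ℕ) : ℂ) := by
        intro χ hχ
        have hχZ : χ ∈ Zset A B Y := (Set.Finite.mem_toFinset _).mp hχ
        rw [hval χ, hkZ χ hχZ, map_intCast]
        push_cast
        ring
      rw [Finset.sum_congr rfl h2, ← Nat.cast_sum]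
      have h3 := hM.mZs
      rw [finsum_mem_eq_finite_toFinset_sum _ (Set.toFinite _)] at h3
      rw [h3]
    rw [e1, eA, eB, eY, eZ]
    ring
  have hE3 : (c0 : ℤ) = 1 + K + (t : ℤ) * τ ^ 2 + (n : ℤ) := by exact_mod_cast hE3C
  -- arithmetic
  have hf0 : (f : ℂ) ≠ 0 := by
    have h0 : f ≠ 0 := by have := hT.hf0; omega
    exact_mod_cast h0
  have hv0 : ((1 + n * p : ℕ) : ℂ) ≠ 0 := by
    have : 1 + n * p ≠ 0 := by omega
    exact_mod_cast this
  have hp0 : (p : ℂ) ≠ 0 := by exact_mod_cast hp.ne_zero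
  have hmainC : ((c0 : ℂ)) ^ 2 =
      (e : ℂ) * (((1 + n * p : ℕ) : ℂ) + (K : ℂ) + (t : ℂ) * (τ : ℂ) ^ 2) := by
    rw [hT.hG] at hpc
    have hvt' : ((1 + n * p : ℕ) : ℂ) = (t : ℂ) * (f : ℂ) := by exact_mod_cast hM.htf.symm
    have h2 : ((1 + n * p : ℕ) : ℂ) / (f : ℂ) = (t : ℂ) := by
      rw [hvt']
      field_simp
    have h3 : (p : ℂ) * ((c0 : ℂ)) ^ 2 =
        (p : ℂ) * ((e : ℂ) * (((1 + n * p : ℕ) : ℂ) + (K : ℂ) + (t : ℂ) * (τ : ℂ) ^ 2)) := by
      calc (p : ℂ) * ((c0 : ℂ)) ^ 2 = ((p * c0 * c0 : ℕ) : ℂ) := by push_cast; ring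
        _ = (((1 + n * p) * (p * e) : ℕ) : ℂ) *
            (1 + (K : ℂ) / ((1 + n * p : ℕ) : ℂ) + (τ : ℂ) ^ 2 / (f : ℂ)) := hpc
        _ = (p : ℂ) * ((e : ℂ) * (((1 + n * p : ℕ) : ℂ) + (K : ℂ) +
              ((1 + n * p : ℕ) : ℂ) / (f : ℂ) * (τ : ℂ) ^ 2)) := by
            rw [Nat.cast_mul ((1 + n * p)) (p * e), Nat.cast_mul p e]
            field_simp
        _ = _ := by rw [h2]
    exact mul_left_cancel₀ hp0 h3
  have hmain : ((c0 : ℤ)) ^ 2 = (e : ℤ) * (((1 + n * p : ℕ) : ℤ) + K + (t : ℤ) * τ ^ 2) := by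
    exact_mod_cast hmainC
  have hc0' : (c0 : ℤ) = (e : ℤ) * (1 + (n : ℤ)) := by exact_mod_cast hE1.symm
  have hPe : (p : ℤ) = (e : ℤ) * (t : ℤ) + 1 := by exact_mod_cast hpe
  rw [hc0'] at hmain hE3
  push_cast at hmain
  rw [hPe] at hmain
  have key : (e : ℤ) ^ 2 * ((n : ℤ) * ((n : ℤ) + 1 - (t : ℤ))) = 0 := by
    linear_combination hmain - (e : ℤ) * hE3
  have hE0 : (e : ℤ) ^ 2 ≠ 0 := by
    have : (e : ℤ) ≠ 0 := by exact_mod_cast hepos.ne'
    exact pow_ne_zero 2 this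
  have hn0 : (n : ℤ) ≠ 0 := by
    have := hT.hn1
    have : n ≠ 0 := by omega
    exact_mod_cast this
  have h5 : (n : ℤ) + 1 - (t : ℤ) = 0 := by
    rcases mul_eq_zero.mp key with h | h
    · exact absurd h hE0
    · exact (mul_eq_zero.mp h).resolve_left hn0
  have h6 : ((n + 1 : ℕ) : ℤ) = (t : ℤ) := by push_cast; linarith
  exact_mod_cast h6

end Cfsg.Agent.Lib.Helper80.BGEVEN
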