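import Mathlib
import Cfsg.Prelude.Def_Characters
import Cfsg.Prelude.Def_Blocks

/-!
# S0997 (Brauer-Tuan: simple groups of order `p q^b g₀`, `g₀ < p - 1`): statements of the pieces

`Hyp G p q b g₀`: `G` simple, not cyclic, `|G| = p q^b g₀`, `p ≠ q` primes, `g₀ < p - 1`.
`Ctx G p`: the output of S4441 (principal `p`-block `= X ⊔ Y`, signs `εX`, `ε`).

Plan.  The trivial character lies in `X`, all other members of `X` have degree divisible by `q`,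
the members `θ` of `Y` are faithful of degree `f ∣ g₀`, `q ∤ f` (`XFacts`, `YFacts`).
Type I (`ε = 1`, `f = e`): S4503 gives `2 f + 1 = p`, S4504 gives `G ≅ PSL(2, p)`.
Type II (`ε = -1`, `f = p - e`): `C_G(P) = P` (S4729), `g₀ = f`, `e = q^j`, the degree equation
gives `q = 2`; `p - 1` is a power of `2` and some nontrivial `χ₀ ∈ X` has degree a power of `2`;
`χ₀` vanishes at a `2`-central involution `z`, so the `2`-block `B'` of `χ₀` contains no character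
of odd degree; `Φ = ∑_{χ ∈ X ∩ B'} εX χ • χ` vanishes on the `2`-singular elements (block
orthogonality for `p` and for `2`), so `2^b ∣ Φ(1) ≠ 0` and `4^b ≤ Φ(1)^2 ≤ |G| (e - 1)`, i.e.
`2^b ≤ p f (e - 1)`; with `2^b ≡ -1 (mod p)` this forces `2^b = p - 1`, `|G| < p^3`, and S0999
applies.
-/

set_option autoImplicit false

namespace Cfsg.Agent.Lib.Helper80.BTStmt

open Cfsg
open scoped ComplexConjugate

universe u

/-- The hypotheses of the theorem. -/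
def Hyp (G : Type u) [Group G] (p q b g₀ : ℕ) : Prop :=
  IsSimpleGroup G ∧ ¬ IsCyclic G ∧ p.Prime ∧ q.Prime ∧ p ≠ q ∧
    Nat.card G = p * q ^ b * g₀ ∧ g₀ < p - 1

/-- The output of S4441: the principal `p`-block of a group with a Sylow `p`-subgroup of
order `p`. -/
structure Ctx (G : Type u) [Group G] (p : ℕ) where
  M : Ideal AlgInt
  hM : IsPModular p M
  P : Sylow p G
  hP : Nat.card P = p
  e : ℕ
  he : (Subgroup.centralizer ((P : Subgroup G) : Set G)).relIndex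
    (Subgroup.normalizer ((P : Subgroup G) : Set G)) = e
  X : Set (IrrCharacter G)
  Y : Set (IrrCharacter G)
  hXY : principalBlock M G = X ∪ Y
  hdisj : Disjoint X Y
  hX : Nat.card X = e
  hY : Nat.card Y = (p - 1) / e
  εX : IrrCharacter G → ℤ
  ε : ℤ
  hεX : ∀ χ ∈ X, (εX χ = 1 ∨ εX χ = -1) ∧
    (charDegree (χ : G → ℂ) : ℤ) ≡ εX χ [ZMOD p] ∧
    ∀ x : G, x ∈ (P : Subgroup G) → x ≠ 1 →
      ∀ y : G, y ∈ Subgroup.centralizer ((P : Subgroup G) : Set G) → ¬ p ∣ orderOf y →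
        (χ : G → ℂ) (x * y) = (εX χ : ℂ)
  hε : ε = 1 ∨ ε = -1
  hYdeg : ∀ θ ∈ Y, (charDegree (θ : G → ℂ) : ℤ) ≡ ε * (e : ℤ) [ZMOD p]
  hYreg : ∀ θ ∈ Y, ∀ θ' ∈ Y, ∀ g : G, ¬ p ∣ orderOf g → (θ : G → ℂ) g = (θ' : G → ℂ) g
  hYX : ∀ θ ∈ Y, ∀ g : G, ¬ p ∣ orderOf g →
    (ε : ℂ) * (θ : G → ℂ) g = ∑ᶠ χ ∈ X, (εX χ : ℂ) * (χ : G → ℂ) g

/-- The trivial character lies in `X`; the other members of `X` have degree divisible by `q`. -/
def XFacts {G : Type u} [Group G] {p : ℕ} (c : Ctx G p) (q : ℕ) : Prop :=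
  (∃ t ∈ c.X, (t : G → ℂ) = fun _ => 1) ∧
    ∀ χ ∈ c.X, (χ : G → ℂ) ≠ (fun _ => 1) → q ∣ charDegree (χ : G → ℂ)

/-- `Y` is nonempty and its members are faithful of degree `f ≥ 2`, `f ∣ g₀`, `q ∤ f`. -/
def YFacts {G : Type u} [Group G] {p : ℕ} (c : Ctx G p) (q g₀ : ℕ) : Prop :=
  c.Y.Nonempty ∧ ∀ θ ∈ c.Y, ¬ q ∣ charDegree (θ : G → ℂ) ∧ charDegree (θ : G → ℂ) ∣ g₀ ∧
    2 ≤ charDegree (θ : G → ℂ) ∧ ∀ g : G, (θ : G → ℂ) g = (θ : G → ℂ) 1 → g = 1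

/-- Type II: `ε = -1` and the members of `Y` have degree `p - e`. -/
def TypeII {G : Type u} [Group G] {p : ℕ} (c : Ctx G p) : Prop :=
  c.ε = -1 ∧ ∀ θ ∈ c.Y, charDegree (θ : G → ℂ) + c.e = p

/-- Local structure in type II: elements of order divisible by `p` have order `p`, and
`|Syl_p(G)| * (p e) = |G|`. -/
def Loc {G : Type u} [Group G] {p : ℕ} (c : Ctx G p) : Prop :=
  (∀ g : G, p ∣ orderOf g → orderOf g = p) ∧ Nat.card (Sylow p G) * (p * c.e) = Nat.card G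

/-! ## Pieces: the block `B₀(p)` -/

/-- ONEX. -/
def ONEX : Prop :=
  ∀ {G : Type u} [Group G] [Finite G] (p q b g₀ : ℕ), Hyp G p q b g₀ → ∀ c : Ctx G p, XFacts c q

/-- YFACTS. -/
def YFACTS : Prop :=
  ∀ {G : Type u} [Group G] [Finite G] (p q b g₀ : ℕ), Hyp G p q b g₀ → ∀ c : Ctx G p,
    XFacts c q → YFacts c q g₀

/-- TYPES: type I or type II. -/
def TYPES : Prop :=
  ∀ {G : Type u} [Group G] [Finite G] (p q b g₀ : ℕ), Hyp G p q b g₀ → ∀ c : Ctx G p,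
    YFacts c q g₀ →
    (c.ε = 1 ∧ ∀ θ ∈ c.Y, charDegree (θ : G → ℂ) = c.e) ∨ TypeII c

/-- T1: in type I the degree is `(p - 1) / 2` (S4503). -/
def T1 : Prop :=
  ∀ {G : Type u} [Group G] [Finite G] (p q b g₀ : ℕ), Hyp G p q b g₀ → ∀ c : Ctx G p,
    YFacts c q g₀ → ∀ θ ∈ c.Y, charDegree (θ : G → ℂ) = c.e → 2 * charDegree (θ : G → ℂ) + 1 = p

/-- ISO1: a faithful character of degree `(p - 1) / 2` gives `G ≅ PSL(2, p)` (S4504). -/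
def ISO1 : Prop :=
  ∀ {G : Type u} [Group G] [Finite G] (p q b g₀ : ℕ) [Fact p.Prime], Hyp G p q b g₀ →
    ∀ χ : G → ℂ, IsCharacter G χ → (∀ g : G, χ g = χ 1 → g = 1) → 2 * charDegree χ + 1 = p →
    Nonempty (G ≃* Matrix.ProjectiveSpecialLinearGroup (Fin 2) (ZMod p))

/-- NT3: arithmetic of `|PSL(2, p)| = p q^b g₀`. -/
def NT3 : Prop :=
  ∀ p q b g₀ : ℕ, p.Prime → q.Prime → p ≠ q → p ≠ 2 → (p - 1) * (p + 1) = 2 * (q ^ b * g₀) →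
    g₀ < p - 1 → ∃ m : ℕ, p = 2 ^ m + 1 ∨ p = 2 ^ m - 1

/-! ## Pieces: type II, local structure and `q = 2` -/

/-- SC: `C_G(P) = P` (S4729) and its consequences. -/
def SC : Prop :=
  ∀ {G : Type u} [Group G] [Finite G] (p q b g₀ : ℕ), Hyp G p q b g₀ → ∀ c : Ctx G p,
    YFacts c q g₀ → TypeII c → Loc c

/-- G0F: `g₀ = f` (S4503). -/
def G0F : Prop :=
  ∀ {G : Type u} [Group G] [Finite G] (p q b g₀ : ℕ), Hyp G p q b g₀ → ∀ c : Ctx G p,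
    YFacts c q g₀ → TypeII c → ∀ θ ∈ c.Y, charDegree (θ : G → ℂ) = g₀

/-- EPOW: `e` is a power of `q`, `e ≠ 1`. -/
def EPOW : Prop :=
  ∀ {G : Type u} [Group G] [Finite G] (p q b g₀ : ℕ), Hyp G p q b g₀ → ∀ c : Ctx G p,
    YFacts c q g₀ → TypeII c → Loc c → (∀ θ ∈ c.Y, charDegree (θ : G → ℂ) = g₀) →
    ∃ j : ℕ, 1 ≤ j ∧ c.e = q ^ j

/-- QTWO: `q = 2` (degree equation modulo `q`). -/
def QTWO : Prop :=
  ∀ {G : Type u} [Group G] [Finite G] (p q b g₀ : ℕ), Hyp G p q b g₀ → ∀ c : Ctx G p,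
    XFacts c q → YFacts c q g₀ → TypeII c → (∃ j : ℕ, 1 ≤ j ∧ c.e = q ^ j) → q = 2

/-- NT1: arithmetic. -/
def NT1 : Prop :=
  ∀ j a d : ℕ, d ∣ 2 ^ j + 1 →
    (((2 ^ a * d : ℕ) : ℤ) ≡ 1 [ZMOD ((2 ^ (j + 1) + 1 : ℕ) : ℤ)] ∨
      ((2 ^ a * d : ℕ) : ℤ) ≡ -1 [ZMOD ((2 ^ (j + 1) + 1 : ℕ) : ℤ)]) →
    d = 1 ∨ d = 2 ^ j + 1

/-- The conclusion of POW2A / POW2B: `p - 1` is a power of `2` and some nontrivial member of `X`
has degree a power of `2`. -/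
def Pow2 {G : Type u} [Group G] {p : ℕ} (c : Ctx G p) : Prop :=
  (∃ k : ℕ, p = 2 ^ k + 1) ∧
    ∃ χ₀ ∈ c.X, (χ₀ : G → ℂ) ≠ (fun _ => 1) ∧ ∃ a : ℕ, 1 ≤ a ∧ charDegree (χ₀ : G → ℂ) = 2 ^ a

/-- POW2A: the case `e = 2`. -/
def POW2A : Prop :=
  ∀ {G : Type u} [Group G] [Finite G] (p b g₀ : ℕ), Hyp G p 2 b g₀ → ∀ c : Ctx G p,
    XFacts c 2 → YFacts c 2 g₀ → TypeII c → (∀ θ ∈ c.Y, charDegree (θ : G → ℂ) = g₀) →
    c.e = 2 → Pow2 c

/-- POW2B: the case `4 ∣ e`. -/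
def POW2B : Prop :=
  ∀ {G : Type u} [Group G] [Finite G] (p b g₀ : ℕ), Hyp G p 2 b g₀ → ∀ c : Ctx G p,
    XFacts c 2 → YFacts c 2 g₀ → TypeII c → (∀ θ ∈ c.Y, charDegree (θ : G → ℂ) = g₀) →
    (∃ j : ℕ, 2 ≤ j ∧ c.e = 2 ^ j) → Pow2 c

/-! ## Pieces: the bound `2^b ≤ p g₀ (e - 1)` -/

/-- CINV: a group of even order has an involution with odd class size. -/
def CINV : Prop :=
  ∀ {G : Type u} [Group G] [Finite G], 2 ∣ Nat.card G →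
    ∃ z : G, orderOf z = 2 ∧ Odd (Subgroup.centralizer ({z} : Set G)).index

/-- VAN: an irreducible character of degree `2^a > 1` of a nonabelian simple group vanishes at
the elements `z ≠ 1` of odd class size (Burnside). -/
def VAN : Prop :=
  ∀ {G : Type u} [Group G] [Finite G], IsSimpleGroup G → ¬ IsCyclic G →
    ∀ (χ : IrrCharacter G) (a : ℕ), 1 ≤ a → charDegree (χ : G → ℂ) = 2 ^ a →
    ∀ z : G, z ≠ 1 → Odd (Subgroup.centralizer ({z} : Set G)).index → (χ : G → ℂ) z = 0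

/-- NIB: a character of odd degree is not in the `2`-block of a character vanishing at an
involution of odd class size. -/
def NIB : Prop :=
  ∀ {G : Type u} [Group G] [Finite G] (M : Ideal AlgInt), IsPModular 2 M →
    ∀ (χ₀ ψ : IrrCharacter G) (z : G), orderOf z = 2 →
    Odd (Subgroup.centralizer ({z} : Set G)).index → (χ₀ : G → ℂ) z = 0 →
    Odd (charDegree (ψ : G → ℂ)) → ψ ∉ blockOf M (χ₀ : G → ℂ)

/-- BTO: block orthogonality for two primes (Brauer-Tuan). -/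
def BTO : Prop :=
  ∀ {G : Type u} [Group G] [Finite G] (p q : ℕ) [Fact p.Prime] [Fact q.Prime]
    (Mp Mq : Ideal AlgInt), IsPModular p Mp → IsPModular q Mq →
    (∀ g : G, ¬ p ∣ orderOf g ∨ ¬ q ∣ orderOf g) →
    ∀ B B' : Set (IrrCharacter G), IsPBlock Mp B → IsPBlock Mq B' →
    ∀ x y : G, p ∣ orderOf x → q ∣ orderOf y →
    ∑ᶠ χ ∈ B ∩ B', conj ((χ : G → ℂ) x) * (χ : G → ℂ) y = 0

/-- GB: a signed sum of irreducible characters vanishing on the `2`-singular elements. -/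
def GB : Prop :=
  ∀ {G : Type u} [Group G] [Finite G] (b : ℕ), 2 ^ b ∣ Nat.card G →
    ∀ (S : Finset (IrrCharacter G)) (ε : IrrCharacter G → ℤ), (∀ χ ∈ S, ε χ = 1 ∨ ε χ = -1) →
    (∀ y : G, 2 ∣ orderOf y → ∑ χ ∈ S, (ε χ : ℂ) * (χ : G → ℂ) y = 0) →
    ((2 : ℤ) ^ b ∣ ∑ χ ∈ S, ε χ * (charDegree (χ : G → ℂ) : ℤ)) ∧
      (∑ χ ∈ S, ε χ * (charDegree (χ : G → ℂ) : ℤ)) ^ 2 ≤ (Nat.card G : ℤ) * (S.card : ℤ)

/-- BND: the bound. -/
def BND : Prop :=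
  ∀ {G : Type u} [Group G] [Finite G] (p b g₀ : ℕ), Hyp G p 2 b g₀ → ∀ c : Ctx G p,
    XFacts c 2 → YFacts c 2 g₀ → TypeII c → Loc c → Pow2 c → 2 ^ b ≤ p * g₀ * (c.e - 1)

/-! ## Pieces: the end of type II -/

/-- MODP: `2^b ≡ -1 (mod p)` (Sylow count). -/
def MODP : Prop :=
  ∀ {G : Type u} [Group G] [Finite G] (p b g₀ : ℕ), Hyp G p 2 b g₀ → ∀ c : Ctx G p,
    YFacts c 2 g₀ → TypeII c → Loc c → (∀ θ ∈ c.Y, charDegree (θ : G → ℂ) = g₀) →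
    p ∣ 2 ^ b + 1

/-- NT2: arithmetic. -/
def NT2 : Prop :=
  ∀ k b e f : ℕ, f + e = 2 ^ k + 1 → 1 ≤ e → (2 ^ k + 1) ∣ 2 ^ b + 1 →
    2 ^ b ≤ (2 ^ k + 1) * f * (e - 1) → 2 ^ b = 2 ^ k

end Cfsg.Agent.Lib.Helper80.BTStmt
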