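import Mathlib
import Cfsg.Agent.Lib.Helper3.Spectral
import Cfsg.Agent.Lib.Helper80.Deg2p
import Cfsg.Agent.Lib.CT.Wedderburn

/-!
# Rationality of Galois-stable sums of character values

A sum `∑ₛ cₛ(x) cₛ(y)` over a finite family of characters that is permuted by all the maps
`χ ↦ χ(· ^ j)` with `j` prime to the group order is a rational number.
-/

set_option autoImplicit false

namespace Cfsg.Agent.Lib.Helper80.GaloisRat

open Cfsg Cfsg.Agent.Lib.Helper3.Spectral Cfsg.Agent.Lib.Helper80.Deg2p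

/-- The `m`-th cyclotomic subfield of `ℂ`. -/
noncomputable abbrev cyc (m : ℕ) : IntermediateField ℚ ℂ :=
  IntermediateField.adjoin ℚ {Complex.exp (2 * Real.pi * Complex.I / (m : ℂ))}

theorem zeta_mem (m : ℕ) : Complex.exp (2 * Real.pi * Complex.I / (m : ℂ)) ∈ cyc m :=
  IntermediateField.subset_adjoin ℚ _ (Set.mem_singleton _)

theorem root_mem (m : ℕ) [NeZero m] {η : ℂ} (hη : η ^ m = 1) : η ∈ cyc m := by
  obtain ⟨i, -, hi⟩ := (Complex.isPrimitiveRoot_exp m (NeZero.ne m)).eq_pow_of_pow_eq_one hη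
  rw [← hi]
  exact pow_mem (zeta_mem m) i

theorem isGalois_cyc (m : ℕ) [NeZero m] : IsGalois ℚ (cyc m) := by
  have hζ := Complex.isPrimitiveRoot_exp m (NeZero.ne m)
  have halg : IsAlgebraic ℚ (Complex.exp (2 * Real.pi * Complex.I / (m : ℂ))) :=
    (hζ.isIntegral (NeZero.pos m)).tower_top.isAlgebraic
  have : IsCyclotomicExtension {m} ℚ (cyc m) := by
    change IsCyclotomicExtension {m} ℚ (IntermediateField.adjoin ℚ
      {Complex.exp (2 * Real.pi * Complex.I / (m : ℂ))}).toSubalgebra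
    rw [IntermediateField.adjoin_simple_toSubalgebra_of_isAlgebraic halg]
    exact hζ.adjoin_isCyclotomicExtension ℚ
  exact IsCyclotomicExtension.isGalois {m} ℚ (cyc m)

/-- A Galois automorphism of the cyclotomic field raises all `m`-th roots of unity to a common
power `j` prime to `m`. -/
theorem exists_pow (m : ℕ) [NeZero m] (σ : cyc m ≃ₐ[ℚ] cyc m) :
    ∃ j : ℕ, j.Coprime m ∧ ∀ (η : ℂ) (hη : η ^ m = 1),
      ((σ ⟨η, root_mem m hη⟩ : cyc m) : ℂ) = η ^ j := by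
  have hζ := Complex.isPrimitiveRoot_exp m (NeZero.ne m)
  set ζ := Complex.exp (2 * Real.pi * Complex.I / (m : ℂ)) with hζdef
  set ζ' : cyc m := ⟨ζ, zeta_mem m⟩ with hζ'
  have hζ'p : IsPrimitiveRoot ζ' m :=
    IsPrimitiveRoot.of_map_of_injective (f := (cyc m).val)
      (show IsPrimitiveRoot ((cyc m).val ζ') m from hζ) Subtype.val_injective
  have hσ : IsPrimitiveRoot (σ ζ') m := hζ'p.map_of_injective σ.injective
  obtain ⟨j, -, hj⟩ := hζ'p.eq_pow_of_pow_eq_one hσ.pow_eq_one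
  have hjc : j.Coprime m := (hζ'p.pow_iff_coprime (NeZero.pos m) j).mp (hj ▸ hσ)
  refine ⟨j, hjc, fun η hη => ?_⟩
  obtain ⟨e, -, he⟩ := hζ.eq_pow_of_pow_eq_one hη
  have h1 : (⟨η, root_mem m hη⟩ : cyc m) = ζ' ^ e :=
    Subtype.ext (by rw [SubmonoidClass.coe_pow]; exact he.symm)
  rw [h1, map_pow, ← hj, ← pow_mul, SubmonoidClass.coe_pow]
  show ζ ^ (j * e) = η ^ j
  rw [← he, ← pow_mul, mul_comm]

variable {G : Type*} [Group G] [Finite G]

theorem char_mem {χ : G → ℂ} (hχ : IsCharacter G χ) (m : ℕ) [NeZero m] (g : G)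
    (hg : orderOf g ∣ m) : χ g ∈ cyc m := by
  obtain ⟨n, ρ, rfl⟩ := hχ
  obtain ⟨b, μ, hb, hμ⟩ := exists_eigenbasis ρ g
  have h1 : ρ.character g = ∑ i, μ i := trace_eq_sum_of_eigenbasis b (ρ g) μ hb
  rw [h1]
  refine sum_mem fun i _ => root_mem m ?_
  obtain ⟨c, hc⟩ := hg
  rw [hc, pow_mul, hμ i, one_pow]

/-- The Galois action on character values is by power maps. -/
theorem galois_char {χ : G → ℂ} (hχ : IsCharacter G χ) (m : ℕ) [NeZero m]
    (hm : ∀ g : G, orderOf g ∣ m) (σ : cyc m ≃ₐ[ℚ] cyc m) (j : ℕ)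
    (hj : ∀ (η : ℂ) (hη : η ^ m = 1), ((σ ⟨η, root_mem m hη⟩ : cyc m) : ℂ) = η ^ j) (g : G) :
    ((σ ⟨χ g, char_mem hχ m g (hm g)⟩ : cyc m) : ℂ) = χ (g ^ j) := by
  obtain ⟨n, ρ, rfl⟩ := hχ
  obtain ⟨b, μ, hb, hμ⟩ := exists_eigenbasis ρ g
  have hμm : ∀ t, μ t ^ m = 1 := fun t => by
    obtain ⟨c, hc⟩ := hm g
    rw [hc, pow_mul, hμ t, one_pow]
  have h1 : (⟨ρ.character g, char_mem ⟨n, ρ, rfl⟩ m g (hm g)⟩ : cyc m)
      = ∑ t, (⟨μ t, root_mem m (hμm t)⟩ : cyc m) := by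
    apply Subtype.ext
    rw [AddSubmonoidClass.coe_finsetSum]
    exact trace_eq_sum_of_eigenbasis b (ρ g) μ hb
  rw [h1, map_sum, AddSubmonoidClass.coe_finsetSum]
  have h2 : ρ.character (g ^ j) = ∑ t, μ t ^ j := by
    show LinearMap.trace ℂ _ (ρ (g ^ j)) = _
    apply trace_eq_sum_of_eigenbasis b
    intro t
    rw [map_pow]
    exact pow_apply_eigen (ρ g) (b t) (μ t) (hb t) j
  rw [h2]
  exact Finset.sum_congr rfl fun t _ => hj (μ t) (hμm t)

/-- A sum `∑ₛ cₛ(x) cₛ(y)` of products of character values over a finite family of characters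
that is permuted by every power map `g ↦ g ^ j` (`j` prime to `|G|`) is rational. -/
theorem exists_rat_of_stable {S : Type*} [Fintype S] (c : S → G → ℂ)
    (hc : ∀ s, IsCharacter G (c s))
    (hstab : ∀ j : ℕ, j.Coprime (Nat.card G) →
      ∃ π : S → S, Function.Injective π ∧ ∀ s g, c (π s) g = c s (g ^ j))
    (x y : G) : ∃ q : ℚ, ∑ s, c s x * c s y = (q : ℂ) := by
  set m := Nat.card G with hm
  have : NeZero m := ⟨Nat.card_pos.ne'⟩
  have hord : ∀ g : G, orderOf g ∣ m := fun g => orderOf_dvd_natCard g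
  have := isGalois_cyc m
  set a : cyc m := ∑ s, (⟨c s x, char_mem (hc s) m x (hord x)⟩ : cyc m) *
    ⟨c s y, char_mem (hc s) m y (hord y)⟩ with ha
  have hfix : ∀ σ : cyc m ≃ₐ[ℚ] cyc m, σ a = a := by
    intro σ
    obtain ⟨j, hjc, hj⟩ := exists_pow m σ
    obtain ⟨π, hπ, hπc⟩ := hstab j hjc
    apply Subtype.ext
    rw [ha, map_sum, AddSubmonoidClass.coe_finsetSum, AddSubmonoidClass.coe_finsetSum]
    have hbij : Function.Bijective π := Finite.injective_iff_bijective.mp hπ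
    have h1 : ∑ s, (((⟨c s x, char_mem (hc s) m x (hord x)⟩ : cyc m) *
        ⟨c s y, char_mem (hc s) m y (hord y)⟩ : cyc m) : ℂ) = ∑ s, c (π s) x * c (π s) y := by
      refine Eq.trans ?_ ((Equiv.ofBijective π hbij).sum_comp (fun s => c s x * c s y)).symm
      rfl
    rw [h1]
    refine Finset.sum_congr rfl fun s _ => ?_
    rw [map_mul, MulMemClass.coe_mul, galois_char (hc s) m hord σ j hj x,
      galois_char (hc s) m hord σ j hj y, hπc, hπc]
  obtain ⟨q, hq⟩ := (InfiniteGalois.mem_range_algebraMap_iff_fixed a).mpr hfix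
  refine ⟨q, ?_⟩
  have h1 : ((a : cyc m) : ℂ) = (q : ℂ) := by
    rw [← hq]
    rfl
  rw [← h1, ha, AddSubmonoidClass.coe_finsetSum]
  rfl

end Cfsg.Agent.Lib.Helper80.GaloisRat
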