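import Mathlib
import Cfsg.Agent.Lib.Helper80.DefOneLoc
import Cfsg.Agent.Lib.Helper80.AbSylowCh
import Cfsg.Agent.Lib.CT.LinChar
import Cfsg.Agent.Lib.CT.Clifford
import Cfsg.Agent.Lib.CT.DefectZeroBlock

/-!
# Blocks of defect one: the integer columns

`P` a Sylow `p`-subgroup of order `p`, `π : C_G(P) →* P` the projection. For a function `θ` on
`C_G(P)` and a linear character `ψ` of `P`:

* `alpha P π θ ψ = (ψ ∘ π - 1) θ`,
* `col P π θ ψ χ = ⟨χ|_C, alpha θ ψ⟩`,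
* `sec P θ χ w = |C|⁻¹ ∑_{r p-regular in C} χ (w r) conj (θ r)`.

Main facts: `col_int`, `col_one`, `col_eq` (columns from sections), `sec_eq_zero_of_not_mem`
and `col_eq_zero_of_not_mem` (second main theorem), `sum_col_mul` and `sum_col_mul_reg`
(column relations), `sum_col_mul_hom` (Fourier inversion).
-/

set_option autoImplicit false
set_option linter.unusedSectionVars false
set_option linter.style.haveILetI false
set_option maxHeartbeats 1000000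

namespace Cfsg.Agent.Lib.Helper80.DefOneCol

open Cfsg Cfsg.Agent.Lib.CT Cfsg.Agent.Lib.CT.Wedderburn Cfsg.Agent.Lib.Helper17.BrGrp
  Cfsg.Agent.Lib.Helper80.DefOneLoc
open scoped ComplexConjugate

universe u
variable {G : Type u} [Group G] {p : ℕ} [Fact p.Prime] [Fintype G] (P : Sylow p G)
  (hP : Nat.card P = p)

local notation "𝐂" => Subgroup.centralizer ((P : Subgroup G) : Set G)

variable [Fintype ↥(Subgroup.centralizer ((P : Subgroup G) : Set G))] [Fintype ↥(P : Subgroup G)]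
  (π : ↥(Subgroup.centralizer ((P : Subgroup G) : Set G)) →* ↥(P : Subgroup G))
  (hπP : ∀ c : ↥(Subgroup.centralizer ((P : Subgroup G) : Set G)),
    (c : G) ∈ (P : Subgroup G) → ((π c : ↥(P : Subgroup G)) : G) = (c : G))
  (hπreg : ∀ c : ↥(Subgroup.centralizer ((P : Subgroup G) : Set G)), π c = 1 ↔ ¬ p ∣ orderOf c)

/-- The function `(ψ ∘ π - 1) θ` on `C_G(P)`. -/
noncomputable def alpha (θ : ↥𝐂 → ℂ) (ψ : ↥(P : Subgroup G) →* ℂˣ) : ↥𝐂 → ℂ :=
  fun c => ((ψ (π c) : ℂˣ) : ℂ) * θ c - θ c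

/-- The column entry `⟨χ|_C, (ψ ∘ π - 1) θ⟩`. -/
noncomputable def col (θ : ↥𝐂 → ℂ) (ψ : ↥(P : Subgroup G) →* ℂˣ) (χ : G → ℂ) : ℂ :=
  classInner (fun c : ↥𝐂 => χ (c : G)) (alpha P π θ ψ)

/-- The section coefficient `|C|⁻¹ ∑_{r p-regular} χ (w r) conj (θ r)`. -/
noncomputable def sec (θ : ↥𝐂 → ℂ) (χ : G → ℂ) (w : G) : ℂ :=
  (Nat.card ↥𝐂 : ℂ)⁻¹ *
    ∑ r : ↥𝐂, (if p ∣ orderOf r then 0 else χ (w * (r : G)) * conj (θ r))

theorem orderOf_conj_inv (x g : G) : orderOf (x⁻¹ * g * x) = orderOf g := by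
  have h := orderOf_injective (MulAut.conj x⁻¹).toMonoidHom (MulAut.conj x⁻¹).injective g
  rw [← h]
  congr 1
  simp

theorem col_one (θ : ↥𝐂 → ℂ) (χ : G → ℂ) : col P π θ 1 χ = 0 := by
  unfold col alpha classInner
  simp

theorem col_int {θ : ↥𝐂 → ℂ} (hθ : IsIrrCharacter ↥𝐂 θ) (ψ : ↥(P : Subgroup G) →* ℂˣ)
    {χ : G → ℂ} (hχ : IsCharacter G χ) : ∃ D : ℤ, col P π θ ψ χ = D := by
  have hres : IsCharacter ↥𝐂 (fun c : ↥𝐂 => χ (c : G)) := Ops.isCharacter_restrict _ hχ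
  have hlin : IsCharacter ↥𝐂 (fun c : ↥𝐂 => ((ψ (π c) : ℂˣ) : ℂ)) :=
    LinChar.isCharacter_of_hom (ψ.comp π)
  have hirr : IsIrrCharacter ↥𝐂 ((fun c : ↥𝐂 => ((ψ (π c) : ℂˣ) : ℂ)) * θ) :=
    LinChar.isIrrCharacter_linear_mul hlin (by simp) hθ
  obtain ⟨a, ha⟩ := Clifford.classInner_char_nat hres (isCharacter_of_irr hirr)
  obtain ⟨b, hb⟩ := Clifford.classInner_char_nat hres (isCharacter_of_irr hθ)
  refine ⟨(a : ℤ) - b, ?_⟩
  have e : col P π θ ψ χ =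
      classInner (fun c : ↥𝐂 => χ (c : G)) ((fun c : ↥𝐂 => ((ψ (π c) : ℂˣ) : ℂ)) * θ) -
        classInner (fun c : ↥𝐂 => χ (c : G)) θ := by
    unfold col alpha classInner
    rw [← mul_sub, ← Finset.sum_sub_distrib]
    congr 1
    refine Finset.sum_congr rfl fun c _ => ?_
    rw [Pi.mul_apply, map_sub]
    ring
  rw [e, ha, hb]
  push_cast
  ring

include hP hπP hπreg in
/-- The columns in terms of the section coefficients. -/
theorem col_eq {θ : ↥𝐂 → ℂ} (hθ : IsCharacter ↥𝐂 θ)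
    (hθP : ∀ x : ↥𝐂, (x : G) ∈ (P : Subgroup G) → θ x = θ 1)
    (ψ : ↥(P : Subgroup G) →* ℂˣ) (χ : G → ℂ) :
    col P π θ ψ χ =
      ∑ z : ↥(P : Subgroup G), (conj ((ψ z : ℂˣ) : ℂ) - 1) * sec P θ χ (z : G) := by
  unfold col sec classInner
  rw [sum_decomp P hP π hπP hπreg (fun c => χ (c : G) * conj (alpha P π θ ψ c)), Finset.mul_sum]
  refine Finset.sum_congr rfl fun z _ => ?_
  have key : ∀ r : ↥𝐂, (if p ∣ orderOf r then (0 : ℂ) else
      χ ((inc P hP z * r : ↥𝐂) : G) * conj (alpha P π θ ψ (inc P hP z * r))) =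
      (conj ((ψ z : ℂˣ) : ℂ) - 1) *
        (if p ∣ orderOf r then 0 else χ ((z : G) * (r : G)) * conj (θ r)) := by
    intro r
    by_cases hr : p ∣ orderOf r
    · rw [if_pos hr, if_pos hr, mul_zero]
    · rw [if_neg hr, if_neg hr]
      have h1 : π (inc P hP z * r) = z := by
        rw [map_mul, proj_inc P hP π hπP, (hπreg r).mpr hr, mul_one]
      have h2 : θ (inc P hP z * r) = θ r := Kernel.apply_mul_of_eq hθ (hθP _ z.2) r
      have h3 : ((inc P hP z * r : ↥𝐂) : G) = (z : G) * (r : G) := rfl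
      unfold alpha
      rw [h1, h2, h3, map_sub, map_mul]
      ring
  refine Eq.trans (congrArg (fun t => (Nat.card ↥𝐂 : ℂ)⁻¹ * t)
    (Finset.sum_congr rfl fun r _ => key r)) ?_
  rw [← Finset.mul_sum]
  ring

include hP in
/-- Second main theorem: the section coefficient vanishes unless the block of `ξ` induces the
block of `χ`. -/
theorem sec_eq_zero (M : Ideal AlgInt) (hM : IsPModular p M) (χ : IrrCharacter G)
    (ξ : IrrCharacter ↥𝐂)
    (hnot : ¬ IsInducedBlock M 𝐂 (blockOf M (ξ : ↥𝐂 → ℂ)) (blockOf M (χ : G → ℂ)))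
    {z : G} (hz : z ∈ (P : Subgroup G)) (hz1 : z ≠ 1) :
    sec P (ξ : ↥𝐂 → ℂ) (χ : G → ℂ) z = 0 := by
  unfold sec
  rw [sec_zero p M hM z ⟨1, by rw [pow_one]; exact orderOf_eq P hP hz hz1⟩ 𝐂
    (centralizer_eq P hP hz hz1) χ ξ hnot, mul_zero]

include hP in
/-- Second main theorem for a character outside the block `B` induced by the block of `θ`:
`∑_{r p-regular in C} χ (z r) conj (θ r) = 0` for `z ∈ P`, `z ≠ 1`. -/
theorem sec_eq_zero_of_not_mem (M : Ideal AlgInt) (hM : IsPModular p M)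
    (B : Set (IrrCharacter G)) (b : Set (IrrCharacter ↥𝐂)) (hind : IsInducedBlock M 𝐂 b B)
    (θ : IrrCharacter ↥𝐂) (hθ : θ ∈ b) (χ : IrrCharacter G) (hχ : χ ∉ B)
    {z : G} (hz : z ∈ (P : Subgroup G)) (hz1 : z ≠ 1) :
    sec P (θ : ↥𝐂 → ℂ) (χ : G → ℂ) z = 0 := by
  have hMp := Cfsg.Agent.Lib.Helper77.LocalRing.isPrime_of_isPModular hM
  apply sec_eq_zero P hP M hM χ θ _ hz hz1
  intro hcon
  have hb : b = blockOf M (θ : ↥𝐂 → ℂ) := DefectZeroBlock.eq_blockOf_of_mem hMp hind.1 hθ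
  rw [← hb] at hcon
  have hBB := Cfsg.Agent.Lib.Helper75.Section2.induced_unique hMp 𝐂 b B _ hind hcon
  apply hχ
  rw [hBB]
  exact Cfsg.Agent.Lib.Helper77.DefectClass.self_mem_blockOf hMp χ

include hP hπP hπreg in
/-- The columns vanish outside the block. -/
theorem col_eq_zero_of_not_mem (M : Ideal AlgInt) (hM : IsPModular p M)
    (B : Set (IrrCharacter G)) (b : Set (IrrCharacter ↥𝐂)) (hind : IsInducedBlock M 𝐂 b B)
    (θ : IrrCharacter ↥𝐂) (hθ : θ ∈ b)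
    (hθP : ∀ x : ↥𝐂, (x : G) ∈ (P : Subgroup G) → (θ : ↥𝐂 → ℂ) x = (θ : ↥𝐂 → ℂ) 1)
    (ψ : ↥(P : Subgroup G) →* ℂˣ) (χ : IrrCharacter G) (hχ : χ ∉ B) :
    col P π (θ : ↥𝐂 → ℂ) ψ (χ : G → ℂ) = 0 := by
  rw [col_eq P hP π hπP hπreg (isCharacter_of_irr θ.2) hθP ψ]
  refine Finset.sum_eq_zero fun z _ => ?_
  by_cases hz : z = 1
  · subst hz
    simp
  · have hz1 : (z : G) ≠ 1 := fun h => hz (Subtype.ext h)
    rw [sec_eq_zero_of_not_mem P hP M hM B b hind θ hθ χ hχ z.2 hz1, mul_zero]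

/-- The column relation: the columns are the coefficients of the induced function. -/
theorem sum_col_mul [Fintype (IrrCharacter G)] {θ : ↥𝐂 → ℂ} (hθ : IsIrrCharacter ↥𝐂 θ)
    (ψ : ↥(P : Subgroup G) →* ℂˣ) (g : G) :
    ∑ χ : IrrCharacter G, col P π θ ψ (χ : G → ℂ) * (χ : G → ℂ) g =
      indFun 𝐂 (alpha P π θ ψ) g := by
  rw [Orth.classFunction_expand_sum (indFun 𝐂 (alpha P π θ ψ))
    (FrobRec.indFun_isClassFunction _ _) g]
  refine Finset.sum_congr rfl fun χ _ => ?_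
  congr 1
  rw [FrobRec.frobenius_reciprocity _ _ _ (Orth.irr_isClassFunction χ)]
  obtain ⟨D, hD⟩ := col_int P π hθ ψ (isCharacter_of_irr χ.2)
  rw [Clifford.classInner_conj_symm]
  show col P π θ ψ (χ : G → ℂ) = conj (col P π θ ψ (χ : G → ℂ))
  rw [hD, map_intCast]

include hπreg in
/-- The induced function vanishes at the `p`-regular elements. -/
theorem indFun_alpha_reg (θ : ↥𝐂 → ℂ) (ψ : ↥(P : Subgroup G) →* ℂˣ) (g : G)
    (hg : ¬ p ∣ orderOf g) : indFun 𝐂 (alpha P π θ ψ) g = 0 := by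
  rw [FrobRec.indFun_apply, Finset.sum_eq_zero, mul_zero]
  intro x _
  by_cases hx : x⁻¹ * g * x ∈ 𝐂
  · rw [FrobRec.extendByZero_apply_of_mem _ _ hx]
    have h1 : π ⟨x⁻¹ * g * x, hx⟩ = 1 := by
      rw [hπreg]
      have e : orderOf (⟨x⁻¹ * g * x, hx⟩ : ↥𝐂) = orderOf g := by
        rw [← Subgroup.orderOf_coe]
        exact orderOf_conj_inv x g
      rw [e]
      exact hg
    unfold alpha
    rw [h1, map_one, Units.val_one, one_mul, sub_self]
  · rw [FrobRec.extendByZero_apply_of_not_mem _ _ hx]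

include hπreg in
/-- The columns are orthogonal to the columns of the `p`-regular elements. -/
theorem sum_col_mul_reg [Fintype (IrrCharacter G)] {θ : ↥𝐂 → ℂ} (hθ : IsIrrCharacter ↥𝐂 θ)
    (ψ : ↥(P : Subgroup G) →* ℂˣ) (g : G) (hg : ¬ p ∣ orderOf g) :
    ∑ χ : IrrCharacter G, col P π θ ψ (χ : G → ℂ) * (χ : G → ℂ) g = 0 := by
  rw [sum_col_mul P π hθ ψ g, indFun_alpha_reg P π hπreg θ ψ g hg]

include hP hπP hπreg in
/-- Fourier inversion: the section coefficients from the columns. -/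
theorem sum_col_mul_hom [Fintype (↥(P : Subgroup G) →* ℂˣ)] {θ : ↥𝐂 → ℂ}
    (hθ : IsCharacter ↥𝐂 θ)
    (hθP : ∀ x : ↥𝐂, (x : G) ∈ (P : Subgroup G) → θ x = θ 1) (χ : G → ℂ)
    (w : ↥(P : Subgroup G)) (hw : w ≠ 1) :
    ∑ ψ : ↥(P : Subgroup G) →* ℂˣ, col P π θ ψ χ * ((ψ w : ℂˣ) : ℂ) =
      (p : ℂ) * sec P θ χ (w : G) := by
  classical
  have hPab : ∀ a ∈ (P : Subgroup G), ∀ b ∈ (P : Subgroup G), a * b = b * a :=
    fun a ha b hb => comm_of_mem P hP ha hb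
  have e1 : ∀ ψ : ↥(P : Subgroup G) →* ℂˣ, col P π θ ψ χ * ((ψ w : ℂˣ) : ℂ) =
      ∑ z : ↥(P : Subgroup G), sec P θ χ (z : G) *
        (((ψ (z⁻¹ * w) : ℂˣ) : ℂ) - ((ψ w : ℂˣ) : ℂ)) := by
    intro ψ
    rw [col_eq P hP π hπP hπreg hθ hθP ψ χ, Finset.sum_mul]
    refine Finset.sum_congr rfl fun z _ => ?_
    rw [Cfsg.Agent.Lib.Helper80.AbSylowCh.conj_hom, map_mul, map_inv, Units.val_mul,
      Units.val_inv_eq_inv_val]
    ring
  simp_rw [e1]
  rw [Finset.sum_comm]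
  have e2 : ∀ z : ↥(P : Subgroup G), ∑ ψ : ↥(P : Subgroup G) →* ℂˣ,
      sec P θ χ (z : G) * (((ψ (z⁻¹ * w) : ℂˣ) : ℂ) - ((ψ w : ℂˣ) : ℂ)) =
        if z = w then sec P θ χ (w : G) * (p : ℂ) else 0 := by
    intro z
    rw [← Finset.mul_sum, Finset.sum_sub_distrib,
      Cfsg.Agent.Lib.Helper25.CyclicTI.sum_hom_sub (P : Subgroup G) hPab,
      Cfsg.Agent.Lib.Helper25.CyclicTI.sum_hom_sub (P : Subgroup G) hPab, if_neg hw, sub_zero]
    by_cases h : z = w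
    · subst h
      rw [if_pos (inv_mul_cancel z), if_pos rfl, show Nat.card ↥(P : Subgroup G) = p from hP]
    · have h' : ¬ (z⁻¹ * w = 1) := by
        intro h1
        apply h
        rw [inv_mul_eq_one] at h1
        exact h1
      rw [if_neg h, if_neg h', mul_zero]
  simp_rw [e2]
  rw [Finset.sum_ite_eq' Finset.univ w, if_pos (Finset.mem_univ _), mul_comm]

end Cfsg.Agent.Lib.Helper80.DefOneCol
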