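import Mathlib
import Cfsg.Prelude.Def_Characters
import Cfsg.Prelude.Def_Blocks
import Cfsg.Prelude.Def_Local

/-!
# S4705 (Feit: faithful irreducible character of degree `p - 2`, Sylow `p`-subgroup of order `p`)

Statements of the pieces of the proof.  `G` has a Sylow `p`-subgroup `P` of order `p > 5`, not
normal, and a faithful irreducible character `ζ` of degree `p - 2`.

Plan.  (A) [block theory] the `p`-regular elements of `C_G(P)` are central, `N_G(P)` induces the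
inversion on `P` and `ζ(x) = -(ψ(x) + ψ(x)⁻¹)` on `P \ 1`.  (B) `L = ⟨P^G⟩` is perfect and `ζ|_L`
is irreducible.  (C) for perfect `L`: the exterior square of `ζ` is the sum of `(p-3)/2` Galois
conjugates of `ζ`, which gives `ζ(g)^2 - ζ(g^2) = (p-3) ζ(g_2 g_{2'}^2)` on `p`-regular elements;
hence `ζ` vanishes on non-central `p`-regular elements of odd order, involutions have value `-1`,
there are no elements of order `4`, `|L/Z(L)| = p(p-1)(p-2)`, `p - 1` a power of `2`;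
then S4701 identifies `L/Z(L)` with `SL(2, p-1)`, and `Z(L) = 1` by transfer.  (D) `G = L × Z(G)`.
-/

set_option autoImplicit false

namespace Cfsg.Agent.Lib.Helper80.S4705Stmt

open Cfsg
open scoped ComplexConjugate

universe u

/-- The hypotheses of the theorem. -/
def Hyp (G : Type u) [Group G] (p : ℕ) (P : Sylow p G) (ζ : G → ℂ) : Prop :=
  5 < p ∧ Nat.card P = p ∧ ¬ (P : Subgroup G).Normal ∧ IsIrrCharacter G ζ ∧
    (∀ g : G, ζ g = ζ 1 → g = 1) ∧ charDegree ζ = p - 2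

/-- The `p`-regular elements of `C_G(P)` are central. -/
def CentReg (G : Type u) [Group G] (p : ℕ) (P : Sylow p G) : Prop :=
  ∀ v : G, (∀ x ∈ (P : Subgroup G), v * x = x * v) → ¬ p ∣ orderOf v → v ∈ Subgroup.center G

/-- Some element inverts `P`, and every element of `N_G(P)` centralizes or inverts `P`. -/
def NormInv (G : Type u) [Group G] (p : ℕ) (P : Sylow p G) : Prop :=
  (∃ n : G, ∀ x ∈ (P : Subgroup G), n * x * n⁻¹ = x⁻¹) ∧
  ∀ n : G, n ∈ Subgroup.normalizer ((P : Subgroup G) : Set G) →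
    (∀ x ∈ (P : Subgroup G), n * x * n⁻¹ = x) ∨ (∀ x ∈ (P : Subgroup G), n * x * n⁻¹ = x⁻¹)

/-- The values of `ζ` on `P \ 1`, weak form. -/
def ValP2 (G : Type u) [Group G] (p : ℕ) (P : Sylow p G) (ζ : G → ℂ) : Prop :=
  ∃ ψ₀ ψ₁ : ↥(P : Subgroup G) →* ℂˣ, ψ₀ ≠ 1 ∧ ψ₁ ≠ 1 ∧
    ∀ x : ↥(P : Subgroup G), x ≠ 1 → ζ (x : G) = -(((ψ₀ x : ℂˣ) : ℂ) + ((ψ₁ x : ℂˣ) : ℂ))

/-- The values of `ζ` on `P \ 1`. -/
def ValP (G : Type u) [Group G] (p : ℕ) (P : Sylow p G) (ζ : G → ℂ) : Prop :=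
  ∃ ψ : ↥(P : Subgroup G) →* ℂˣ, ψ ≠ 1 ∧
    ∀ x : ↥(P : Subgroup G), x ≠ 1 →
      ζ (x : G) = -(((ψ x : ℂˣ) : ℂ) + (((ψ x)⁻¹ : ℂˣ) : ℂ))

/-- Local group-theoretic consequences: `C_G(P) = P Z(G)`, `Z(G)` is a `p'`-group,
`|N_G(P)| = 2 p |Z(G)|`. -/
def LocG (G : Type u) [Group G] (p : ℕ) (P : Sylow p G) : Prop :=
  (∀ c : G, (∀ x ∈ (P : Subgroup G), c * x = x * c) →
    ∃ x ∈ (P : Subgroup G), ∃ z ∈ Subgroup.center G, c = x * z) ∧
  (∀ z ∈ Subgroup.center G, ¬ p ∣ orderOf z) ∧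
  Nat.card ↥(Subgroup.normalizer ((P : Subgroup G) : Set G)) =
    2 * p * Nat.card ↥(Subgroup.center G)

open Classical in
/-- The sum of a class function vanishing on `p`-regular elements. -/
def SingSum (G : Type u) [Group G] (p : ℕ) (P : Sylow p G) : Prop :=
  ∀ F : G → ℂ, IsClassFunction G F → (∀ g : G, ¬ p ∣ orderOf g → F g = 0) →
    (2 * (p : ℂ) * (Nat.card ↥(Subgroup.center G) : ℂ)) * ∑ᶠ g : G, F g =
      (Nat.card G : ℂ) * ∑ᶠ x : ↥(P : Subgroup G), ∑ᶠ z : ↥(Subgroup.center G),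
        if x = 1 then 0 else F ((x : G) * (z : G))

/-- `ζ(g)^2 = (p-2) ζ(g^2)` for `p`-regular `g` of odd order. -/
def StarOdd (G : Type u) [Group G] (p : ℕ) (ζ : G → ℂ) : Prop :=
  ∀ g : G, ¬ p ∣ orderOf g → Odd (orderOf g) → ζ g ^ 2 = ((p : ℂ) - 2) * ζ (g ^ 2)

/-- `ζ(g)^2 - ζ(g^2) = (p-3) ζ(g)` for `2`-elements `g`. -/
def StarTwo (G : Type u) [Group G] (p : ℕ) (ζ : G → ℂ) : Prop :=
  ∀ (g : G) (k : ℕ), orderOf g = 2 ^ k → ζ g ^ 2 - ζ (g ^ 2) = ((p : ℂ) - 3) * ζ g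

/-! ## Stage A -/

/-- RES (block theory; helper80). -/
def Res : Prop := ∀ (G : Type u) [Group G] [Finite G] (p : ℕ) [Fact p.Prime] (P : Sylow p G)
  (ζ : G → ℂ), Hyp G p P ζ → CentReg G p P ∧ ValP2 G p P ζ

/-- R2: `N_G(P)` acts on `P` by inversion. -/
def R2 : Prop := ∀ (G : Type u) [Group G] [Finite G] (p : ℕ) [Fact p.Prime] (P : Sylow p G)
  (ζ : G → ℂ), Hyp G p P ζ → ValP2 G p P ζ → NormInv G p P ∧ ValP G p P ζ

/-- LOCG. -/
def LocGP : Prop := ∀ (G : Type u) [Group G] [Finite G] (p : ℕ) [Fact p.Prime] (P : Sylow p G),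
  2 < p → Nat.card P = p → CentReg G p P → NormInv G p P → LocG G p P

/-! ## Stage B -/

/-- PERFIRR: the restriction of `ζ` to the normal closure of `P` is irreducible. -/
def PerfIrr : Prop := ∀ (G : Type u) [Group G] [Finite G] (p : ℕ) [Fact p.Prime] (P : Sylow p G)
  (ζ : G → ℂ), Hyp G p P ζ →
  IsIrrCharacter ↥(Subgroup.normalClosure ((P : Subgroup G) : Set G))
    (fun l : ↥(Subgroup.normalClosure ((P : Subgroup G) : Set G)) => ζ (l : G))

/-- PERFNN: `P` is not normal in its normal closure. -/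
def PerfNN : Prop := ∀ (G : Type u) [Group G] [Finite G] (p : ℕ) [Fact p.Prime] (P : Sylow p G),
  ¬ (P : Subgroup G).Normal →
  ¬ ((P.subtype (Subgroup.le_normalClosure (H := (P : Subgroup G)))) :
      Subgroup ↥(Subgroup.normalClosure ((P : Subgroup G) : Set G))).Normal

/-- PERFPERF: the normal closure of `P` is perfect. -/
def PerfPerf : Prop := ∀ (G : Type u) [Group G] [Finite G] (p : ℕ) [Fact p.Prime] (P : Sylow p G)
  (ζ : G → ℂ), Hyp G p P ζ →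
  commutator ↥(Subgroup.normalClosure ((P : Subgroup G) : Set G)) = ⊤

/-! ## Stage C -/

/-- DET: central elements have order dividing the degree, in a perfect group. -/
def Det : Prop := ∀ (G : Type u) [Group G] [Finite G] (ζ : G → ℂ), commutator G = ⊤ →
  IsIrrCharacter G ζ → (∀ g : G, ζ g = ζ 1 → g = 1) →
  ∀ z ∈ Subgroup.center G, z ^ charDegree ζ = 1

/-- ALT: the exterior square of a character is a character. -/
def Alt : Prop := ∀ (G : Type u) [Group G] [Finite G] (χ : G → ℂ), IsCharacter G χ →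
  IsCharacter G (fun g => (χ g ^ 2 - χ (g ^ 2)) / 2)

/-- POWB: exponents. -/
def PowB : Prop := ∀ (G : Type u) [Group G] [Finite G] (p : ℕ) [Fact p.Prime], 2 < p →
  ∃ c : ℕ, (∀ g : G, Odd (orderOf g) → g ^ c = g ^ 2) ∧
    (∀ (g : G) (k : ℕ), orderOf g = 2 ^ k → g ^ c = g) ∧
    ∀ j : ℕ, ¬ p ∣ j → ∃ b : ℕ, b.Coprime (Nat.card G) ∧
      (∀ x : G, orderOf x = p → x ^ b = x ^ j) ∧
      (∀ g : G, ¬ p ∣ orderOf g → g ^ b = g ^ c)

/-- SING: the class-sum formula. -/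
def Sing : Prop := ∀ (G : Type u) [Group G] [Finite G] (p : ℕ) [Fact p.Prime] (P : Sylow p G),
  2 < p → Nat.card P = p → NormInv G p P → LocG G p P → SingSum G p P

/-- LAMIP: the inner product of the exterior square with a difference of Galois conjugates. -/
def LamIP : Prop := ∀ (G : Type u) [Group G] [Fintype G] (p : ℕ) [Fact p.Prime] (P : Sylow p G)
  (ζ : G → ℂ), Hyp G p P ζ → ValP G p P ζ → SingSum G p P →
  (∀ z ∈ Subgroup.center G, ¬ p ∣ orderOf z) →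
  ∀ b b' j : ℕ, (∀ g : G, ¬ p ∣ orderOf g → g ^ b' = g ^ b) →
    (∀ z ∈ Subgroup.center G, z ^ b = z ^ 2) →
    (∀ x ∈ (P : Subgroup G), x ^ b = x ^ 2) → (∀ x ∈ (P : Subgroup G), x ^ b' = x ^ j) →
    ¬ p ∣ j → ¬ p ∣ j + 2 → ¬ p ∣ j + (p - 2) →
    classInner (fun g : G => (ζ g ^ 2 - ζ (g ^ 2)) / 2) (fun g : G => ζ (g ^ b')) -
      classInner (fun g : G => (ζ g ^ 2 - ζ (g ^ 2)) / 2) (fun g : G => ζ (g ^ b)) = 1

/-- STAR: the exterior square is a sum of Galois conjugates. -/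
def Star : Prop := Alt.{u} → PowB.{u} → LamIP.{u} →
  ∀ (G : Type u) [Group G] [Finite G] (p : ℕ) [Fact p.Prime] (P : Sylow p G) (ζ : G → ℂ),
  Hyp G p P ζ → ValP G p P ζ → SingSum G p P → LocG G p P →
  Odd (Nat.card ↥(Subgroup.center G)) → StarOdd G p ζ ∧ StarTwo G p ζ

/-- P2: vanishing on non-central `p`-regular elements of odd order. -/
def P2 : Prop := ∀ (G : Type u) [Group G] [Finite G] (p : ℕ) [Fact p.Prime] (P : Sylow p G)
  (ζ : G → ℂ), Hyp G p P ζ → StarOdd G p ζ →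
  ∀ g : G, ¬ p ∣ orderOf g → Odd (orderOf g) → g ∉ Subgroup.center G → ζ g = 0

/-- P1: involutions have value `-1` and there are no elements of order `4`. -/
def P1 : Prop := ∀ (G : Type u) [Group G] [Finite G] (p : ℕ) [Fact p.Prime] (P : Sylow p G)
  (ζ : G → ℂ), Hyp G p P ζ → StarTwo G p ζ →
  (∀ g : G, orderOf g = 2 → ζ g = -1) ∧ ∀ g : G, orderOf g ≠ 4

/-- E2: the order of a Sylow `2`-subgroup divides `p - 1`. -/
def E2 : Prop := ∀ (G : Type u) [Group G] [Finite G] (p : ℕ) [Fact p.Prime] (P : Sylow p G)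
  (ζ : G → ℂ), Hyp G p P ζ → (∀ g : G, orderOf g = 2 → ζ g = -1) → (∀ g : G, orderOf g ≠ 4) →
  ∀ E : Sylow 2 G, Nat.card E ∣ p - 1

/-- ORDR: Sylow subgroups for odd primes `r ≠ p`. -/
def OrdR : Prop := ∀ (G : Type u) [Group G] [Finite G] (p : ℕ) [Fact p.Prime] (P : Sylow p G)
  (ζ : G → ℂ), Hyp G p P ζ →
  (∀ g : G, ¬ p ∣ orderOf g → Odd (orderOf g) → g ∉ Subgroup.center G → ζ g = 0) →
  ∀ (r : ℕ) [Fact r.Prime], r ≠ 2 → r ≠ p → ∀ R : Sylow r G,
    Nat.card R ∣ (p - 2) ^ 2 * Nat.card ↥((R : Subgroup G) ⊓ Subgroup.center G)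

/-- ARITH. -/
def Arith : Prop := ∀ p n : ℕ, p.Prime → 5 < p →
  (∀ r : ℕ, r.Prime → r ≠ 2 → r ≠ p → r ^ (n.factorization r) ∣ (p - 2) ^ 2) →
  2 ^ (n.factorization 2) ∣ p - 1 → n.factorization p = 1 → (p - 2) ∣ n →
  (∃ k : ℕ, n = 2 * p * k ∧ k % p = 1) →
  n = p * (p - 1) * (p - 2) ∧ ∃ m : ℕ, p - 1 = 2 ^ m

/-- ORDG: the order of the group. -/
def OrdG : Prop := Arith → ∀ (G : Type u) [Group G] [Finite G] (p : ℕ) [Fact p.Prime]
  (P : Sylow p G) (ζ : G → ℂ), Hyp G p P ζ → LocG G p P →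
  Odd (Nat.card ↥(Subgroup.center G)) →
  (∀ E : Sylow 2 G, Nat.card E ∣ p - 1) →
  (∀ (r : ℕ) [Fact r.Prime], r ≠ 2 → r ≠ p → ∀ R : Sylow r G,
    Nat.card R ∣ (p - 2) ^ 2 * Nat.card ↥((R : Subgroup G) ⊓ Subgroup.center G)) →
  (p - 2) ∣ (Subgroup.center G).index →
  Nat.card G = p * (p - 1) * (p - 2) * Nat.card ↥(Subgroup.center G) ∧ ∃ m : ℕ, p - 1 = 2 ^ m

/-- QUOT: the central quotient satisfies the hypotheses of S4701. -/
def Quot : Prop := ∀ (G : Type u) [Group G] [Finite G] (p : ℕ) [Fact p.Prime] (P : Sylow p G)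
  (ζ : G → ℂ), Hyp G p P ζ → commutator G = ⊤ → Odd (Nat.card ↥(Subgroup.center G)) →
  LocG G p P →
  Nat.card G = p * (p - 1) * (p - 2) * Nat.card ↥(Subgroup.center G) →
  commutator (G ⧸ Subgroup.center G) = ⊤ ∧
    Nat.card (G ⧸ Subgroup.center G) = p * (p - 1) * (p - 2) ∧
    (∀ Q : Sylow p (G ⧸ Subgroup.center G), ¬ (Q : Subgroup (G ⧸ Subgroup.center G)).Normal) ∧
    ∀ N : Subgroup (G ⧸ Subgroup.center G), N.Normal → Nat.card N ≠ 2

/-- IDENT: identification by S4701. -/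
def Ident : Prop := ∀ (X : Type u) [Group X] [Finite X] (p : ℕ) [Fact p.Prime], 5 < p →
  commutator X = ⊤ → Nat.card X = p * (p - 1) * (p - 2) →
  (∀ Q : Sylow p X, ¬ (Q : Subgroup X).Normal) →
  (∀ N : Subgroup X, N.Normal → Nat.card N ≠ 2) →
  ∃ (m : ℕ) (F : Type) (_ : Field F) (_ : Fintype F), Fintype.card F = 2 ^ m ∧ p = 2 ^ m + 1 ∧
    Nonempty (X ≃* Matrix.SpecialLinearGroup (Fin 2) F)

/-- SLCYC: Sylow subgroups of `SL(2, F)` for primes whose part divides `|F| - 1` are cyclic. -/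
def SLCyc : Prop := ∀ (F : Type) [Field F] [Fintype F] (X : Type u) [Group X] [Finite X]
  (_ : X ≃* Matrix.SpecialLinearGroup (Fin 2) F) (r : ℕ) [Fact r.Prime],
  (∀ k : ℕ, r ^ k ∣ Nat.card X → r ^ k ∣ Fintype.card F - 1) →
  ∀ R : Sylow r X, IsCyclic ↥(R : Subgroup X)

/-- CEXT: cyclic Sylow `r`-subgroups of the central quotient of a perfect group. -/
def CExt : Prop := ∀ (G : Type u) [Group G] [Finite G] (r : ℕ) [Fact r.Prime], commutator G = ⊤ →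
  (∀ R : Sylow r (G ⧸ Subgroup.center G), IsCyclic ↥(R : Subgroup (G ⧸ Subgroup.center G))) →
  ¬ r ∣ Nat.card ↥(Subgroup.center G)

/-- The conclusion of stage C. -/
def StageC : Prop := ∀ (G : Type u) [Group G] [Finite G] (p : ℕ) [Fact p.Prime] (P : Sylow p G)
  (ζ : G → ℂ), Hyp G p P ζ → commutator G = ⊤ → CentReg G p P → NormInv G p P → ValP G p P ζ →
  Subgroup.center G = ⊥ ∧ ∃ (a : ℕ) (F : Type) (_ : Field F) (_ : Fintype F),
    p = 2 ^ a + 1 ∧ Fintype.card F = 2 ^ a ∧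
    Nonempty (G ≃* Matrix.SpecialLinearGroup (Fin 2) F)

/-! ## Stage D -/

/-- GLZ: `G = L × Z(G)`. -/
def GLZ : Prop := ∀ (G : Type u) [Group G] [Finite G] (p : ℕ) [Fact p.Prime] (P : Sylow p G),
  2 < p → Nat.card P = p → NormInv G p P → LocG G p P →
  (∃ n ∈ Subgroup.normalClosure ((P : Subgroup G) : Set G),
    ∀ x ∈ (P : Subgroup G), n * x * n⁻¹ = x⁻¹) →
  Subgroup.center ↥(Subgroup.normalClosure ((P : Subgroup G) : Set G)) = ⊥ →
  Nonempty (G ≃* ↥(Subgroup.normalClosure ((P : Subgroup G) : Set G)) × ↥(Subgroup.center G))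

/-- The statement of S4705. -/
def Goal : Prop := ∀ (G : Type u) [Group G] [Finite G] (p : ℕ) [Fact p.Prime] (_ : 5 < p)
  (P : Sylow p G) (_ : Nat.card P = p) (_ : ¬ (P : Subgroup G).Normal) (ζ : G → ℂ)
  (_ : Cfsg.IsIrrCharacter G ζ) (_ : ∀ g : G, ζ g = ζ 1 → g = 1)
  (_ : Cfsg.charDegree ζ = p - 2),
  ∃ (a : ℕ) (F : Type) (_ : Field F) (_ : Fintype F), p = 2 ^ a + 1 ∧ Fintype.card F = 2 ^ a ∧
    Nonempty (G ≃* Matrix.SpecialLinearGroup (Fin 2) F × Subgroup.center G)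

end Cfsg.Agent.Lib.Helper80.S4705Stmt
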