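import Mathlib
import Cfsg.Agent.Lib.Helper80.AbSylowPkg
import Cfsg.Agent.Lib.CT.ColumnVanish
import Cfsg.Agent.Lib.CT.SectionOrth
import Cfsg.Agent.Lib.CT.ClassMult
import Cfsg.Agent.Lib.CT.Kernel
import Cfsg.Agent.Lib.Helper17.ExcInv
import Cfsg.Agent.Lib.Helper3.Irr

/-!
# Abelian Sylow subgroup with `|N : C| = 3` acting freely: Brauer's theorem

The coherent decomposition of the principal block is normalized so that the exceptional
characters carry no constant term; then there are exactly three non-exceptional characters, with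
values `±1` on the `p`-singular elements in question.  For an involution lying in no proper
normal subgroup, a class-multiplication argument gives the signs and the square product of the
degrees.
-/

set_option autoImplicit false

namespace Cfsg.Agent.Lib.Helper80.AbSylow3

open Cfsg Cfsg.Agent.Lib.CT.Wedderburn Cfsg.Agent.Lib.Helper80.AbSylowCh
  Cfsg.Agent.Lib.Helper80.AbSylowGT Cfsg.Agent.Lib.CT.ThirdMain
  Cfsg.Agent.Lib.Helper80.AbSylowMain Cfsg.Agent.Lib.Helper80.AbSylowPkg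

open scoped ComplexConjugate

universe u
variable {G : Type u} [Group G]

/-! ### Arithmetic -/

theorem isSquare_of_mul_sq (n w k : ℤ) (hw : w ≠ 0) (h : n * w ^ 2 = k ^ 2) : IsSquare n := by
  have hdvd : w ∣ k := by
    have h1 : w ^ 2 ∣ k ^ 2 := ⟨n, by rw [← h]; ring⟩
    exact (Int.pow_dvd_pow_iff two_ne_zero).mp h1
  obtain ⟨q, rfl⟩ := hdvd
  refine ⟨q, ?_⟩
  have h2 : w ^ 2 * n = w ^ 2 * (q * q) := by rw [mul_comm, h]; ring
  exact mul_left_cancel₀ (pow_ne_zero 2 hw) h2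

theorem not_prime_pow_ten (p n : ℕ) (hp : p.Prime) (h : p ^ n = 10) : False := by
  have h2 : 2 ∣ p ^ n := by rw [h]; norm_num
  have h5 : 5 ∣ p ^ n := by rw [h]; norm_num
  have e2 := (Nat.prime_dvd_prime_iff_eq Nat.prime_two hp).mp (Nat.Prime.dvd_of_dvd_pow Nat.prime_two h2)
  have e5 := (Nat.prime_dvd_prime_iff_eq (by norm_num : Nat.Prime 5) hp).mp
    (Nat.Prime.dvd_of_dvd_pow (by norm_num : Nat.Prime 5) h5)
  omega

/-- The sign and square statement from the three relations, in terms of `W = x - c`. -/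
theorem core (ε₁ ε₂ ε₃ x₁ x₂ x₃ W₁ W₂ W₃ : ℤ) (h1 : ε₁ = 1 ∨ ε₁ = -1) (h2 : ε₂ = 1 ∨ ε₂ = -1)
    (h3 : ε₃ = 1 ∨ ε₃ = -1) (hx1 : 0 < x₁) (hx2 : 0 < x₂) (hx3 : 0 < x₃) (hW1 : W₁ ≠ 0)
    (hW2 : W₂ ≠ 0) (hB : 1 + ε₁ * x₁ + ε₂ * x₂ + ε₃ * x₃ = 0)
    (hD : ε₁ * W₁ + ε₂ * W₂ + ε₃ * W₃ = 0)
    (hE : ε₁ * W₁ ^ 2 * x₂ * x₃ + ε₂ * W₂ ^ 2 * x₁ * x₃ + ε₃ * W₃ ^ 2 * x₁ * x₂ = 0) :
    ε₁ + ε₂ + ε₃ = -1 ∧ IsSquare (x₁ * x₂ * x₃) := by
  have hw1 : 0 < W₁ ^ 2 := by positivity
  have hw2 : 0 < W₂ ^ 2 := by positivity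
  rcases h1 with rfl | rfl <;> rcases h2 with rfl | rfl <;> rcases h3 with rfl | rfl
  · exfalso; linarith
  · exfalso
    obtain rfl : W₃ = W₁ + W₂ := by linarith
    obtain rfl : x₃ = 1 + x₁ + x₂ := by linarith
    have key : (W₁ * x₂ - W₂ * x₁) ^ 2 + W₁ ^ 2 * x₂ + W₂ ^ 2 * x₁ = 0 := by
      linear_combination hE
    nlinarith [sq_nonneg (W₁ * x₂ - W₂ * x₁), mul_pos hw1 hx2, mul_pos hw2 hx1]
  · exfalso
    obtain rfl : W₂ = W₁ + W₃ := by linarith
    obtain rfl : x₂ = 1 + x₁ + x₃ := by linarith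
    have key : (W₁ * x₃ - W₃ * x₁) ^ 2 + W₁ ^ 2 * x₃ + W₃ ^ 2 * x₁ = 0 := by
      linear_combination hE
    nlinarith [sq_nonneg (W₁ * x₃ - W₃ * x₁), mul_pos hw1 hx3, mul_nonneg (sq_nonneg W₃) hx1.le]
  · refine ⟨by norm_num, ?_⟩
    obtain rfl : W₁ = W₂ + W₃ := by linarith
    obtain rfl : x₁ = x₂ + x₃ - 1 := by linarith
    have key : (x₂ + x₃ - 1) * x₂ * x₃ * W₂ ^ 2 = (x₂ * (x₂ - 1) * W₃ - x₃ * x₂ * W₂) ^ 2 := by
      linear_combination (x₂ * (x₂ - 1)) * hE
    exact isSquare_of_mul_sq _ W₂ _ hW2 key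
  · exfalso
    obtain rfl : W₁ = W₂ + W₃ := by linarith
    obtain rfl : x₁ = 1 + x₂ + x₃ := by linarith
    have key : (W₂ * x₃ - W₃ * x₂) ^ 2 + W₂ ^ 2 * x₃ + W₃ ^ 2 * x₂ = 0 := by
      linear_combination hE
    nlinarith [sq_nonneg (W₂ * x₃ - W₃ * x₂), mul_pos hw2 hx3, mul_nonneg (sq_nonneg W₃) hx2.le]
  · refine ⟨by norm_num, ?_⟩
    obtain rfl : W₂ = W₁ + W₃ := by linarith
    obtain rfl : x₂ = x₁ + x₃ - 1 := by linarith
    have key : x₁ * (x₁ + x₃ - 1) * x₃ * W₁ ^ 2 = (x₁ * (x₁ - 1) * W₃ - x₃ * x₁ * W₁) ^ 2 := by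
      linear_combination (x₁ * (x₁ - 1)) * hE
    exact isSquare_of_mul_sq _ W₁ _ hW1 key
  · refine ⟨by norm_num, ?_⟩
    obtain rfl : W₃ = W₁ + W₂ := by linarith
    obtain rfl : x₃ = x₁ + x₂ - 1 := by linarith
    have key : x₁ * x₂ * (x₁ + x₂ - 1) * W₂ ^ 2 = (x₂ * (x₂ - 1) * W₁ - x₁ * x₂ * W₂) ^ 2 := by
      linear_combination (x₂ * (x₂ - 1)) * hE
    exact isSquare_of_mul_sq _ W₂ _ hW2 key
  · exfalso; linarith

/-- The sign and square statement from the three relations. -/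
theorem arith (ε₁ ε₂ ε₃ x₁ x₂ x₃ c₁ c₂ c₃ : ℤ) (h1 : ε₁ = 1 ∨ ε₁ = -1) (h2 : ε₂ = 1 ∨ ε₂ = -1)
    (h3 : ε₃ = 1 ∨ ε₃ = -1) (hx1 : 0 < x₁) (hx2 : 0 < x₂) (hx3 : 0 < x₃) (hc1 : c₁ ≠ x₁)
    (hc2 : c₂ ≠ x₂) (hB : 1 + ε₁ * x₁ + ε₂ * x₂ + ε₃ * x₃ = 0)
    (hC : 1 + ε₁ * c₁ + ε₂ * c₂ + ε₃ * c₃ = 0)
    (hA : x₁ * x₂ * x₃ + ε₁ * c₁ ^ 2 * x₂ * x₃ + ε₂ * c₂ ^ 2 * x₁ * x₃ +
      ε₃ * c₃ ^ 2 * x₁ * x₂ = 0) :
    ε₁ + ε₂ + ε₃ = -1 ∧ IsSquare (x₁ * x₂ * x₃) := by
  refine core ε₁ ε₂ ε₃ x₁ x₂ x₃ (x₁ - c₁) (x₂ - c₂) (x₃ - c₃) h1 h2 h3 hx1 hx2 hx3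
    (sub_ne_zero.mpr (Ne.symm hc1)) (sub_ne_zero.mpr (Ne.symm hc2)) hB ?_ ?_
  · linear_combination hB - hC
  · linear_combination x₁ * x₂ * x₃ * hB - 2 * x₁ * x₂ * x₃ * hC + hA

/-! ### Normalizing the decomposition -/

/-- For `|N : C| = 3` the coherent decomposition can be chosen with `Γ = 0` on the exceptional
characters. -/
theorem exists_pkg3 [Finite G] (p : ℕ) [Fact p.Prime] (M : Ideal AlgInt) (hM : IsPModular p M)
    (P : Sylow p G) (hab : IsMulCommutative P) (hm2 : 3 + 1 < Nat.card ↥(P : Subgroup G))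
    (hCN : (Subgroup.centralizer ((P : Subgroup G) : Set G)).relIndex
      (Subgroup.normalizer ((P : Subgroup G) : Set G)) = 3)
    (hfrob : ∀ y : G, y ∈ (P : Subgroup G) → y ≠ 1 →
      Subgroup.centralizer ({y} : Set G) ⊓ Subgroup.normalizer ((P : Subgroup G) : Set G) =
        Subgroup.centralizer ((P : Subgroup G) : Set G))
    [Fintype (IrrCharacter G)] [Fintype (↥(P : Subgroup G) →* ℂˣ)]
    [DecidableEq (IrrCharacter G)] :
    ∃ (v : (↥(P : Subgroup G) →* ℂˣ) → IrrCharacter G → ℤ) (δ : ℤ) (Γ : IrrCharacter G → ℤ)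
      (ζ : (↥(P : Subgroup G) →* ℂˣ) → IrrCharacter G), IsPkg p M P 3 v δ Γ 0 ζ := by
  classical
  have hp : p.Prime := Fact.out
  obtain ⟨v, δ₀, Γ₀, γ₀, ζ₀, h⟩ := exists_pkg p M hM P hab 3 (by norm_num) hm2 hCN hfrob
  by_cases hγ : γ₀ = 0
  · subst hγ
    exact ⟨v, δ₀, Γ₀, ζ₀, h⟩
  have hsq := h.sq
  have hsum := h.hΓsum
  have hY2 := h.two_le_card_Y
  have hcardY := h.card_Y
  have hδ2 := h.δ_sq
  have hX1 : (1 : ℤ) ≤ ∑ᶠ χ ∈ principalBlock M G \ Yset ζ₀, Γ₀ χ ^ 2 := by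
    rw [Cfsg.Agent.Lib.CT.ColumnId.finsum_mem_eq_sum]
    have h1 : (if triv G ∈ principalBlock M G \ Yset ζ₀ then Γ₀ (triv G) ^ 2 else 0) ≤
        ∑ χ, (if χ ∈ principalBlock M G \ Yset ζ₀ then Γ₀ χ ^ 2 else 0) :=
      Finset.single_le_sum
        (f := fun χ => if χ ∈ principalBlock M G \ Yset ζ₀ then Γ₀ χ ^ 2 else 0)
        (fun χ _ => by split_ifs <;> positivity) (Finset.mem_univ (triv G))
    rw [if_pos h.triv_mem_X, h.Γ_triv] at h1
    linarith
  have hk0 : δ₀ * γ₀ ≠ 0 := mul_ne_zero h.δ_ne hγ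
  have hk2 : (δ₀ * γ₀) ^ 2 = γ₀ ^ 2 := by rw [mul_pow, hδ2, one_mul]
  have hr2 : (2 : ℤ) ≤ (Nat.card (Yset ζ₀) : ℤ) := by exact_mod_cast hY2
  have hmain : ∑ᶠ χ ∈ principalBlock M G \ Yset ζ₀, Γ₀ χ ^ 2 +
      (Nat.card (Yset ζ₀) : ℤ) * (δ₀ * γ₀) ^ 2 + 2 * (δ₀ * γ₀) = 3 := by
    rw [hk2]
    rw [hsq] at hsum
    push_cast at hsum
    linarith
  have hkm1 : δ₀ * γ₀ = -1 := by
    generalize δ₀ * γ₀ = k at hk0 hmain
    have h5 : 2 * k ^ 2 ≤ (Nat.card (Yset ζ₀) : ℤ) * k ^ 2 :=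
      mul_le_mul_of_nonneg_right hr2 (sq_nonneg k)
    have hk1 : k < 1 := by
      by_contra hc
      have : 1 ≤ k := not_lt.mp hc
      nlinarith
    have hk3 : -2 < k := by
      by_contra hc
      have : k ≤ -2 := not_lt.mp hc
      nlinarith
    interval_cases k
    · rfl
    · exact absurd rfl hk0
  have hγδ : γ₀ = -δ₀ := by linear_combination δ₀ * hkm1 - γ₀ * hδ2
  rw [hkm1] at hmain
  have hr4 : Nat.card (Yset ζ₀) ≤ 4 := by
    have : (Nat.card (Yset ζ₀) : ℤ) ≤ 4 := by linarith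
    exact_mod_cast this
  have hr : Nat.card (Yset ζ₀) = 2 ∨ Nat.card (Yset ζ₀) = 3 ∨ Nat.card (Yset ζ₀) = 4 := by omega
  rcases hr with hr | hr | hr
  · -- two exceptional characters: swap them
    rw [hr] at hmain
    have hSX : ∑ᶠ χ ∈ principalBlock M G \ Yset ζ₀, Γ₀ χ ^ 2 = 3 := by
      push_cast at hmain
      linarith
    obtain ⟨⟨y₁, hy₁⟩, ⟨y₂, hy₂⟩, hne, huniv⟩ := Nat.card_eq_two_iff.mp hr
    have hne' : y₁ ≠ y₂ := fun hc => hne (Subtype.ext hc)
    have hY : ∀ η ∈ Yset ζ₀, η = y₁ ∨ η = y₂ := by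
      intro η hη
      have hmem : (⟨η, hη⟩ : Yset ζ₀) ∈ ({⟨y₁, hy₁⟩, ⟨y₂, hy₂⟩} : Set (Yset ζ₀)) := by
        rw [huniv]
        exact Set.mem_univ _
      rcases hmem with hc | hc
      · exact Or.inl (congrArg Subtype.val hc)
      · exact Or.inr (congrArg Subtype.val hc)
    have hσ1 : (if y₁ = y₁ then y₂ else y₁) = y₂ := if_pos rfl
    have hσ2 : (if y₂ = y₁ then y₂ else y₁) = y₁ := if_neg (Ne.symm hne')
    have hΓY0 : ∀ χ ∈ Yset ζ₀, Γ₀ χ + δ₀ * (if χ ∈ Yset ζ₀ then 1 else 0) = 0 := by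
      intro χ hχ
      rw [if_pos hχ, h.Γ_Y χ hχ, hγδ]
      ring
    refine ⟨v, -δ₀, fun χ => Γ₀ χ + δ₀ * (if χ ∈ Yset ζ₀ then 1 else 0),
      fun ψ => if ζ₀ ψ = y₁ then y₂ else y₁, ?_⟩
    refine
      { hv0 := h.hv0
        hvR := h.hvR
        hvV := h.hvV
        hvT := h.hvT
        hvE := h.hvE
        hv1 := h.hv1
        hδ := ?_
        hK1 := ?_
        hΓζ := ?_
        hK2 := ?_
        hΓsum := ?_
        hRne := h.hRne
        hclass := h.hclass
        hcardΨ := h.hcardΨ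
        hPab := h.hPab
        hex := h.hex
        hMp := h.hMp
        hp := h.hp
        hm := h.hm
        hm2 := h.hm2 }
    · rcases h.hδ with hc | hc
      · right; rw [hc]
      · left; rw [hc]; norm_num
    · intro ψ hψ χ
      rw [h.hK1 ψ hψ χ]
      have hζY : ζ₀ ψ ∈ Yset ζ₀ := ⟨ψ, hψ, rfl⟩
      rcases hY _ hζY with e | e
      · rw [e, hσ1]
        by_cases c1 : χ = y₁
        · subst c1
          rw [if_pos rfl, if_pos hy₁, if_neg hne']
          ring
        · by_cases c2 : χ = y₂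
          · subst c2
            rw [if_neg c1, if_pos hy₂, if_pos rfl]
            ring
          · have hχY : χ ∉ Yset ζ₀ := fun hc => (hY χ hc).elim c1 c2
            rw [if_neg c1, if_neg hχY, if_neg c2]
            ring
      · rw [e, hσ2]
        by_cases c1 : χ = y₁
        · subst c1
          rw [if_neg hne', if_pos hy₁, if_pos rfl]
          ring
        · by_cases c2 : χ = y₂
          · subst c2
            rw [if_pos rfl, if_pos hy₂, if_neg c1]
            ring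
          · have hχY : χ ∉ Yset ζ₀ := fun hc => (hY χ hc).elim c1 c2
            rw [if_neg c2, if_neg hχY, if_neg c1]
            ring
    · intro ψ hψ
      have hζY : ζ₀ ψ ∈ Yset ζ₀ := ⟨ψ, hψ, rfl⟩
      rcases hY _ hζY with e | e
      · rw [e, hσ1]
        exact hΓY0 y₂ hy₂
      · rw [e, hσ2]
        exact hΓY0 y₁ hy₁
    · intro ψ ψ' hψ hψ'
      rw [← h.hK2 ψ ψ' hψ hψ']
      have hζY : ζ₀ ψ ∈ Yset ζ₀ := ⟨ψ, hψ, rfl⟩
      have hζY' : ζ₀ ψ' ∈ Yset ζ₀ := ⟨ψ', hψ', rfl⟩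
      rcases hY _ hζY with e | e <;> rcases hY _ hζY' with e' | e'
      · rw [e, e']
        exact ⟨fun _ => rfl, fun _ => rfl⟩
      · rw [e, e', hσ1, hσ2]
        exact ⟨fun hc => absurd hc.symm hne', fun hc => absurd hc hne'⟩
      · rw [e, e', hσ1, hσ2]
        exact ⟨fun hc => absurd hc hne', fun hc => absurd hc.symm hne'⟩
      · rw [e, e']
        exact ⟨fun _ => rfl, fun _ => rfl⟩
    · rw [mul_zero, add_zero]
      rw [sum_split (principalBlock M G) (principalBlock M G \ Yset ζ₀) (Yset ζ₀)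
        (Set.sdiff_union_of_subset h.Y_sub).symm Set.disjoint_sdiff_left
        (fun χ => (Γ₀ χ + δ₀ * (if χ ∈ Yset ζ₀ then 1 else 0)) ^ 2)
        (fun χ hχ => by
          rw [h.Γ_off χ hχ, if_neg (fun hc => hχ (h.Y_sub hc))]
          ring)]
      have e1 : ∑ᶠ χ ∈ principalBlock M G \ Yset ζ₀,
          (Γ₀ χ + δ₀ * (if χ ∈ Yset ζ₀ then 1 else 0)) ^ 2 =
          ∑ᶠ χ ∈ principalBlock M G \ Yset ζ₀, Γ₀ χ ^ 2 :=
        finsum_mem_congr rfl fun χ hχ => by
          rw [if_neg hχ.2]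
          ring
      have e2 : ∑ χ, (if χ ∈ Yset ζ₀ then
          (Γ₀ χ + δ₀ * (if χ ∈ Yset ζ₀ then 1 else 0)) ^ 2 else 0) = 0 :=
        Finset.sum_eq_zero fun χ _ => by
          by_cases hc : χ ∈ Yset ζ₀
          · rw [if_pos hc, hΓY0 χ hc]
            ring
          · rw [if_neg hc]
      rw [e1, e2, hSX]
      norm_num
  · -- three exceptional characters: |P| = 10
    exfalso
    rw [hr] at hcardY
    obtain ⟨n, hn⟩ := IsPGroup.iff_card.mp P.2
    have hP10 : Nat.card ↥(P : Subgroup G) = 10 := by omega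
    have hn' : p ^ n = 10 := by
      rw [← hn]
      exact hP10
    exact not_prime_pow_ten p n hp hn'
  · -- four exceptional characters: contradiction with the degree relation
    exfalso
    rw [hr] at hmain
    have hSX : ∑ᶠ χ ∈ principalBlock M G \ Yset ζ₀, Γ₀ χ ^ 2 = 1 := by
      push_cast at hmain
      linarith
    have hXeq : principalBlock M G \ Yset ζ₀ = {triv G} := by
      refine Set.eq_singleton_iff_unique_mem.mpr ⟨h.triv_mem_X, fun χ hχ => ?_⟩
      by_contra hne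
      rw [Cfsg.Agent.Lib.CT.ColumnId.finsum_mem_eq_sum] at hSX
      have h1 : ∑ χ' ∈ ({triv G, χ} : Finset (IrrCharacter G)),
          (if χ' ∈ principalBlock M G \ Yset ζ₀ then Γ₀ χ' ^ 2 else 0) ≤
          ∑ χ', (if χ' ∈ principalBlock M G \ Yset ζ₀ then Γ₀ χ' ^ 2 else 0) :=
        Finset.sum_le_sum_of_subset_of_nonneg (Finset.subset_univ _)
          (fun χ' _ _ => by split_ifs <;> positivity)
      rw [Finset.sum_pair (Ne.symm hne), if_pos h.triv_mem_X, if_pos hχ, h.Γ_triv, hSX] at h1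
      have h2 := h.Γ_ne_zero χ hχ
      have h3 : 0 < Γ₀ χ ^ 2 := by positivity
      linarith
    obtain ⟨ψ₀, ψ₁, h0, h1, hR⟩ := h.hex
    have hreg := h.reg_X (ζ₀ ψ₀) ⟨ψ₀, h0, rfl⟩ 1
      (by rw [orderOf_one]; exact fun hc => hp.one_lt.ne' (Nat.dvd_one.mp hc))
    rw [hXeq, finsum_mem_singleton, hr, h.Γ_triv,
      ← char_natCast_charDegree (isCharacter_of_irr (ζ₀ ψ₀).2), hγδ] at hreg
    have hreg' : ((4 : ℤ) * (-δ₀) + δ₀) * (charDegree (ζ₀ ψ₀ : G → ℂ) : ℤ) + (-1) * 1 = 0 := by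
      have e : ((triv G : IrrCharacter G) : G → ℂ) 1 = 1 := rfl
      rw [e] at hreg
      exact_mod_cast hreg
    rcases h.hδ with hc | hc <;> rw [hc] at hreg' <;> omega

/-- With the normalized decomposition there are exactly three non-exceptional characters and
`Γ = ±1` on them. -/
theorem struct3 [Finite G] {p : ℕ} {M : Ideal AlgInt} {P : Sylow p G}
    [Fintype (IrrCharacter G)] [Fintype (↥(P : Subgroup G) →* ℂˣ)] [DecidableEq (IrrCharacter G)]
    {v : (↥(P : Subgroup G) →* ℂˣ) → IrrCharacter G → ℤ} {δ : ℤ} {Γ : IrrCharacter G → ℤ}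
    {ζ : (↥(P : Subgroup G) →* ℂˣ) → IrrCharacter G} (h : IsPkg p M P 3 v δ Γ 0 ζ) :
    (∀ χ ∈ principalBlock M G \ Yset ζ, Γ χ = 1 ∨ Γ χ = -1) ∧
      Nat.card ↥(principalBlock M G \ Yset ζ) = 3 := by
  classical
  have hsq := h.sq
  have hsum := h.hΓsum
  rw [hsq] at hsum
  have hS : ∑ χ, (if χ ∈ principalBlock M G \ Yset ζ then Γ χ ^ 2 else 0) = 3 := by
    rw [← Cfsg.Agent.Lib.CT.ColumnId.finsum_mem_eq_sum]
    push_cast at hsum
    linarith
  have hpm : ∀ χ ∈ principalBlock M G \ Yset ζ, Γ χ = 1 ∨ Γ χ = -1 := by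
    intro χ hχ
    have h1 : (if χ ∈ principalBlock M G \ Yset ζ then Γ χ ^ 2 else 0) ≤
        ∑ χ, (if χ ∈ principalBlock M G \ Yset ζ then Γ χ ^ 2 else 0) :=
      Finset.single_le_sum
        (f := fun χ => if χ ∈ principalBlock M G \ Yset ζ then Γ χ ^ 2 else 0)
        (fun χ _ => by split_ifs <;> positivity) (Finset.mem_univ χ)
    rw [if_pos hχ, hS] at h1
    have h2 := h.Γ_ne_zero χ hχ
    have h3 : Γ χ < 2 := by nlinarith
    have h4 : -2 < Γ χ := by nlinarith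
    generalize Γ χ = a at h2 h3 h4
    interval_cases a
    · right; rfl
    · exact absurd rfl h2
    · left; rfl
  refine ⟨hpm, ?_⟩
  have e : ∀ χ : IrrCharacter G, (if χ ∈ principalBlock M G \ Yset ζ then Γ χ ^ 2 else 0) =
      (if χ ∈ principalBlock M G \ Yset ζ then (1 : ℤ) else 0) := by
    intro χ
    by_cases hc : χ ∈ principalBlock M G \ Yset ζ
    · rw [if_pos hc, if_pos hc]
      rcases hpm χ hc with h1 | h1 <;> rw [h1] <;> norm_num
    · rw [if_neg hc, if_neg hc]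
  simp_rw [e] at hS
  rw [Finset.sum_boole] at hS
  rw [Nat.card_eq_fintype_card, Fintype.card_subtype]
  exact_mod_cast hS

/-! ### Involutions -/

/-- No element of `G` inverts an element of `P` of order greater than `2`. -/
theorem sq_eq_one_of_conj_inv [Finite G] (p : ℕ) [Fact p.Prime] (P : Sylow p G)
    (hab : IsMulCommutative P)
    (hCN : (Subgroup.centralizer ((P : Subgroup G) : Set G)).relIndex
      (Subgroup.normalizer ((P : Subgroup G) : Set G)) = 3)
    (hfrob : ∀ y : G, y ∈ (P : Subgroup G) → y ≠ 1 →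
      Subgroup.centralizer ({y} : Set G) ⊓ Subgroup.normalizer ((P : Subgroup G) : Set G) =
        Subgroup.centralizer ((P : Subgroup G) : Set G))
    (u : G) (hu : u ∈ (P : Subgroup G)) (g : G) (hg : g * u * g⁻¹ = u⁻¹) : u * u = 1 := by
  by_cases hu1 : u = 1
  · rw [hu1, mul_one]
  have hgP : g * u * g⁻¹ ∈ (P : Subgroup G) := by
    rw [hg]
    exact Subgroup.inv_mem _ hu
  obtain ⟨n, hn, hnu⟩ := fusion p P hab u hu g hgP
  rw [hg] at hnu
  have h2 : n * n ∈ Subgroup.centralizer ({u} : Set G) := by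
    rw [Subgroup.mem_centralizer_iff]
    intro h hh
    rw [Set.mem_singleton_iff] at hh
    subst hh
    have e1 : n * n * h * (n * n)⁻¹ = h := by
      calc n * n * h * (n * n)⁻¹ = n * (n * h * n⁻¹) * n⁻¹ := by group
        _ = n * h⁻¹ * n⁻¹ := by rw [hnu]
        _ = (n * h * n⁻¹)⁻¹ := by group
        _ = h := by rw [hnu, inv_inv]
    calc h * (n * n) = (n * n * h * (n * n)⁻¹) * (n * n) := by rw [e1]
      _ = n * n * h := by group
  have h2C : n * n ∈ Subgroup.centralizer ((P : Subgroup G) : Set G) := by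
    rw [← hfrob u hu hu1]
    exact ⟨h2, Subgroup.mul_mem _ hn hn⟩
  have h3C : n ^ 3 ∈ Subgroup.centralizer ((P : Subgroup G) : Set G) := by
    have h3 := Subgroup.pow_index_mem
      ((Subgroup.centralizer ((P : Subgroup G) : Set G)).subgroupOf
        (Subgroup.normalizer ((P : Subgroup G) : Set G)))
      (⟨n, hn⟩ : ↥(Subgroup.normalizer ((P : Subgroup G) : Set G)))
    have hidx : ((Subgroup.centralizer ((P : Subgroup G) : Set G)).subgroupOf
        (Subgroup.normalizer ((P : Subgroup G) : Set G))).index = 3 := hCN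
    rw [hidx, Subgroup.mem_subgroupOf] at h3
    simpa using h3
  have hnC : n ∈ Subgroup.centralizer ((P : Subgroup G) : Set G) := by
    have e : n = n ^ 3 * (n * n)⁻¹ := by group
    rw [e]
    exact Subgroup.mul_mem _ h3C (Subgroup.inv_mem _ h2C)
  have hcomm := Subgroup.mem_centralizer_iff.mp hnC u hu
  have e2 : n * u * n⁻¹ = u := by rw [← hcomm, mul_inv_cancel_right]
  rw [e2] at hnu
  have e3 : u * u = u * u⁻¹ := congrArg (fun w => u * w) hnu
  rw [e3, mul_inv_cancel]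

/-- The class-multiplication relation for an involution on the principal block: if no product
of two conjugates of `t` has `p`-part conjugate to `y₀⁻¹`, the weighted column of `y₀`
vanishes. -/
theorem invol_sum [Finite G] (p : ℕ) [Fact p.Prime] (M : Ideal AlgInt) (hM : IsPModular p M)
    (t : G) (y₀ : G) (hy₀ : ∃ k : ℕ, orderOf y₀ = p ^ k)
    (hno : ∀ g x : G, IsPPart p (t * (g * t * g⁻¹)) x → ¬ IsConj x y₀⁻¹) :
    ∑ᶠ χ ∈ principalBlock M G, (χ : G → ℂ) y₀ * (χ : G → ℂ) t ^ 2 / (χ : G → ℂ) 1 = 0 := by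
  classical
  have hp : p.Prime := Fact.out
  let _ : Fintype G := Fintype.ofFinite G
  have := finite_irrCharacter G
  let _ : Fintype (IrrCharacter G) := Fintype.ofFinite _
  have hne : (Nat.card G : ℂ) ≠ 0 := Nat.cast_ne_zero.mpr Nat.card_pos.ne'
  have hy₀' : ∃ k : ℕ, orderOf y₀⁻¹ = p ^ k := by
    rw [orderOf_inv]
    exact hy₀
  have key : ∀ g : G, ∑ᶠ χ ∈ principalBlock M G,
      (χ : G → ℂ) (t * (g * t * g⁻¹)) * (χ : G → ℂ) y₀ = 0 := by
    intro g
    obtain ⟨x, hx⟩ := Cfsg.Agent.Lib.CT.SectionOrth.exists_isPPart p hp (t * (g * t * g⁻¹))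
    have h := (Cfsg.Agent.S0925.result p M hM).2 (t * (g * t * g⁻¹)) y₀⁻¹ x y₀⁻¹ hx
      (Cfsg.Agent.Lib.CT.ColumnId.isPPart_self p hp y₀⁻¹ hy₀') (hno g x hx)
      (principalBlock M G) (Cfsg.Agent.Lib.CT.ColumnId.isPBlock_principal M)
    rw [inv_inv] at h
    exact h
  have h1 : ∀ χ ∈ principalBlock M G,
      (χ : G → ℂ) y₀ * (χ : G → ℂ) t ^ 2 / (χ : G → ℂ) 1 =
      (Nat.card G : ℂ)⁻¹ * ∑ g : G, (χ : G → ℂ) (t * (g * t * g⁻¹)) * (χ : G → ℂ) y₀ := by
    intro χ _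
    have hχ1 := irr_apply_one_ne_zero χ.2
    rw [← Finset.sum_mul, Cfsg.Agent.Lib.CT.ClassMult.irr_schur_average χ.2 t t]
    field_simp
  rw [finsum_mem_congr rfl h1, Cfsg.Agent.Lib.CT.ColumnId.finsum_mem_eq_sum]
  have h2 : ∀ χ : IrrCharacter G,
      (if χ ∈ principalBlock M G then (Nat.card G : ℂ)⁻¹ * ∑ g : G,
        (χ : G → ℂ) (t * (g * t * g⁻¹)) * (χ : G → ℂ) y₀ else 0) =
      (Nat.card G : ℂ)⁻¹ * ∑ g : G, (if χ ∈ principalBlock M G then
        (χ : G → ℂ) (t * (g * t * g⁻¹)) * (χ : G → ℂ) y₀ else 0) := by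
    intro χ
    split_ifs with h
    · rfl
    · simp
  rw [Finset.sum_congr rfl fun χ _ => h2 χ, ← Finset.mul_sum, Finset.sum_comm]
  have h3 : ∀ g : G, ∑ χ : IrrCharacter G, (if χ ∈ principalBlock M G then
      (χ : G → ℂ) (t * (g * t * g⁻¹)) * (χ : G → ℂ) y₀ else 0) = 0 := by
    intro g
    rw [← Cfsg.Agent.Lib.CT.ColumnId.finsum_mem_eq_sum]
    exact key g
  rw [Finset.sum_congr rfl fun g _ => h3 g]
  simp

/-- The transfer retraction of `C_G(y)` onto `P`: a homomorphism which is a power map with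
exponent prime to `p` on `P`. -/
theorem exists_transfer [Finite G] (p : ℕ) [Fact p.Prime] (P : Sylow p G)
    (hab : IsMulCommutative P)
    (hfrob : ∀ y : G, y ∈ (P : Subgroup G) → y ≠ 1 →
      Subgroup.centralizer ({y} : Set G) ⊓ Subgroup.normalizer ((P : Subgroup G) : Set G) =
        Subgroup.centralizer ((P : Subgroup G) : Set G))
    (y : G) (hy : y ∈ (P : Subgroup G)) (hy1 : y ≠ 1) :
    ∃ (τ : ↥(Subgroup.centralizer ({y} : Set G)) →* ↥(P : Subgroup G)) (k : ℕ), ¬ p ∣ k ∧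
      ∀ (h : ↥(Subgroup.centralizer ({y} : Set G))) (hh : (h : G) ∈ (P : Subgroup G)),
        τ h = ⟨(h : G), hh⟩ ^ k := by
  classical
  have hPH : (P : Subgroup G) ≤ Subgroup.centralizer ({y} : Set G) :=
    le_centralizer_singleton P hab y hy
  set H := Subgroup.centralizer ({y} : Set G) with hH
  set Q : Sylow p H := P.subtype hPH with hQdef
  have hQmem : ∀ h : H, h ∈ (Q : Subgroup H) ↔ (h : G) ∈ (P : Subgroup G) := by
    intro h
    rw [hQdef, Sylow.coe_subtype, Subgroup.mem_subgroupOf]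
  have hQ : Subgroup.normalizer (Q : Set H) ≤ Subgroup.centralizer (Q : Set H) := by
    intro n hn
    have hnN : (n : G) ∈ Subgroup.normalizer ((P : Subgroup G) : Set G) := by
      rw [Subgroup.mem_normalizer_iff]
      intro w
      constructor
      · intro hw
        have h1 := (Subgroup.mem_normalizer_iff.mp hn ⟨w, hPH hw⟩).mp ((hQmem _).mpr hw)
        have h2 := (hQmem _).mp h1
        simpa using h2
      · intro hw
        have hwH : w ∈ H := by
          have h3 : (n : G) * w * (n : G)⁻¹ ∈ H := hPH hw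
          have h4 := H.mul_mem (H.mul_mem (H.inv_mem n.2) h3) n.2
          simpa [mul_assoc] using h4
        have h1 := (Subgroup.mem_normalizer_iff.mp hn ⟨w, hwH⟩).mpr
          ((hQmem _).mpr (by simpa using hw))
        exact (hQmem _).mp h1
    have hnC : (n : G) ∈ Subgroup.centralizer ((P : Subgroup G) : Set G) := by
      rw [← hfrob y hy hy1]
      exact ⟨n.2, hnN⟩
    rw [Subgroup.mem_centralizer_iff]
    intro q hq
    apply Subtype.ext
    have := Subgroup.mem_centralizer_iff.mp hnC (q : G) ((hQmem q).mp hq)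
    simpa using this
  let e : ↥((P : Subgroup G).subgroupOf H) ≃* ↥(P : Subgroup G) :=
    Subgroup.subgroupOfEquivOfLe hPH
  let τ₀ : H →* ↥((P : Subgroup G).subgroupOf H) := MonoidHom.transferSylow Q hQ
  refine ⟨e.toMonoidHom.comp τ₀, (Q : Subgroup H).index, Q.not_dvd_index, ?_⟩
  intro h hh
  have hhQ : h ∈ (Q : Subgroup H) := (hQmem h).mpr hh
  have h1 : τ₀ h = ⟨h ^ (Q : Subgroup H).index, Subgroup.pow_mem _ hhQ _⟩ :=
    MonoidHom.transferSylow_eq_pow Q hQ h hhQ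
  apply Subtype.ext
  show ((e (τ₀ h) : ↥(P : Subgroup G)) : G) = _
  rw [h1]
  simp [e]

/-- The sum of a linear character over the normalizer conjugates of an element, in terms of
the sum over its class of conjugate characters. -/
theorem orbit_sum [Finite G] (p : ℕ) (P : Sylow p G) (hab : IsMulCommutative P)
    (hfrob : ∀ y : G, y ∈ (P : Subgroup G) → y ≠ 1 →
      Subgroup.centralizer ({y} : Set G) ⊓ Subgroup.normalizer ((P : Subgroup G) : Set G) =
        Subgroup.centralizer ((P : Subgroup G) : Set G))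
    (ψ : ↥(P : Subgroup G) →* ℂˣ) (hψ : ψ ≠ 1) (w : ↥(P : Subgroup G))
    [Fintype ↥(Subgroup.normalizer ((P : Subgroup G) : Set G))] :
    (Nat.card ↥(Subgroup.centralizer ((P : Subgroup G) : Set G)) : ℂ) *
      ∑ᶠ ψ' ∈ {ψ' : ↥(P : Subgroup G) →* ℂˣ | Rel (P : Subgroup G) ψ ψ'}, ((ψ' w : ℂˣ) : ℂ) =
      ∑ n : ↥(Subgroup.normalizer ((P : Subgroup G) : Set G)),
        ((ψ (cj (P : Subgroup G) n n.2 w) : ℂˣ) : ℂ) := by
  classical
  have hPab : ∀ a ∈ (P : Subgroup G), ∀ b ∈ (P : Subgroup G), a * b = b * a := fun a ha b hb =>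
    congrArg Subtype.val (hab.is_comm.comm (⟨a, ha⟩ : P) ⟨b, hb⟩)
  have := finite_hom (P : Subgroup G) hPab
  let _ : Fintype (↥(P : Subgroup G) →* ℂˣ) := Fintype.ofFinite _
  rw [Cfsg.Agent.Lib.CT.ColumnId.finsum_mem_eq_sum, Finset.mul_sum]
  have e1 : ∀ ψ' : ↥(P : Subgroup G) →* ℂˣ,
      (Nat.card ↥(Subgroup.centralizer ((P : Subgroup G) : Set G)) : ℂ) *
        (if ψ' ∈ {ψ' : ↥(P : Subgroup G) →* ℂˣ | Rel (P : Subgroup G) ψ ψ'} then
          ((ψ' w : ℂˣ) : ℂ) else 0) =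
      ∑ n : ↥(Subgroup.normalizer ((P : Subgroup G) : Set G)),
        if ψ'.comp (cj (P : Subgroup G) n n.2) = ψ then ((ψ' w : ℂˣ) : ℂ) else 0 := by
    intro ψ'
    by_cases hR : Rel (P : Subgroup G) ψ ψ'
    · rw [if_pos (show ψ' ∈ {ψ' : ↥(P : Subgroup G) →* ℂˣ | Rel (P : Subgroup G) ψ ψ'} from hR),
        ← Finset.sum_filter, Finset.sum_const, nsmul_eq_mul,
        ← Fintype.card_subtype, ← Nat.card_eq_fintype_card, count_T p P hfrob ψ ψ' hψ hR]
    · rw [if_neg (show ¬ ψ' ∈ {ψ' : ↥(P : Subgroup G) →* ℂˣ | Rel (P : Subgroup G) ψ ψ'}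
        from hR), mul_zero]
      symm
      apply Finset.sum_eq_zero
      intro n _
      exact if_neg (fun hc => hR ((rel_iff _ _ _).mpr ⟨(n : G), n.2, hc⟩))
  simp_rw [e1]
  rw [Finset.sum_comm]
  have hinv : ∀ x : ↥(Subgroup.normalizer ((P : Subgroup G) : Set G)),
      (cj (P : Subgroup G) ((x⁻¹ : ↥(Subgroup.normalizer ((P : Subgroup G) : Set G))) : G)
        (x⁻¹).2).comp (cj (P : Subgroup G) x x.2) = MonoidHom.id _ := by
    intro x
    refine MonoidHom.ext fun w => Subtype.ext ?_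
    simp only [MonoidHom.comp_apply, cj_coe, MonoidHom.id_apply, Subgroup.coe_inv]
    group
  have hinv' : ∀ x : ↥(Subgroup.normalizer ((P : Subgroup G) : Set G)),
      (cj (P : Subgroup G) x x.2).comp (cj (P : Subgroup G)
        ((x⁻¹ : ↥(Subgroup.normalizer ((P : Subgroup G) : Set G))) : G) (x⁻¹).2) =
        MonoidHom.id _ := by
    intro x
    refine MonoidHom.ext fun w => Subtype.ext ?_
    simp only [MonoidHom.comp_apply, cj_coe, MonoidHom.id_apply, Subgroup.coe_inv]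
    group
  have hiff : ∀ (x : ↥(Subgroup.normalizer ((P : Subgroup G) : Set G)))
      (ψ' : ↥(P : Subgroup G) →* ℂˣ),
      ψ'.comp (cj (P : Subgroup G) x x.2) = ψ ↔ ψ' = ψ.comp (cj (P : Subgroup G)
        ((x⁻¹ : ↥(Subgroup.normalizer ((P : Subgroup G) : Set G))) : G) (x⁻¹).2) := by
    intro x ψ'
    constructor
    · intro h
      rw [← h, MonoidHom.comp_assoc, hinv' x, MonoidHom.comp_id]
    · intro h
      rw [h, MonoidHom.comp_assoc, hinv x, MonoidHom.comp_id]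
  have e2 : ∀ n : ↥(Subgroup.normalizer ((P : Subgroup G) : Set G)),
      ∑ ψ' : ↥(P : Subgroup G) →* ℂˣ,
        (if ψ'.comp (cj (P : Subgroup G) n n.2) = ψ then ((ψ' w : ℂˣ) : ℂ) else 0) =
      ((ψ (cj (P : Subgroup G)
        ((n⁻¹ : ↥(Subgroup.normalizer ((P : Subgroup G) : Set G))) : G) (n⁻¹).2 w) : ℂˣ) : ℂ) := by
    intro n
    have e3 : ∀ ψ' : ↥(P : Subgroup G) →* ℂˣ,
        (if ψ'.comp (cj (P : Subgroup G) n n.2) = ψ then ((ψ' w : ℂˣ) : ℂ) else 0) =
        (if ψ' = ψ.comp (cj (P : Subgroup G)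
          ((n⁻¹ : ↥(Subgroup.normalizer ((P : Subgroup G) : Set G))) : G) (n⁻¹).2) then
          ((ψ' w : ℂˣ) : ℂ) else 0) := by
      intro ψ'
      by_cases hc : ψ'.comp (cj (P : Subgroup G) n n.2) = ψ
      · rw [if_pos hc, if_pos ((hiff n ψ').mp hc)]
      · rw [if_neg hc, if_neg (fun h' => hc ((hiff n ψ').mpr h'))]
    simp_rw [e3]
    rw [Finset.sum_ite_eq' Finset.univ _ (fun ψ' : ↥(P : Subgroup G) →* ℂˣ => ((ψ' w : ℂˣ) : ℂ)),
      if_pos (Finset.mem_univ _)]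
    rfl
  simp_rw [e2]
  exact Fintype.sum_equiv (Equiv.inv ↥(Subgroup.normalizer ((P : Subgroup G) : Set G))) _ _
    (fun n => rfl)

/-- There is a non-identity element of `P` whose inverse is not a product of two normalizer
conjugates of `t`. -/
theorem exists_good [Finite G] {p : ℕ} (P : Sylow p G)
    (hCN : (Subgroup.centralizer ((P : Subgroup G) : Set G)).relIndex
      (Subgroup.normalizer ((P : Subgroup G) : Set G)) = 3)
    (t : G) (ht : t ∈ (P : Subgroup G)) (hcard : 10 < Nat.card ↥(P : Subgroup G)) :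
    ∃ y₀ : G, y₀ ∈ (P : Subgroup G) ∧ y₀ ≠ 1 ∧
      ∀ n ∈ Subgroup.normalizer ((P : Subgroup G) : Set G),
        ∀ n' ∈ Subgroup.normalizer ((P : Subgroup G) : Set G),
          (n * t * n⁻¹) * (n' * t * n'⁻¹) ≠ y₀⁻¹ := by
  classical
  have hidx : ((Subgroup.centralizer ((P : Subgroup G) : Set G)).subgroupOf
      (Subgroup.normalizer ((P : Subgroup G) : Set G))).index = 3 := hCN
  have hQcard : Nat.card (↥(Subgroup.normalizer ((P : Subgroup G) : Set G)) ⧸
      (Subgroup.centralizer ((P : Subgroup G) : Set G)).subgroupOf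
        (Subgroup.normalizer ((P : Subgroup G) : Set G))) = 3 := by
    rw [← Subgroup.index_eq_card]
    exact hidx
  have hfin : Finite (↥(Subgroup.normalizer ((P : Subgroup G) : Set G)) ⧸
      (Subgroup.centralizer ((P : Subgroup G) : Set G)).subgroupOf
        (Subgroup.normalizer ((P : Subgroup G) : Set G))) :=
    Nat.finite_of_card_ne_zero (by rw [hQcard]; norm_num)
  let _ : Fintype (↥(Subgroup.normalizer ((P : Subgroup G) : Set G)) ⧸
      (Subgroup.centralizer ((P : Subgroup G) : Set G)).subgroupOf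
        (Subgroup.normalizer ((P : Subgroup G) : Set G))) := Fintype.ofFinite _
  let f : (↥(Subgroup.normalizer ((P : Subgroup G) : Set G)) ⧸
      (Subgroup.centralizer ((P : Subgroup G) : Set G)).subgroupOf
        (Subgroup.normalizer ((P : Subgroup G) : Set G))) → G :=
    fun q => (q.out : G) * t * (q.out : G)⁻¹
  have hf : ∀ (n : G) (hn : n ∈ Subgroup.normalizer ((P : Subgroup G) : Set G)),
      n * t * n⁻¹ = f (QuotientGroup.mk
        (⟨n, hn⟩ : ↥(Subgroup.normalizer ((P : Subgroup G) : Set G)))) := by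
    intro n hn
    obtain ⟨c, hc⟩ := QuotientGroup.mk_out_eq_mul
      ((Subgroup.centralizer ((P : Subgroup G) : Set G)).subgroupOf
        (Subgroup.normalizer ((P : Subgroup G) : Set G)))
      (⟨n, hn⟩ : ↥(Subgroup.normalizer ((P : Subgroup G) : Set G)))
    have hcC : ((c : ↥(Subgroup.normalizer ((P : Subgroup G) : Set G))) : G) ∈
        Subgroup.centralizer ((P : Subgroup G) : Set G) := Subgroup.mem_subgroupOf.mp c.2
    have hct : t * ((c : ↥(Subgroup.normalizer ((P : Subgroup G) : Set G))) : G) =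
        ((c : ↥(Subgroup.normalizer ((P : Subgroup G) : Set G))) : G) * t :=
      Subgroup.mem_centralizer_iff.mp hcC t ht
    show n * t * n⁻¹ = ((QuotientGroup.mk
      (⟨n, hn⟩ : ↥(Subgroup.normalizer ((P : Subgroup G) : Set G))) :
        ↥(Subgroup.normalizer ((P : Subgroup G) : Set G)) ⧸ _).out : G) * t * _
    rw [hc]
    simp only [Subgroup.coe_mul]
    calc n * t * n⁻¹ =
        n * (t * ((c : ↥(Subgroup.normalizer ((P : Subgroup G) : Set G))) : G) *
          ((c : ↥(Subgroup.normalizer ((P : Subgroup G) : Set G))) : G)⁻¹) * n⁻¹ := by group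
      _ = n * (((c : ↥(Subgroup.normalizer ((P : Subgroup G) : Set G))) : G) * t *
          ((c : ↥(Subgroup.normalizer ((P : Subgroup G) : Set G))) : G)⁻¹) * n⁻¹ := by rw [hct]
      _ = n * ((c : ↥(Subgroup.normalizer ((P : Subgroup G) : Set G))) : G) * t *
          (n * ((c : ↥(Subgroup.normalizer ((P : Subgroup G) : Set G))) : G))⁻¹ := by group
  let _ : Fintype ↥(P : Subgroup G) := Fintype.ofFinite _
  by_contra hall
  have hsub : Finset.univ.image (Subtype.val : ↥(P : Subgroup G) → G) ⊆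
      insert 1 (Finset.image (fun q : (↥(Subgroup.normalizer ((P : Subgroup G) : Set G)) ⧸
        (Subgroup.centralizer ((P : Subgroup G) : Set G)).subgroupOf
          (Subgroup.normalizer ((P : Subgroup G) : Set G))) × (↥(Subgroup.normalizer
            ((P : Subgroup G) : Set G)) ⧸
        (Subgroup.centralizer ((P : Subgroup G) : Set G)).subgroupOf
          (Subgroup.normalizer ((P : Subgroup G) : Set G))) => (f q.1 * f q.2)⁻¹)
          Finset.univ) := by
    intro y hy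
    obtain ⟨y', -, rfl⟩ := Finset.mem_image.mp hy
    by_contra hyS
    apply hall
    refine ⟨(y' : G), y'.2, fun h1 => hyS (by rw [h1]; exact Finset.mem_insert_self _ _), ?_⟩
    intro n hn n' hn' hprod
    apply hyS
    refine Finset.mem_insert_of_mem (Finset.mem_image.mpr ⟨(QuotientGroup.mk ⟨n, hn⟩,
      QuotientGroup.mk ⟨n', hn'⟩), Finset.mem_univ _, ?_⟩)
    show (f _ * f _)⁻¹ = (y' : G)
    rw [← hf n hn, ← hf n' hn', hprod, inv_inv]
  have h1 := Finset.card_le_card hsub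
  rw [Finset.card_image_of_injective _ Subtype.val_injective, Finset.card_univ,
    ← Nat.card_eq_fintype_card] at h1
  have h2 := (Finset.card_insert_le (1 : G) (Finset.image
    (fun q : (↥(Subgroup.normalizer ((P : Subgroup G) : Set G)) ⧸
        (Subgroup.centralizer ((P : Subgroup G) : Set G)).subgroupOf
          (Subgroup.normalizer ((P : Subgroup G) : Set G))) × (↥(Subgroup.normalizer
            ((P : Subgroup G) : Set G)) ⧸
        (Subgroup.centralizer ((P : Subgroup G) : Set G)).subgroupOf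
          (Subgroup.normalizer ((P : Subgroup G) : Set G))) => (f q.1 * f q.2)⁻¹)
          Finset.univ))
  have h3 := Finset.card_image_le (s := (Finset.univ : Finset ((↥(Subgroup.normalizer
      ((P : Subgroup G) : Set G)) ⧸
        (Subgroup.centralizer ((P : Subgroup G) : Set G)).subgroupOf
          (Subgroup.normalizer ((P : Subgroup G) : Set G))) × (↥(Subgroup.normalizer
            ((P : Subgroup G) : Set G)) ⧸
        (Subgroup.centralizer ((P : Subgroup G) : Set G)).subgroupOf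
          (Subgroup.normalizer ((P : Subgroup G) : Set G))))))
    (f := fun q => (f q.1 * f q.2)⁻¹)
  rw [Finset.card_univ, Fintype.card_prod, ← Nat.card_eq_fintype_card, hQcard] at h3
  omega

end Cfsg.Agent.Lib.Helper80.AbSylow3
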