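import Mathlib
import Cfsg.Agent.Lib.Helper80.AbSylow3

/-!
# Abelian Sylow subgroup with `|N : C| = 3` acting freely: the involution clause

Products of two conjugates of an involution never have `p`-part conjugate to a suitable element
of `P`; this feeds the class-multiplication relation of `AbSylow3.invol_sum`.
-/

set_option autoImplicit false

namespace Cfsg.Agent.Lib.Helper80.AbSylow3b

open Cfsg Cfsg.Agent.Lib.CT.Wedderburn Cfsg.Agent.Lib.Helper80.AbSylowCh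
  Cfsg.Agent.Lib.Helper80.AbSylowGT Cfsg.Agent.Lib.CT.ThirdMain
  Cfsg.Agent.Lib.Helper80.AbSylowMain Cfsg.Agent.Lib.Helper80.AbSylowPkg
  Cfsg.Agent.Lib.Helper80.AbSylow3

open scoped ComplexConjugate

universe u
variable {G : Type u} [Group G]

/-- Two involutions invert every power of their product. -/
theorem inverts (s₁ s₂ : G) (h1 : s₁ * s₁ = 1) (h2 : s₂ * s₂ = 1) (x : G) (e : ℕ)
    (hx : x = (s₁ * s₂) ^ e) : s₁ * x * s₁⁻¹ = x⁻¹ ∧ s₂ * x * s₂⁻¹ = x⁻¹ := by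
  have i1 : s₁⁻¹ = s₁ := inv_eq_of_mul_eq_one_left h1
  have i2 : s₂⁻¹ = s₂ := inv_eq_of_mul_eq_one_left h2
  have d1 : s₁ * (s₁ * s₂) * s₁⁻¹ = (s₁ * s₂)⁻¹ := by
    rw [mul_inv_rev, i1, i2, ← mul_assoc, h1, one_mul]
  have d2 : s₂ * (s₁ * s₂) * s₂⁻¹ = (s₁ * s₂)⁻¹ := by
    rw [mul_inv_rev, i1, i2, mul_assoc, mul_assoc, h2, mul_one]
  constructor
  · rw [hx, ← conj_pow, d1, inv_pow]
  · rw [hx, ← conj_pow, d2, inv_pow]

theorem conj_sq (c t : G) (ht : t * t = 1) : (c * t * c⁻¹) * (c * t * c⁻¹) = 1 := by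
  calc (c * t * c⁻¹) * (c * t * c⁻¹) = c * (t * t) * c⁻¹ := by group
    _ = 1 := by rw [ht, mul_one, mul_inv_cancel]

theorem sq_of_orderOf_two (t : G) (ht : orderOf t = 2) : t * t = 1 := by
  have := pow_orderOf_eq_one t
  rw [ht, pow_two] at this
  exact this

/-- If the `p`-part of a product of two conjugates of the involution `t` is conjugate to
`u ∈ P`, then `u * u = 1` and both (suitably conjugated) involutions commute with `u`. -/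
theorem invol_conj [Finite G] (p : ℕ) [Fact p.Prime] (P : Sylow p G)
    (hab : IsMulCommutative P)
    (hCN : (Subgroup.centralizer ((P : Subgroup G) : Set G)).relIndex
      (Subgroup.normalizer ((P : Subgroup G) : Set G)) = 3)
    (hfrob : ∀ y : G, y ∈ (P : Subgroup G) → y ≠ 1 →
      Subgroup.centralizer ({y} : Set G) ⊓ Subgroup.normalizer ((P : Subgroup G) : Set G) =
        Subgroup.centralizer ((P : Subgroup G) : Set G))
    (t : G) (ht : t * t = 1) (u : G) (hu : u ∈ (P : Subgroup G)) (g x c : G)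
    (hx : IsPPart p (t * (g * t * g⁻¹)) x) (hc : c * x * c⁻¹ = u) :
    u * u = 1 ∧ IsPPart p ((c * t * c⁻¹) * (c * (g * t * g⁻¹) * c⁻¹)) u ∧
      (c * t * c⁻¹) * u = u * (c * t * c⁻¹) ∧
      (c * (g * t * g⁻¹) * c⁻¹) * u = u * (c * (g * t * g⁻¹) * c⁻¹) := by
  have hp : p.Prime := Fact.out
  have hx' : IsPPart p ((c * t * c⁻¹) * (c * (g * t * g⁻¹) * c⁻¹)) u := by
    have h := Cfsg.Agent.Lib.CT.SectionOrth.isPPart_conj hx c
    rw [hc] at h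
    have e : c * (t * (g * t * g⁻¹)) * c⁻¹ = (c * t * c⁻¹) * (c * (g * t * g⁻¹) * c⁻¹) := by
      group
    rw [e] at h
    exact h
  have hs1 : (c * t * c⁻¹) * (c * t * c⁻¹) = 1 := conj_sq c t ht
  have hs2 : (c * (g * t * g⁻¹) * c⁻¹) * (c * (g * t * g⁻¹) * c⁻¹) = 1 :=
    conj_sq c _ (conj_sq g t ht)
  obtain ⟨e, he⟩ := Cfsg.Agent.Lib.CT.SectionOrth.isPPart_exists_pow hp hx'
  obtain ⟨hi1, hi2⟩ := inverts _ _ hs1 hs2 u e he
  have huu : u * u = 1 := sq_eq_one_of_conj_inv p P hab hCN hfrob u hu _ hi1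
  have hinv : u⁻¹ = u := inv_eq_of_mul_eq_one_left huu
  rw [hinv] at hi1 hi2
  refine ⟨huu, hx', ?_, ?_⟩
  · calc (c * t * c⁻¹) * u = ((c * t * c⁻¹) * u * (c * t * c⁻¹)⁻¹) * (c * t * c⁻¹) := by group
      _ = u * (c * t * c⁻¹) := by rw [hi1]
  · calc (c * (g * t * g⁻¹) * c⁻¹) * u =
        ((c * (g * t * g⁻¹) * c⁻¹) * u * (c * (g * t * g⁻¹) * c⁻¹)⁻¹) *
          (c * (g * t * g⁻¹) * c⁻¹) := by group
      _ = u * (c * (g * t * g⁻¹) * c⁻¹) := by rw [hi2]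

/-- For odd `p`, no product of two conjugates of an involution has `p`-part conjugate to a
non-identity element of `P`. -/
theorem hno_odd [Finite G] (p : ℕ) [Fact p.Prime] (P : Sylow p G)
    (hab : IsMulCommutative P)
    (hCN : (Subgroup.centralizer ((P : Subgroup G) : Set G)).relIndex
      (Subgroup.normalizer ((P : Subgroup G) : Set G)) = 3)
    (hfrob : ∀ y : G, y ∈ (P : Subgroup G) → y ≠ 1 →
      Subgroup.centralizer ({y} : Set G) ⊓ Subgroup.normalizer ((P : Subgroup G) : Set G) =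
        Subgroup.centralizer ((P : Subgroup G) : Set G))
    (hp2 : p ≠ 2) (t : G) (ht : orderOf t = 2) (y₀ : G) (hy₀ : y₀ ∈ (P : Subgroup G))
    (hy₀1 : y₀ ≠ 1) :
    ∀ g x : G, IsPPart p (t * (g * t * g⁻¹)) x → ¬ IsConj x y₀⁻¹ := by
  intro g x hx hconj
  have hp : p.Prime := Fact.out
  obtain ⟨c, hc⟩ := isConj_iff.mp hconj
  obtain ⟨huu, -, -, -⟩ := invol_conj p P hab hCN hfrob t (sq_of_orderOf_two t ht) y₀⁻¹
    (Subgroup.inv_mem _ hy₀) g x c hx hc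
  have hyy : y₀ ^ 2 = 1 := by
    have h1 : (y₀ * y₀)⁻¹ = 1 := by rw [mul_inv_rev]; exact huu
    rw [pow_two]
    exact inv_eq_one.mp h1
  have hd : orderOf y₀ ∣ 2 := orderOf_dvd_of_pow_eq_one hyy
  obtain ⟨k, hk⟩ := Cfsg.Agent.Lib.CT.ColumnId.orderOf_coe_of_isPGroup P.isPGroup' ⟨y₀, hy₀⟩
  have hk' : orderOf y₀ = p ^ k := hk
  rw [hk'] at hd
  rcases Nat.eq_zero_or_pos k with h0 | h0
  · rw [h0, pow_zero] at hk'
    exact hy₀1 (orderOf_eq_one_iff.mp hk')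
  · have h1 : p ∣ 2 := dvd_trans (dvd_pow_self p h0.ne') hd
    exact hp2 ((Nat.prime_dvd_prime_iff_eq hp Nat.prime_two).mp h1)

theorem pow_odd_of_sq {H : Type*} [Group H] (q : H) (hq : q * q = 1) (k : ℕ) (hk : ¬ 2 ∣ k) :
    q ^ k = q := by
  obtain ⟨j, hj⟩ : ∃ j, k = 2 * j + 1 := ⟨k / 2, by omega⟩
  rw [hj, pow_succ, pow_mul, pow_two, hq, one_pow, one_mul]

/-- For `p = 2` and an involution `t ∈ P`: no product of two conjugates of `t` has `2`-part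
conjugate to `y₀⁻¹`, when `y₀⁻¹` is not a product of two normalizer conjugates of `t`. -/
theorem hno_two [Finite G] (P : Sylow 2 G)
    (hab : IsMulCommutative P)
    (hCN : (Subgroup.centralizer ((P : Subgroup G) : Set G)).relIndex
      (Subgroup.normalizer ((P : Subgroup G) : Set G)) = 3)
    (hfrob : ∀ y : G, y ∈ (P : Subgroup G) → y ≠ 1 →
      Subgroup.centralizer ({y} : Set G) ⊓ Subgroup.normalizer ((P : Subgroup G) : Set G) =
        Subgroup.centralizer ((P : Subgroup G) : Set G))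
    (t : G) (htP : t ∈ (P : Subgroup G)) (ht : orderOf t = 2) (y₀ : G)
    (hy₀ : y₀ ∈ (P : Subgroup G)) (hy₀1 : y₀ ≠ 1)
    (hgood : ∀ n ∈ Subgroup.normalizer ((P : Subgroup G) : Set G),
        ∀ n' ∈ Subgroup.normalizer ((P : Subgroup G) : Set G),
          (n * t * n⁻¹) * (n' * t * n'⁻¹) ≠ y₀⁻¹) :
    ∀ g x : G, IsPPart 2 (t * (g * t * g⁻¹)) x → ¬ IsConj x y₀⁻¹ := by
  intro g x hx hconj
  have : Fact (Nat.Prime 2) := ⟨Nat.prime_two⟩
  obtain ⟨c, hc⟩ := isConj_iff.mp hconj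
  have htt : t * t = 1 := sq_of_orderOf_two t ht
  have ht1 : t ≠ 1 := by
    intro h
    rw [h, orderOf_one] at ht
    norm_num at ht
  have hu : y₀⁻¹ ∈ (P : Subgroup G) := Subgroup.inv_mem _ hy₀
  have hu1 : y₀⁻¹ ≠ 1 := fun h => hy₀1 (inv_eq_one.mp h)
  obtain ⟨huu, hx', hc1, hc2⟩ := invol_conj 2 P hab hCN hfrob t htt y₀⁻¹ hu g x c hx hc
  generalize y₀⁻¹ = u at hu hu1 huu hx' hc1 hc2 hgood hc
  obtain ⟨r, hur, hcomm, -, hr⟩ := hx'
  obtain ⟨τ, k, hk, hτ⟩ := exists_transfer 2 P hab hfrob u hu hu1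
  have hPH : (P : Subgroup G) ≤ Subgroup.centralizer ({u} : Set G) :=
    le_centralizer_singleton P hab u hu
  have memH : ∀ w : G, w * u = u * w → w ∈ Subgroup.centralizer ({u} : Set G) := by
    intro w hw
    rw [Subgroup.mem_centralizer_iff]
    intro h hh
    rw [Set.mem_singleton_iff] at hh
    subst hh
    exact hw.symm
  have hs1H := memH _ hc1
  have hs2H := memH _ hc2
  have hrH : r ∈ Subgroup.centralizer ({u} : Set G) := memH r hcomm.eq.symm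
  have huH : u ∈ Subgroup.centralizer ({u} : Set G) := hPH hu
  -- transfer of u and r
  have hτu : τ ⟨u, huH⟩ = ⟨u, hu⟩ := by
    rw [hτ ⟨u, huH⟩ hu]
    exact pow_odd_of_sq (⟨u, hu⟩ : ↥(P : Subgroup G)) (Subtype.ext huu) k hk
  have hτr : τ ⟨r, hrH⟩ = 1 := by
    rw [← orderOf_eq_one_iff]
    have h1 : orderOf (τ ⟨r, hrH⟩) ∣ orderOf (⟨r, hrH⟩ : ↥(Subgroup.centralizer ({u} : Set G))) :=
      orderOf_map_dvd τ _
    have h2 : orderOf (⟨r, hrH⟩ : ↥(Subgroup.centralizer ({u} : Set G))) = orderOf r :=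
      (Subgroup.orderOf_coe (⟨r, hrH⟩ : ↥(Subgroup.centralizer ({u} : Set G)))).symm
    rw [h2] at h1
    obtain ⟨j, hj⟩ := IsPGroup.iff_orderOf.mp P.isPGroup' (τ ⟨r, hrH⟩)
    rw [hj] at h1 ⊢
    rcases Nat.eq_zero_or_pos j with h0 | h0
    · rw [h0, pow_zero]
    · exact absurd (dvd_trans (dvd_pow_self 2 h0.ne') h1) hr
  -- transfer of a conjugate of t lying in the centralizer
  have key : ∀ (s : G) (hsH : s ∈ Subgroup.centralizer ({u} : Set G)) (a : G),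
      s = a * t * a⁻¹ → ∃ n ∈ Subgroup.normalizer ((P : Subgroup G) : Set G),
        ((τ ⟨s, hsH⟩ : ↥(P : Subgroup G)) : G) = n * t * n⁻¹ := by
    intro s hsH a hsa
    have hss : s * s = 1 := by rw [hsa]; exact conj_sq a t htt
    have hs1 : s ≠ 1 := by
      intro h
      rw [h] at hsa
      apply ht1
      have : a⁻¹ * (a * t * a⁻¹) * a = 1 := by rw [← hsa]; group
      rw [← this]
      group
    let Q : Sylow 2 ↥(Subgroup.centralizer ({u} : Set G)) := P.subtype hPH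
    have hord : orderOf (⟨s, hsH⟩ : ↥(Subgroup.centralizer ({u} : Set G))) = 2 ^ 1 := by
      rw [pow_one]
      refine orderOf_eq_prime ?_ ?_
      · rw [pow_two]
        exact Subtype.ext hss
      · intro h
        exact hs1 (congrArg Subtype.val h)
    obtain ⟨h, hh⟩ := exists_conj_mem_sylow 2 Q ⟨s, hsH⟩ 1 hord
    have hhP : ((h⁻¹ * ⟨s, hsH⟩ * h : ↥(Subgroup.centralizer ({u} : Set G))) : G) ∈
        (P : Subgroup G) := by
      have := hh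
      rw [Sylow.coe_subtype, Subgroup.mem_subgroupOf] at this
      exact this
    have hτs : τ ⟨s, hsH⟩ = τ (h⁻¹ * ⟨s, hsH⟩ * h) := by
      rw [map_mul, map_mul, map_inv, hab.is_comm.comm (τ h)⁻¹ (τ ⟨s, hsH⟩), mul_assoc,
        inv_mul_cancel, mul_one]
    have hq2 : (⟨((h⁻¹ * ⟨s, hsH⟩ * h : ↥(Subgroup.centralizer ({u} : Set G))) : G), hhP⟩ :
        ↥(P : Subgroup G)) * ⟨_, hhP⟩ = 1 := by
      apply Subtype.ext
      simp only [Subgroup.coe_mul, Subgroup.coe_inv, Subgroup.coe_one]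
      calc (h : G)⁻¹ * s * (h : G) * ((h : G)⁻¹ * s * (h : G)) =
          (h : G)⁻¹ * (s * s) * (h : G) := by group
        _ = 1 := by rw [hss, mul_one, inv_mul_cancel]
    rw [hτs, hτ _ hhP, pow_odd_of_sq _ hq2 k hk]
    have e : ((h⁻¹ * ⟨s, hsH⟩ * h : ↥(Subgroup.centralizer ({u} : Set G))) : G) =
        ((h : G)⁻¹ * a) * t * ((h : G)⁻¹ * a)⁻¹ := by
      simp only [Subgroup.coe_mul, Subgroup.coe_inv]
      rw [hsa]
      group
    have hmem : ((h : G)⁻¹ * a) * t * ((h : G)⁻¹ * a)⁻¹ ∈ (P : Subgroup G) := by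
      rw [← e]
      exact hhP
    obtain ⟨n, hn, hnt⟩ := fusion 2 P hab t htP _ hmem
    exact ⟨n, hn, by rw [hnt]; exact e⟩
  obtain ⟨n₁, hn₁, e₁⟩ := key _ hs1H c rfl
  obtain ⟨n₂, hn₂, e₂⟩ := key _ hs2H (c * g) (by group)
  apply hgood n₁ hn₁ n₂ hn₂
  rw [← e₁, ← e₂, ← Subgroup.coe_mul, ← map_mul]
  have e3 : (⟨c * t * c⁻¹, hs1H⟩ * ⟨c * (g * t * g⁻¹) * c⁻¹, hs2H⟩ :
      ↥(Subgroup.centralizer ({u} : Set G))) = ⟨u, huH⟩ * ⟨r, hrH⟩ :=
    Subtype.ext hur.symm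
  rw [e3, map_mul, hτu, hτr, mul_one]

section pkg

variable [Finite G] {p : ℕ} {M : Ideal AlgInt} {P : Sylow p G} {m : ℕ}
  [Fintype (IrrCharacter G)] [Fintype (↥(P : Subgroup G) →* ℂˣ)] [DecidableEq (IrrCharacter G)]
  [DecidableEq (↥(P : Subgroup G) →* ℂˣ)]
  {v : (↥(P : Subgroup G) →* ℂˣ) → IrrCharacter G → ℤ} {δ : ℤ} {Γ : IrrCharacter G → ℤ} {γ : ℤ}
  {ζ : (↥(P : Subgroup G) →* ℂˣ) → IrrCharacter G}

/-- A weighted column of the principal block at a non-identity element of `P`. -/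
theorem A_rel (h : IsPkg p M P m v δ Γ γ ζ) (w : IrrCharacter G → ℂ) (y₀ : G)
    (hy₀ : y₀ ∈ (P : Subgroup G)) (hy₀1 : y₀ ≠ 1) :
    ∑ᶠ χ ∈ principalBlock M G, (χ : G → ℂ) y₀ * w χ =
      -∑ χ, (Γ χ : ℂ) * w χ + (δ : ℂ) * ∑ ψ : ↥(P : Subgroup G) →* ℂˣ,
        if ψ ≠ 1 then ((ψ ⟨y₀, hy₀⟩ : ℂˣ) : ℂ) * w (ζ ψ) else 0 := by
  classical
  have hp := h.hp
  have : Fact p.Prime := ⟨hp⟩
  have hz : IsPPart p y₀ y₀ := Cfsg.Agent.Lib.CT.ColumnId.isPPart_self p hp y₀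
    (Cfsg.Agent.Lib.CT.ColumnId.orderOf_coe_of_isPGroup P.isPGroup' ⟨y₀, hy₀⟩)
  rw [Cfsg.Agent.Lib.CT.ColumnId.finsum_mem_eq_sum]
  have e : ∀ χ : IrrCharacter G,
      (if χ ∈ principalBlock M G then (χ : G → ℂ) y₀ * w χ else 0) =
      -((Γ χ : ℂ) * w χ) + (δ : ℂ) * ∑ ψ : ↥(P : Subgroup G) →* ℂˣ,
        if (ψ ≠ 1 ∧ ζ ψ = χ) then ((ψ ⟨y₀, hy₀⟩ : ℂˣ) : ℂ) * w (ζ ψ) else 0 := by
    intro χ
    by_cases hχ : χ ∈ principalBlock M G
    · rw [if_pos hχ, h.value χ hχ y₀ y₀ hz hy₀ hy₀1, add_mul, mul_assoc, Finset.sum_mul,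
        neg_mul]
      congr 2
      refine Finset.sum_congr rfl fun ψ _ => ?_
      by_cases hc : ψ ≠ 1 ∧ ζ ψ = χ
      · rw [if_pos hc, if_pos hc, hc.2]
      · rw [if_neg hc, if_neg hc, zero_mul]
    · rw [if_neg hχ, h.Γ_off χ hχ]
      have h0 : ∑ ψ : ↥(P : Subgroup G) →* ℂˣ,
          (if (ψ ≠ 1 ∧ ζ ψ = χ) then ((ψ ⟨y₀, hy₀⟩ : ℂˣ) : ℂ) * w (ζ ψ) else 0) = 0 :=
        Finset.sum_eq_zero fun ψ _ => if_neg (fun h' : ψ ≠ 1 ∧ ζ ψ = χ =>
          hχ (h'.2 ▸ h.ζ_mem ψ h'.1))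
      rw [h0]
      simp
  simp_rw [e]
  rw [Finset.sum_add_distrib, Finset.sum_neg_distrib, ← Finset.mul_sum, Finset.sum_comm]
  congr 2
  refine Finset.sum_congr rfl fun ψ _ => ?_
  by_cases hψ : ψ ≠ 1
  · rw [if_pos hψ]
    have e2 : ∀ χ : IrrCharacter G,
        (if (ψ ≠ 1 ∧ ζ ψ = χ) then ((ψ ⟨y₀, hy₀⟩ : ℂˣ) : ℂ) * w (ζ ψ) else 0) =
        if ζ ψ = χ then ((ψ ⟨y₀, hy₀⟩ : ℂˣ) : ℂ) * w (ζ ψ) else 0 := by
      intro χ
      by_cases hc : ζ ψ = χ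
      · rw [if_pos ⟨hψ, hc⟩, if_pos hc]
      · rw [if_neg (fun h' => hc h'.2), if_neg hc]
    simp_rw [e2]
    rw [Finset.sum_ite_eq Finset.univ (ζ ψ) (fun _ => ((ψ ⟨y₀, hy₀⟩ : ℂˣ) : ℂ) * w (ζ ψ)),
      if_pos (Finset.mem_univ _)]
  · rw [if_neg hψ]
    exact Finset.sum_eq_zero fun χ _ => if_neg (fun h' : ψ ≠ 1 ∧ ζ ψ = χ => hψ h'.1)

/-- The weighted column when the weight is constant on the exceptional characters. -/
theorem A_rel_const (h : IsPkg p M P m v δ Γ γ ζ) (w : IrrCharacter G → ℂ) (W : ℂ)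
    (hW : ∀ ψ : ↥(P : Subgroup G) →* ℂˣ, ψ ≠ 1 → w (ζ ψ) = W) (y₀ : G)
    (hy₀ : y₀ ∈ (P : Subgroup G)) (hy₀1 : y₀ ≠ 1) :
    ∑ᶠ χ ∈ principalBlock M G, (χ : G → ℂ) y₀ * w χ =
      -∑ χ, (Γ χ : ℂ) * w χ - (δ : ℂ) * W := by
  classical
  rw [A_rel h w y₀ hy₀ hy₀1]
  have hy1' : (⟨y₀, hy₀⟩ : ↥(P : Subgroup G)) ≠ 1 := fun h' => hy₀1 (congrArg Subtype.val h')
  have hsumΨ : ∑ ψ : ↥(P : Subgroup G) →* ℂˣ, ((ψ ⟨y₀, hy₀⟩ : ℂˣ) : ℂ) = 0 := by
    rw [Cfsg.Agent.Lib.Helper25.CyclicTI.sum_hom_sub (P : Subgroup G) h.hPab, if_neg hy1']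
  have e : ∀ ψ : ↥(P : Subgroup G) →* ℂˣ,
      (if ψ ≠ 1 then ((ψ ⟨y₀, hy₀⟩ : ℂˣ) : ℂ) * w (ζ ψ) else 0) =
      ((ψ ⟨y₀, hy₀⟩ : ℂˣ) : ℂ) * W - (if ψ = 1 then W else 0) := by
    intro ψ
    by_cases hψ : ψ = 1
    · rw [if_neg (not_not.mpr hψ), if_pos hψ, hψ]
      simp
    · rw [if_pos hψ, if_neg hψ, hW ψ hψ, sub_zero]
  simp_rw [e]
  rw [Finset.sum_sub_distrib, ← Finset.sum_mul, hsumΨ,
    Finset.sum_ite_eq' Finset.univ (1 : ↥(P : Subgroup G) →* ℂˣ) (fun _ => W),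
    if_pos (Finset.mem_univ _)]
  ring

end pkg

/-- The second-moment sum over the linear characters of `P` vanishes at a good element. -/
theorem two_sum [Finite G] {p : ℕ} (P : Sylow p G) (hab : IsMulCommutative P)
    (t : G) (htP : t ∈ (P : Subgroup G)) (y₀ : G) (hy₀ : y₀ ∈ (P : Subgroup G))
    (hgood : ∀ n ∈ Subgroup.normalizer ((P : Subgroup G) : Set G),
        ∀ n' ∈ Subgroup.normalizer ((P : Subgroup G) : Set G),
          (n * t * n⁻¹) * (n' * t * n'⁻¹) ≠ y₀⁻¹)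
    [Fintype (↥(P : Subgroup G) →* ℂˣ)]
    [Fintype ↥(Subgroup.normalizer ((P : Subgroup G) : Set G))] :
    ∑ ψ : ↥(P : Subgroup G) →* ℂˣ, ((ψ ⟨y₀, hy₀⟩ : ℂˣ) : ℂ) *
      (∑ n : ↥(Subgroup.normalizer ((P : Subgroup G) : Set G)),
        ((ψ (cj (P : Subgroup G) n n.2 ⟨t, htP⟩) : ℂˣ) : ℂ)) ^ 2 = 0 := by
  classical
  have hPab : ∀ a ∈ (P : Subgroup G), ∀ b ∈ (P : Subgroup G), a * b = b * a := fun a ha b hb =>
    congrArg Subtype.val (hab.is_comm.comm (⟨a, ha⟩ : P) ⟨b, hb⟩)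
  have e : ∀ ψ : ↥(P : Subgroup G) →* ℂˣ, ((ψ ⟨y₀, hy₀⟩ : ℂˣ) : ℂ) *
      (∑ n : ↥(Subgroup.normalizer ((P : Subgroup G) : Set G)),
        ((ψ (cj (P : Subgroup G) n n.2 ⟨t, htP⟩) : ℂˣ) : ℂ)) ^ 2 =
      ∑ n : ↥(Subgroup.normalizer ((P : Subgroup G) : Set G)),
        ∑ n' : ↥(Subgroup.normalizer ((P : Subgroup G) : Set G)),
          ((ψ (⟨y₀, hy₀⟩ * cj (P : Subgroup G) n n.2 ⟨t, htP⟩ *
            cj (P : Subgroup G) n' n'.2 ⟨t, htP⟩) : ℂˣ) : ℂ) := by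
    intro ψ
    rw [pow_two, Finset.sum_mul_sum, Finset.mul_sum]
    refine Finset.sum_congr rfl fun n _ => ?_
    rw [Finset.mul_sum]
    refine Finset.sum_congr rfl fun n' _ => ?_
    rw [map_mul, map_mul, Units.val_mul, Units.val_mul, mul_assoc]
  simp_rw [e]
  rw [Finset.sum_comm]
  apply Finset.sum_eq_zero
  intro n _
  rw [Finset.sum_comm]
  apply Finset.sum_eq_zero
  intro n' _
  rw [Cfsg.Agent.Lib.Helper25.CyclicTI.sum_hom_sub (P : Subgroup G) hPab, if_neg]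
  intro h1
  have h2 := congrArg Subtype.val h1
  simp only [Subgroup.coe_mul, cj_coe, Subgroup.coe_one] at h2
  exact hgood n n.2 n' n'.2 (eq_inv_of_mul_eq_one_right (by rw [← mul_assoc]; exact h2))

/-- The weighted column for `p = 2` with an involution in `P`. -/
theorem A_rel_two [Finite G] {M : Ideal AlgInt} {P : Sylow 2 G}
    [Fintype (IrrCharacter G)] [Fintype (↥(P : Subgroup G) →* ℂˣ)] [DecidableEq (IrrCharacter G)]
    [DecidableEq (↥(P : Subgroup G) →* ℂˣ)]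
    {v : (↥(P : Subgroup G) →* ℂˣ) → IrrCharacter G → ℤ} {δ : ℤ} {Γ : IrrCharacter G → ℤ}
    {ζ : (↥(P : Subgroup G) →* ℂˣ) → IrrCharacter G}
    (h : IsPkg 2 M P 3 v δ Γ 0 ζ) (hab : IsMulCommutative P)
    (hCN : (Subgroup.centralizer ((P : Subgroup G) : Set G)).relIndex
      (Subgroup.normalizer ((P : Subgroup G) : Set G)) = 3)
    (hfrob : ∀ y : G, y ∈ (P : Subgroup G) → y ≠ 1 →
      Subgroup.centralizer ({y} : Set G) ⊓ Subgroup.normalizer ((P : Subgroup G) : Set G) =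
        Subgroup.centralizer ((P : Subgroup G) : Set G))
    (t : G) (htP : t ∈ (P : Subgroup G)) (ht1 : t ≠ 1) (y₀ : G) (hy₀ : y₀ ∈ (P : Subgroup G))
    (hy₀1 : y₀ ≠ 1)
    (hgood : ∀ n ∈ Subgroup.normalizer ((P : Subgroup G) : Set G),
        ∀ n' ∈ Subgroup.normalizer ((P : Subgroup G) : Set G),
          (n * t * n⁻¹) * (n' * t * n'⁻¹) ≠ y₀⁻¹)
    (x₃ : ℂ) (hx₃ : x₃ ≠ 0)
    (hdeg : ∀ ψ : ↥(P : Subgroup G) →* ℂˣ, ψ ≠ 1 → (ζ ψ : G → ℂ) 1 = x₃) :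
    ∑ᶠ χ ∈ principalBlock M G, (χ : G → ℂ) y₀ * ((χ : G → ℂ) t ^ 2 / (χ : G → ℂ) 1) =
      -∑ χ, (Γ χ : ℂ) * ((χ : G → ℂ) t ^ 2 / (χ : G → ℂ) 1) - (δ : ℂ) * (9 / x₃) := by
  classical
  have : Fact (Nat.Prime 2) := ⟨Nat.prime_two⟩
  rw [A_rel h _ y₀ hy₀ hy₀1]
  let _ : Fintype ↥(Subgroup.normalizer ((P : Subgroup G) : Set G)) := Fintype.ofFinite _
  have hCne : (Nat.card ↥(Subgroup.centralizer ((P : Subgroup G) : Set G)) : ℂ) ≠ 0 :=
    Nat.cast_ne_zero.mpr Nat.card_pos.ne'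
  have hNC : (Fintype.card ↥(Subgroup.normalizer ((P : Subgroup G) : Set G)) : ℂ) =
      (Nat.card ↥(Subgroup.centralizer ((P : Subgroup G) : Set G)) : ℂ) * 3 := by
    have h1 := Cfsg.Agent.Lib.Helper76.PSolv.card_eq_card_mul_relIndex
      (Subgroup.centralizer_le_normalizer ((P : Subgroup G) : Set G))
    rw [hCN] at h1
    rw [← Nat.card_eq_fintype_card, h1]
    push_cast
    rfl
  have hz : IsPPart 2 t t := Cfsg.Agent.Lib.CT.ColumnId.isPPart_self 2 Nat.prime_two t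
    (Cfsg.Agent.Lib.CT.ColumnId.orderOf_coe_of_isPGroup P.isPGroup' ⟨t, htP⟩)
  have hδ2 : (δ : ℂ) ^ 2 = 1 := by exact_mod_cast h.δ_sq
  have hT : ∀ ψ : ↥(P : Subgroup G) →* ℂˣ, ψ ≠ 1 → (ζ ψ : G → ℂ) t ^ 2 =
      (∑ n : ↥(Subgroup.normalizer ((P : Subgroup G) : Set G)),
        ((ψ (cj (P : Subgroup G) n n.2 ⟨t, htP⟩) : ℂˣ) : ℂ)) ^ 2 /
        (Nat.card ↥(Subgroup.centralizer ((P : Subgroup G) : Set G)) : ℂ) ^ 2 := by
    intro ψ hψ
    have h1 := h.value_Y ψ hψ t t hz htP ht1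
    have h2 := orbit_sum 2 P hab hfrob ψ hψ ⟨t, htP⟩
    rw [h1, ← h2]
    push_cast
    field_simp
    linear_combination (∑ᶠ ψ' ∈ {ψ' : ↥(P : Subgroup G) →* ℂˣ | Rel (P : Subgroup G) ψ ψ'},
      ((ψ' ⟨t, htP⟩ : ℂˣ) : ℂ)) ^ 2 * hδ2
  have e : ∀ ψ : ↥(P : Subgroup G) →* ℂˣ,
      (if ψ ≠ 1 then ((ψ ⟨y₀, hy₀⟩ : ℂˣ) : ℂ) * ((ζ ψ : G → ℂ) t ^ 2 / (ζ ψ : G → ℂ) 1) else 0) =
      (((ψ ⟨y₀, hy₀⟩ : ℂˣ) : ℂ) *
        (∑ n : ↥(Subgroup.normalizer ((P : Subgroup G) : Set G)),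
          ((ψ (cj (P : Subgroup G) n n.2 ⟨t, htP⟩) : ℂˣ) : ℂ)) ^ 2 -
        (if ψ = 1 then ((Nat.card ↥(Subgroup.centralizer ((P : Subgroup G) : Set G)) : ℂ) * 3) ^ 2
          else 0)) /
        ((Nat.card ↥(Subgroup.centralizer ((P : Subgroup G) : Set G)) : ℂ) ^ 2 * x₃) := by
    intro ψ
    by_cases hψ : ψ = 1
    · have e1 : ∑ n : ↥(Subgroup.normalizer ((P : Subgroup G) : Set G)),
          (((1 : ↥(P : Subgroup G) →* ℂˣ) (cj (P : Subgroup G) n n.2 ⟨t, htP⟩) : ℂˣ) : ℂ) =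
          (Nat.card ↥(Subgroup.centralizer ((P : Subgroup G) : Set G)) : ℂ) * 3 := by
        simp only [MonoidHom.one_apply, Units.val_one, Finset.sum_const, Finset.card_univ,
          nsmul_eq_mul, mul_one]
        exact hNC
      rw [if_neg (not_not.mpr hψ), if_pos hψ, hψ, e1, MonoidHom.one_apply, Units.val_one,
        one_mul, sub_self, zero_div]
    · rw [if_pos hψ, if_neg hψ, hT ψ hψ, hdeg ψ hψ, sub_zero]
      field_simp
  simp_rw [e]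
  rw [← Finset.sum_div, Finset.sum_sub_distrib, two_sum P hab t htP y₀ hy₀ hgood,
    Finset.sum_ite_eq' Finset.univ (1 : ↥(P : Subgroup G) →* ℂˣ)
      (fun _ => ((Nat.card ↥(Subgroup.centralizer ((P : Subgroup G) : Set G)) : ℂ) * 3) ^ 2),
    if_pos (Finset.mem_univ _)]
  field_simp
  ring

theorem three_set {α : Type*} (s : Set α) (a : α) (ha : a ∈ s) (h : s.ncard = 3) :
    ∃ b c, a ≠ b ∧ a ≠ c ∧ b ≠ c ∧ s = {a, b, c} := by
  obtain ⟨x, y, z, hxy, hxz, hyz, rfl⟩ := Set.ncard_eq_three.mp h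
  simp only [Set.mem_insert_iff, Set.mem_singleton_iff] at ha
  rcases ha with rfl | rfl | rfl
  · exact ⟨y, z, hxy, hxz, hyz, rfl⟩
  · refine ⟨x, z, hxy.symm, hyz, hxz, ?_⟩
    ext w
    simp only [Set.mem_insert_iff, Set.mem_singleton_iff]
    tauto
  · refine ⟨x, y, hxz.symm, hyz.symm, hxy, ?_⟩
    ext w
    simp only [Set.mem_insert_iff, Set.mem_singleton_iff]
    tauto

/-- A non-principal irreducible character is not constant `χ 1` at an element lying in no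
proper normal subgroup. -/
theorem apply_ne_of_top [Finite G] (χ : IrrCharacter G) (hχ : χ ≠ triv G) (t : G)
    (hK : ∀ K : Subgroup G, K.Normal → t ∈ K → K = ⊤) : (χ : G → ℂ) t ≠ (χ : G → ℂ) 1 := by
  classical
  intro heq
  obtain ⟨N, hN, hmem⟩ := Cfsg.Agent.Lib.CT.Kernel.exists_normal_ker (isCharacter_of_irr χ.2)
  have htop := hK N hN ((hmem t).mpr heq)
  have hconst : ∀ g, (χ : G → ℂ) g = (χ : G → ℂ) 1 := fun g =>
    (hmem g).mp (by rw [htop]; exact Subgroup.mem_top g)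
  let _ : Fintype G := Fintype.ofFinite G
  have h1 := irr_orthonormal χ (triv G)
  rw [if_neg hχ, classInner] at h1
  have h2 : ∑ g : G, (χ : G → ℂ) g * conj (((triv G : IrrCharacter G) : G → ℂ) g) =
      (Nat.card G : ℂ) * (χ : G → ℂ) 1 := by
    have e : ∀ g : G, (χ : G → ℂ) g * conj (((triv G : IrrCharacter G) : G → ℂ) g) =
        (χ : G → ℂ) 1 := by
      intro g
      rw [hconst g, coe_triv]
      simp
    rw [Finset.sum_congr rfl fun g _ => e g, Finset.sum_const, Finset.card_univ, nsmul_eq_mul,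
      Nat.card_eq_fintype_card]
  rw [h2] at h1
  have hne : (Nat.card G : ℂ) ≠ 0 := Nat.cast_ne_zero.mpr Nat.card_pos.ne'
  rw [← mul_assoc, inv_mul_cancel₀ hne, one_mul] at h1
  exact irr_apply_one_ne_zero χ.2 h1

/-- The signs and the square degree product from the three relations. -/
theorem endgame [Finite G] {p : ℕ} {M : Ideal AlgInt} {P : Sylow p G}
    [Fintype (IrrCharacter G)] [Fintype (↥(P : Subgroup G) →* ℂˣ)] [DecidableEq (IrrCharacter G)]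
    {v : (↥(P : Subgroup G) →* ℂˣ) → IrrCharacter G → ℤ} {δ : ℤ} {Γ : IrrCharacter G → ℤ}
    {ζ : (↥(P : Subgroup G) →* ℂˣ) → IrrCharacter G}
    (h : IsPkg p M P 3 v δ Γ 0 ζ) (t : G) (ht : orderOf t = 2)
    (hK : ∀ K : Subgroup G, K.Normal → t ∈ K → K = ⊤) (c₃ : ℤ) (η : IrrCharacter G)
    (hη : η ∈ Yset ζ)
    (hC : (δ : ℂ) * c₃ + ∑ᶠ χ ∈ principalBlock M G \ Yset ζ, (Γ χ : ℂ) * (χ : G → ℂ) t = 0)
    (hA : ∑ᶠ χ ∈ principalBlock M G \ Yset ζ,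
        (Γ χ : ℂ) * ((χ : G → ℂ) t ^ 2 / (χ : G → ℂ) 1) +
      (δ : ℂ) * ((c₃ : ℂ) ^ 2 / (η : G → ℂ) 1) = 0) :
    Nat.card {χ : IrrCharacter G // χ ∈ principalBlock M G \ Yset ζ ∧
        (χ : G → ℂ) ≠ (fun _ => 1) ∧ -Γ χ = -1} + (if δ = 1 then 1 else 0) = 2 ∧
      IsSquare (charDegree (η : G → ℂ) *
        ∏ᶠ χ ∈ {χ : IrrCharacter G | χ ∈ principalBlock M G \ Yset ζ ∧
          (χ : G → ℂ) ≠ fun _ => 1}, charDegree (χ : G → ℂ)) := by
  classical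
  have hp := h.hp
  obtain ⟨hpm, hcard⟩ := struct3 h
  have hncard : (principalBlock M G \ Yset ζ).ncard = 3 := by
    rw [← Nat.card_coe_set_eq]
    exact hcard
  obtain ⟨χ₁, χ₂, h01, h02, h12, hX⟩ := three_set _ (triv G) h.triv_mem_X hncard
  have hχ₁X : χ₁ ∈ principalBlock M G \ Yset ζ := by rw [hX]; simp
  have hχ₂X : χ₂ ∈ principalBlock M G \ Yset ζ := by rw [hX]; simp
  have hfs : ∀ f : IrrCharacter G → ℂ, ∑ᶠ χ ∈ principalBlock M G \ Yset ζ, f χ =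
      f (triv G) + (f χ₁ + f χ₂) := by
    intro f
    rw [hX, finsum_mem_insert f (by simp [h01, h02]) (Set.toFinite _), finsum_mem_pair h12]
  have hx1 := char_natCast_charDegree (isCharacter_of_irr χ₁.2)
  have hx2 := char_natCast_charDegree (isCharacter_of_irr χ₂.2)
  have hx3 := char_natCast_charDegree (isCharacter_of_irr η.2)
  have hp1 := irr_charDegree_pos χ₁.2
  have hp2 := irr_charDegree_pos χ₂.2
  have hp3 := irr_charDegree_pos η.2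
  obtain ⟨c₁, hc₁⟩ := Cfsg.Agent.Lib.Helper17.ExcInv.int_of_involution χ₁ t ht
  obtain ⟨c₂, hc₂⟩ := Cfsg.Agent.Lib.Helper17.ExcInv.int_of_involution χ₂ t ht
  have hΓt := h.Γ_triv
  have htriv : ∀ g, ((triv G : IrrCharacter G) : G → ℂ) g = 1 := fun g => rfl
  have hreg1 : ¬ p ∣ orderOf (1 : G) := by
    rw [orderOf_one]
    exact hp.not_dvd_one
  have hB := h.reg_X η hη 1 hreg1
  rw [hfs, htriv, ← hx1, ← hx2, ← hx3, hΓt] at hB
  push_cast at hB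
  rw [hfs, htriv, hc₁, hc₂, hΓt] at hC
  push_cast at hC
  rw [hfs, htriv, htriv, hc₁, hc₂, ← hx1, ← hx2, ← hx3, hΓt] at hA
  push_cast at hA
  generalize hx1d : charDegree (χ₁ : G → ℂ) = x₁ at *
  generalize hx2d : charDegree (χ₂ : G → ℂ) = x₂ at *
  generalize hx3d : charDegree (η : G → ℂ) = x₃ at *
  have hB' : 1 + (-Γ χ₁) * (x₁ : ℤ) + (-Γ χ₂) * (x₂ : ℤ) + (-δ) * (x₃ : ℤ) = 0 := by
    have : ((1 + (-Γ χ₁) * (x₁ : ℤ) + (-Γ χ₂) * (x₂ : ℤ) + (-δ) * (x₃ : ℤ) : ℤ) : ℂ) = 0 := by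
      push_cast
      linear_combination (-1 : ℂ) * hB
    exact_mod_cast this
  have hC' : 1 + (-Γ χ₁) * c₁ + (-Γ χ₂) * c₂ + (-δ) * c₃ = 0 := by
    have : ((1 + (-Γ χ₁) * c₁ + (-Γ χ₂) * c₂ + (-δ) * c₃ : ℤ) : ℂ) = 0 := by
      push_cast
      linear_combination (-1 : ℂ) * hC
    exact_mod_cast this
  have hA' : (x₁ : ℤ) * x₂ * x₃ + (-Γ χ₁) * c₁ ^ 2 * x₂ * x₃ + (-Γ χ₂) * c₂ ^ 2 * x₁ * x₃ +
      (-δ) * c₃ ^ 2 * x₁ * x₂ = 0 := by
    have hne1 : (x₁ : ℂ) ≠ 0 := Nat.cast_ne_zero.mpr hp1.ne'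
    have hne2 : (x₂ : ℂ) ≠ 0 := Nat.cast_ne_zero.mpr hp2.ne'
    have hne3 : (x₃ : ℂ) ≠ 0 := Nat.cast_ne_zero.mpr hp3.ne'
    have : (((x₁ : ℤ) * x₂ * x₃ + (-Γ χ₁) * c₁ ^ 2 * x₂ * x₃ + (-Γ χ₂) * c₂ ^ 2 * x₁ * x₃ +
      (-δ) * c₃ ^ 2 * x₁ * x₂ : ℤ) : ℂ) = 0 := by
      push_cast
      field_simp at hA
      linear_combination (-1 : ℂ) * hA
    exact_mod_cast this
  have hc1 : c₁ ≠ (x₁ : ℤ) := by
    intro heq
    apply apply_ne_of_top χ₁ h01.symm t hK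
    rw [hc₁, ← hx1, heq]
    push_cast
    rfl
  have hc2 : c₂ ≠ (x₂ : ℤ) := by
    intro heq
    apply apply_ne_of_top χ₂ h02.symm t hK
    rw [hc₂, ← hx2, heq]
    push_cast
    rfl
  have hΓ1 := hpm χ₁ hχ₁X
  have hΓ2 := hpm χ₂ hχ₂X
  have hn1 : -Γ χ₁ = 1 ∨ -Γ χ₁ = -1 := by rcases hΓ1 with h' | h' <;> rw [h'] <;> norm_num
  have hn2 : -Γ χ₂ = 1 ∨ -Γ χ₂ = -1 := by rcases hΓ2 with h' | h' <;> rw [h'] <;> norm_num
  have hn3 : -δ = 1 ∨ -δ = -1 := by rcases h.hδ with h' | h' <;> rw [h'] <;> norm_num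
  obtain ⟨hsum, hsq⟩ := arith (-Γ χ₁) (-Γ χ₂) (-δ) x₁ x₂ x₃ c₁ c₂ c₃ hn1 hn2 hn3
    (by exact_mod_cast hp1) (by exact_mod_cast hp2) (by exact_mod_cast hp3) hc1 hc2 hB' hC' hA'
  have hTmem : ∀ χ : IrrCharacter G, (χ ∈ principalBlock M G \ Yset ζ ∧
      (χ : G → ℂ) ≠ fun _ => 1) ↔ (χ = χ₁ ∨ χ = χ₂) := by
    intro χ
    constructor
    · rintro ⟨hχX, hne⟩
      rw [hX] at hχX
      simp only [Set.mem_insert_iff, Set.mem_singleton_iff] at hχX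
      rcases hχX with h' | h' | h'
      · exact absurd (by rw [h']; rfl) hne
      · exact Or.inl h'
      · exact Or.inr h'
    · rintro (h' | h')
      · rw [h']
        exact ⟨hχ₁X, fun hc => h01 (Subtype.ext hc).symm⟩
      · rw [h']
        exact ⟨hχ₂X, fun hc => h02 (Subtype.ext hc).symm⟩
  constructor
  · have hS : {χ : IrrCharacter G | χ ∈ principalBlock M G \ Yset ζ ∧
        (χ : G → ℂ) ≠ (fun _ => 1) ∧ -Γ χ = -1} =
        {χ : IrrCharacter G | (χ = χ₁ ∨ χ = χ₂) ∧ Γ χ = 1} := by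
      ext χ
      show (_ ∧ _ ∧ _) ↔ (_ ∧ _)
      rw [← and_assoc, hTmem χ, neg_inj]
    change Nat.card ↥{χ : IrrCharacter G | χ ∈ principalBlock M G \ Yset ζ ∧
        (χ : G → ℂ) ≠ (fun _ => 1) ∧ -Γ χ = -1} + (if δ = 1 then 1 else 0) = 2
    rw [Nat.card_coe_set_eq, hS]
    rcases hΓ1 with hΓ1 | hΓ1 <;> rcases hΓ2 with hΓ2 | hΓ2 <;> rcases h.hδ with hδ | hδ <;>
      rw [hΓ1, hΓ2, hδ] at hsum <;> norm_num at hsum
    · -- Γ₁ = 1, Γ₂ = 1, δ = -1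
      have e : {χ : IrrCharacter G | (χ = χ₁ ∨ χ = χ₂) ∧ Γ χ = 1} = {χ₁, χ₂} := by
        ext χ
        constructor
        · rintro ⟨h', -⟩
          exact h'
        · rintro (h' | h')
          · exact ⟨Or.inl h', by rw [h']; exact hΓ1⟩
          · exact ⟨Or.inr h', by rw [h']; exact hΓ2⟩
      rw [e, Set.ncard_pair h12, hδ]
      norm_num
    · -- Γ₁ = 1, Γ₂ = -1, δ = 1
      have e : {χ : IrrCharacter G | (χ = χ₁ ∨ χ = χ₂) ∧ Γ χ = 1} = {χ₁} := by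
        ext χ
        constructor
        · rintro ⟨h' | h', hΓ⟩
          · exact h'
          · rw [h', hΓ2] at hΓ
            norm_num at hΓ
        · intro h'
          exact ⟨Or.inl h', by rw [h']; exact hΓ1⟩
      rw [e, Set.ncard_singleton, hδ]
      norm_num
    · -- Γ₁ = -1, Γ₂ = 1, δ = 1
      have e : {χ : IrrCharacter G | (χ = χ₁ ∨ χ = χ₂) ∧ Γ χ = 1} = {χ₂} := by
        ext χ
        constructor
        · rintro ⟨h' | h', hΓ⟩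
          · rw [h', hΓ1] at hΓ
            norm_num at hΓ
          · exact h'
        · intro h'
          exact ⟨Or.inr h', by rw [h']; exact hΓ2⟩
      rw [e, Set.ncard_singleton, hδ]
      norm_num
  · have hT : {χ : IrrCharacter G | χ ∈ principalBlock M G \ Yset ζ ∧
        (χ : G → ℂ) ≠ fun _ => 1} = {χ₁, χ₂} := by
      ext χ
      exact hTmem χ
    rw [hT, finprod_mem_pair h12, hx1d, hx2d]
    rw [← Int.isSquare_natCast_iff]
    have e : ((x₃ * (x₁ * x₂) : ℕ) : ℤ) = (x₁ : ℤ) * x₂ * x₃ := by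
      push_cast
      ring
    rw [e]
    exact hsq

section pkg3

variable [Finite G] {p : ℕ} {M : Ideal AlgInt} {P : Sylow p G}
  [Fintype (IrrCharacter G)] [Fintype (↥(P : Subgroup G) →* ℂˣ)] [DecidableEq (IrrCharacter G)]
  {v : (↥(P : Subgroup G) →* ℂˣ) → IrrCharacter G → ℤ} {δ : ℤ} {Γ : IrrCharacter G → ℤ}
  {ζ : (↥(P : Subgroup G) →* ℂˣ) → IrrCharacter G}

/-- With `γ = 0`, sums against `Γ` only see the non-exceptional characters. -/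
theorem sum_Γ {m : ℕ} (h : IsPkg p M P m v δ Γ 0 ζ) (w : IrrCharacter G → ℂ) :
    ∑ χ, (Γ χ : ℂ) * w χ = ∑ᶠ χ ∈ principalBlock M G \ Yset ζ, (Γ χ : ℂ) * w χ := by
  classical
  rw [sum_split (principalBlock M G) (principalBlock M G \ Yset ζ) (Yset ζ)
    (Set.sdiff_union_of_subset h.Y_sub).symm Set.disjoint_sdiff_left
    (fun χ => (Γ χ : ℂ) * w χ)
    (fun χ hχ => by rw [h.Γ_off χ hχ]; simp)]
  have h0 : ∑ χ : IrrCharacter G, (if χ ∈ Yset ζ then (Γ χ : ℂ) * w χ else 0) = 0 := by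
    apply Finset.sum_eq_zero
    intro χ _
    by_cases hc : χ ∈ Yset ζ
    · rw [if_pos hc, h.Γ_Y χ hc]
      simp
    · rw [if_neg hc]
  rw [h0, add_zero]

theorem sumX_sq (h : IsPkg p M P 3 v δ Γ 0 ζ) :
    ∑ᶠ χ ∈ principalBlock M G \ Yset ζ, (Γ χ : ℂ) * (((-Γ χ : ℤ) : ℂ)) = -3 := by
  classical
  have hsq := h.sq
  have hsum := h.hΓsum
  rw [hsq] at hsum
  have hS : ∑ χ, (if χ ∈ principalBlock M G \ Yset ζ then Γ χ ^ 2 else 0) = 3 := by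
    rw [← Cfsg.Agent.Lib.CT.ColumnId.finsum_mem_eq_sum]
    push_cast at hsum
    linarith
  rw [Cfsg.Agent.Lib.CT.ColumnId.finsum_mem_eq_sum]
  have e : ∀ χ : IrrCharacter G,
      (if χ ∈ principalBlock M G \ Yset ζ then (Γ χ : ℂ) * (((-Γ χ : ℤ) : ℂ)) else 0) =
      -(((if χ ∈ principalBlock M G \ Yset ζ then Γ χ ^ 2 else 0 : ℤ)) : ℂ) := by
    intro χ
    by_cases hc : χ ∈ principalBlock M G \ Yset ζ
    · rw [if_pos hc, if_pos hc]
      push_cast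
      ring
    · rw [if_neg hc, if_neg hc]
      simp
  simp_rw [e]
  rw [Finset.sum_neg_distrib, ← Int.cast_sum, hS]
  norm_num

end pkg3

/-- The relations on an involution needed for `endgame`. -/
theorem inv_clause [Finite G] (p : ℕ) [Fact p.Prime] (M : Ideal AlgInt) (hM : IsPModular p M)
    (P : Sylow p G) (hab : IsMulCommutative P)
    (hCN : (Subgroup.centralizer ((P : Subgroup G) : Set G)).relIndex
      (Subgroup.normalizer ((P : Subgroup G) : Set G)) = 3)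
    (hfrob : ∀ y : G, y ∈ (P : Subgroup G) → y ≠ 1 →
      Subgroup.centralizer ({y} : Set G) ⊓ Subgroup.normalizer ((P : Subgroup G) : Set G) =
        Subgroup.centralizer ((P : Subgroup G) : Set G))
    [Fintype (IrrCharacter G)] [Fintype (↥(P : Subgroup G) →* ℂˣ)] [DecidableEq (IrrCharacter G)]
    {v : (↥(P : Subgroup G) →* ℂˣ) → IrrCharacter G → ℤ} {δ : ℤ} {Γ : IrrCharacter G → ℤ}
    {ζ : (↥(P : Subgroup G) →* ℂˣ) → IrrCharacter G}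
    (h : IsPkg p M P 3 v δ Γ 0 ζ) (t : G) (ht : orderOf t = 2) (η : IrrCharacter G)
    (hη : η ∈ Yset ζ) :
    ∃ c₃ : ℤ,
      ((δ : ℂ) * c₃ + ∑ᶠ χ ∈ principalBlock M G \ Yset ζ, (Γ χ : ℂ) * (χ : G → ℂ) t = 0) ∧
      (∑ᶠ χ ∈ principalBlock M G \ Yset ζ,
          (Γ χ : ℂ) * ((χ : G → ℂ) t ^ 2 / (χ : G → ℂ) 1) +
        (δ : ℂ) * ((c₃ : ℂ) ^ 2 / (η : G → ℂ) 1) = 0) := by
  classical
  have hp : p.Prime := Fact.out
  have hreg1 : ¬ p ∣ orderOf (1 : G) := by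
    rw [orderOf_one]
    exact hp.not_dvd_one
  have hdeg : ∀ ψ : ↥(P : Subgroup G) →* ℂˣ, ψ ≠ 1 → (ζ ψ : G → ℂ) 1 = (η : G → ℂ) 1 :=
    fun ψ hψ => h.agree (ζ ψ) ⟨ψ, hψ, rfl⟩ η hη 1 hreg1
  have hδ2 : (δ : ℂ) ^ 2 = 1 := by exact_mod_cast h.δ_sq
  by_cases hp2 : p = 2
  · subst hp2
    -- conjugate the involution into `P`
    obtain ⟨x, hx⟩ := exists_conj_mem_sylow 2 P t 1 (by rw [ht, pow_one])
    obtain ⟨t', ht'def⟩ : ∃ t' : G, t' = x⁻¹ * t * x := ⟨_, rfl⟩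
    rw [← ht'def] at hx
    have htt : t * t = 1 := sq_of_orderOf_two t ht
    have ht1 : t ≠ 1 := by
      intro h'
      rw [h', orderOf_one] at ht
      norm_num at ht
    have ht't' : t' * t' = 1 := by
      rw [ht'def]
      calc x⁻¹ * t * x * (x⁻¹ * t * x) = x⁻¹ * (t * t) * x := by group
        _ = 1 := by rw [htt, mul_one, inv_mul_cancel]
    have ht'1 : t' ≠ 1 := by
      intro h'
      apply ht1
      have : x * t' * x⁻¹ = t := by rw [ht'def]; group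
      rw [← this, h', mul_one, mul_inv_cancel]
    have ht' : orderOf t' = 2 := orderOf_eq_prime (by rw [pow_two]; exact ht't') ht'1
    have hcl : ∀ χ : IrrCharacter G, (χ : G → ℂ) t = (χ : G → ℂ) t' := by
      intro χ
      have h1 := char_isClassFunction (isCharacter_of_irr χ.2) t x⁻¹
      rw [inv_inv] at h1
      rw [ht'def, h1]
    -- the order of `P`
    have hcard : 10 < Nat.card ↥(P : Subgroup G) := by
      obtain ⟨n, hn⟩ := IsPGroup.iff_card.mp P.isPGroup'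
      have h1 := h.card_Y
      have h2 := h.hm2
      rw [hn] at h1 h2 ⊢
      by_contra hle
      have hn4 : n < 4 := by
        by_contra h4
        have := Nat.pow_le_pow_right (by norm_num : 1 ≤ 2) (not_lt.mp h4)
        omega
      interval_cases n <;> omega
    obtain ⟨y₀, hy₀, hy₀1, hgood⟩ := exists_good P hCN t' hx hcard
    have hno := hno_two P hab hCN hfrob t' hx ht' y₀ hy₀ hy₀1 hgood
    have hy₀ord := Cfsg.Agent.Lib.CT.ColumnId.orderOf_coe_of_isPGroup P.isPGroup' ⟨y₀, hy₀⟩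
    have hinv := invol_sum 2 M hM t' y₀ hy₀ord hno
    have hz : IsPPart 2 t' t' := Cfsg.Agent.Lib.CT.ColumnId.isPPart_self 2 Nat.prime_two t'
      (Cfsg.Agent.Lib.CT.ColumnId.orderOf_coe_of_isPGroup P.isPGroup' ⟨t', hx⟩)
    refine ⟨3 * δ, ?_, ?_⟩
    · have e : ∑ᶠ χ ∈ principalBlock M G \ Yset ζ, (Γ χ : ℂ) * (χ : G → ℂ) t =
          ∑ᶠ χ ∈ principalBlock M G \ Yset ζ, (Γ χ : ℂ) * (((-Γ χ : ℤ) : ℂ)) := by
        refine finsum_mem_congr rfl fun χ hχ => ?_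
        rw [hcl χ, h.value_X χ hχ t' t' hz hx ht'1]
      rw [e, sumX_sq h]
      push_cast
      linear_combination (3 : ℂ) * hδ2
    · have hA := A_rel_two h hab hCN hfrob t' hx ht'1 y₀ hy₀ hy₀1 hgood ((η : G → ℂ) 1)
        (irr_apply_one_ne_zero η.2) hdeg
      have e1 : ∑ᶠ χ ∈ principalBlock M G, (χ : G → ℂ) y₀ * (χ : G → ℂ) t' ^ 2 / (χ : G → ℂ) 1 =
          ∑ᶠ χ ∈ principalBlock M G,
            (χ : G → ℂ) y₀ * ((χ : G → ℂ) t' ^ 2 / (χ : G → ℂ) 1) :=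
        finsum_mem_congr rfl fun χ _ => mul_div_assoc _ _ _
      rw [e1, hA, sum_Γ h] at hinv
      have e2 : ∑ᶠ χ ∈ principalBlock M G \ Yset ζ,
          (Γ χ : ℂ) * ((χ : G → ℂ) t ^ 2 / (χ : G → ℂ) 1) =
          ∑ᶠ χ ∈ principalBlock M G \ Yset ζ,
            (Γ χ : ℂ) * ((χ : G → ℂ) t' ^ 2 / (χ : G → ℂ) 1) :=
        finsum_mem_congr rfl fun χ _ => by rw [hcl χ]
      rw [e2]
      push_cast
      have e3 : (3 * (δ : ℂ)) ^ 2 = 9 := by linear_combination (9 : ℂ) * hδ2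
      rw [e3]
      linear_combination (-1 : ℂ) * hinv
  · have hreg : ¬ p ∣ orderOf t := by
      rw [ht]
      intro hd
      exact hp2 ((Nat.prime_dvd_prime_iff_eq hp Nat.prime_two).mp hd)
    obtain ⟨c₃, hc₃⟩ := Cfsg.Agent.Lib.Helper17.ExcInv.int_of_involution η t ht
    refine ⟨c₃, ?_, ?_⟩
    · have hC := h.reg_X η hη t hreg
      rw [hc₃] at hC
      push_cast at hC
      linear_combination hC
    · have hnt : Nontrivial ↥(P : Subgroup G) := by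
        rw [← Finite.one_lt_card_iff_nontrivial]
        have := h.hm2
        omega
      obtain ⟨y', hy'⟩ := exists_ne (1 : ↥(P : Subgroup G))
      have hy₀1 : (y' : G) ≠ 1 := fun h' => hy' (Subtype.ext h')
      have hno := hno_odd p P hab hCN hfrob hp2 t ht (y' : G) y'.2 hy₀1
      have hy₀ord := Cfsg.Agent.Lib.CT.ColumnId.orderOf_coe_of_isPGroup P.isPGroup' y'
      have hinv := invol_sum p M hM t (y' : G) hy₀ord hno
      have hW : ∀ ψ : ↥(P : Subgroup G) →* ℂˣ, ψ ≠ 1 →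
          (fun χ : IrrCharacter G => (χ : G → ℂ) t ^ 2 / (χ : G → ℂ) 1) (ζ ψ) =
            (η : G → ℂ) t ^ 2 / (η : G → ℂ) 1 := by
        intro ψ hψ
        show (ζ ψ : G → ℂ) t ^ 2 / (ζ ψ : G → ℂ) 1 = _
        rw [hdeg ψ hψ, h.agree (ζ ψ) ⟨ψ, hψ, rfl⟩ η hη t hreg]
      have hA := A_rel_const h (fun χ : IrrCharacter G => (χ : G → ℂ) t ^ 2 / (χ : G → ℂ) 1)
        _ hW (y' : G) y'.2 hy₀1
      have e1 : ∑ᶠ χ ∈ principalBlock M G,
          (χ : G → ℂ) (y' : G) * (χ : G → ℂ) t ^ 2 / (χ : G → ℂ) 1 =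
          ∑ᶠ χ ∈ principalBlock M G,
            (χ : G → ℂ) (y' : G) * ((χ : G → ℂ) t ^ 2 / (χ : G → ℂ) 1) :=
        finsum_mem_congr rfl fun χ _ => mul_div_assoc _ _ _
      rw [e1, hA, sum_Γ h] at hinv
      rw [← hc₃]
      linear_combination (-1 : ℂ) * hinv

/-- Brauer's theorem for an abelian Sylow subgroup with `|N : C| = 3` acting freely. -/
theorem main3 [Finite G] (p : ℕ) [Fact p.Prime] (M : Ideal AlgInt) (hM : IsPModular p M)
    (P : Sylow p G) (hab : IsMulCommutative P)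
    (hCN : (Subgroup.centralizer ((P : Subgroup G) : Set G)).relIndex
      (Subgroup.normalizer ((P : Subgroup G) : Set G)) = 3)
    (hm2 : 3 + 1 < Nat.card P)
    (hfrob : ∀ y : G, y ∈ (P : Subgroup G) → y ≠ 1 →
      Subgroup.centralizer ({y} : Set G) ⊓ Subgroup.normalizer ((P : Subgroup G) : Set G) =
        Subgroup.centralizer ((P : Subgroup G) : Set G)) :
    ∃ (X Y : Set (IrrCharacter G)), principalBlock M G = X ∪ Y ∧ Disjoint X Y ∧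
      Nat.card X = 3 ∧ Nat.card Y = (Nat.card P - 1) / 3 ∧
      (∃ χ₁ ∈ X, (χ₁ : G → ℂ) = fun _ => 1) ∧
      ∃ (a : IrrCharacter G → ℤ) (δ : ℤ) (ζ : (↥(P : Subgroup G) →* ℂˣ) → IrrCharacter G),
        (δ = 1 ∨ δ = -1) ∧
        (∀ χ ∈ X, (a χ = 1 ∨ a χ = -1) ∧ ∀ z y : G, IsPPart p z y → y ∈ (P : Subgroup G) →
          y ≠ 1 → (χ : G → ℂ) z = (a χ : ℂ)) ∧
        (∀ ψ : ↥(P : Subgroup G) →* ℂˣ, ψ ≠ 1 → ζ ψ ∈ Y) ∧
        (∀ η ∈ Y, ∃ ψ : ↥(P : Subgroup G) →* ℂˣ, ψ ≠ 1 ∧ ζ ψ = η) ∧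
        (∀ ψ ψ' : ↥(P : Subgroup G) →* ℂˣ, ψ ≠ 1 →
          (∃ n : G, n ∈ Subgroup.normalizer ((P : Subgroup G) : Set G) ∧
            ∀ w w' : ↥(P : Subgroup G), (w' : G) = n * w * n⁻¹ → ψ' w' = ψ w) → ζ ψ' = ζ ψ) ∧
        (∀ ψ : ↥(P : Subgroup G) →* ℂˣ, ψ ≠ 1 → ∀ (z : G) (y : ↥(P : Subgroup G)),
          IsPPart p z (y : G) → (y : G) ≠ 1 →
          (ζ ψ : G → ℂ) z = (δ : ℂ) *
            ∑ᶠ ψ' ∈ {ψ' : ↥(P : Subgroup G) →* ℂˣ |
              ∃ n : G, n ∈ Subgroup.normalizer ((P : Subgroup G) : Set G) ∧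
                ∀ w w' : ↥(P : Subgroup G), (w' : G) = n * w * n⁻¹ → ψ' w' = ψ w},
              ((ψ' y : ℂˣ) : ℂ)) ∧
        ((∃ t : G, orderOf t = 2 ∧ ∀ K : Subgroup G, K.Normal → t ∈ K → K = ⊤) →
          Nat.card {χ : IrrCharacter G // χ ∈ X ∧ (χ : G → ℂ) ≠ (fun _ => 1) ∧ a χ = -1} +
              (if δ = 1 then 1 else 0) = 2 ∧
            ∀ η ∈ Y, IsSquare (charDegree (η : G → ℂ) *
              ∏ᶠ χ ∈ {χ : IrrCharacter G | χ ∈ X ∧ (χ : G → ℂ) ≠ fun _ => 1},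
                charDegree (χ : G → ℂ))) := by
  classical
  have hp : p.Prime := Fact.out
  have := finite_irrCharacter G
  let _ : Fintype (IrrCharacter G) := Fintype.ofFinite _
  have hPab : ∀ a ∈ (P : Subgroup G), ∀ b ∈ (P : Subgroup G), a * b = b * a := fun a ha b hb =>
    congrArg Subtype.val (hab.is_comm.comm (⟨a, ha⟩ : P) ⟨b, hb⟩)
  have hΨ := finite_hom (P : Subgroup G) hPab
  let _ : Fintype (↥(P : Subgroup G) →* ℂˣ) := Fintype.ofFinite _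
  have hPcard : Nat.card P = Nat.card ↥(P : Subgroup G) := rfl
  rw [hPcard] at hm2 ⊢
  obtain ⟨v, δ, Γ, ζ, h⟩ := exists_pkg3 p M hM P hab hm2 hCN hfrob
  obtain ⟨hpm, hcard⟩ := struct3 h
  refine ⟨principalBlock M G \ Yset ζ, Yset ζ, (Set.sdiff_union_of_subset h.Y_sub).symm,
    Set.disjoint_sdiff_left, hcard, ?_, ⟨triv G, h.triv_mem_X, rfl⟩, fun χ => -Γ χ, δ, ζ, h.hδ,
    ?_, ?_, ?_, ?_, ?_, ?_⟩
  · rw [h.card_Y]
    exact (Nat.mul_div_cancel _ (by norm_num)).symm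
  · intro χ hχ
    refine ⟨?_, fun z y hz hy hy1 => ?_⟩
    · show -Γ χ = 1 ∨ -Γ χ = -1
      rcases hpm χ hχ with h' | h' <;> rw [h'] <;> norm_num
    · exact h.value_X χ hχ z y hz hy hy1
  · intro ψ hψ
    exact ⟨ψ, hψ, rfl⟩
  · intro η hη
    exact hη
  · intro ψ ψ' hψ hR
    exact ((h.hK2 ψ ψ' hψ (h.hRne ψ ψ' hψ hR)).mpr hR).symm
  · intro ψ hψ z y hz hy1
    have h1 := h.value_Y ψ hψ z (y : G) hz y.2 hy1
    rw [h1]
    simp only [neg_zero, Int.cast_zero, zero_add]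
    rfl
  · rintro ⟨t, ht, hK⟩
    have key : ∀ η ∈ Yset ζ,
        Nat.card {χ : IrrCharacter G // χ ∈ principalBlock M G \ Yset ζ ∧
          (χ : G → ℂ) ≠ (fun _ => 1) ∧ -Γ χ = -1} + (if δ = 1 then 1 else 0) = 2 ∧
        IsSquare (charDegree (η : G → ℂ) *
          ∏ᶠ χ ∈ {χ : IrrCharacter G | χ ∈ principalBlock M G \ Yset ζ ∧
            (χ : G → ℂ) ≠ fun _ => 1}, charDegree (χ : G → ℂ)) := by
      intro η hη
      obtain ⟨c₃, hC, hA⟩ := inv_clause p M hM P hab hCN hfrob h t ht η hη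
      exact endgame h t ht hK c₃ η hη hC hA
    obtain ⟨ψ₀, -, hψ₀, -, -⟩ := h.hex
    exact ⟨(key (ζ ψ₀) ⟨ψ₀, hψ₀, rfl⟩).1, fun η hη => (key η hη).2⟩

end Cfsg.Agent.Lib.Helper80.AbSylow3b
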