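import Mathlib
import Cfsg.Agent.Lib.Helper16.BFStmt2
import Cfsg.Agent.Lib.Helper16.BRCore
import Cfsg.Agent.Lib.Helper85.BRLoc
import Cfsg.Agent.Lib.Helper91.BRDEG
import Cfsg.Agent.Lib.Helper67.BRYA
import Cfsg.Agent.Lib.Helper53.BRPD
import Cfsg.Agent.Lib.Helper62.BRPH1
import Cfsg.Agent.Lib.Helper33.BGCYC2

/-!
# Brauer–Reynolds (S4700), piece NFT1: the case `|N_G(P) : C_G(P)| = p - 1`

If `n` is not of the exceptional form, then `|N_G(P) : C_G(P)| ≠ p - 1`.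
-/

set_option autoImplicit false

namespace Cfsg.Agent.Lib.Helper80.BFNFT1

open Cfsg Cfsg.Agent.Lib.CT.ThirdMain Cfsg.Agent.Lib.Helper16.BRSpec
  Cfsg.Agent.Lib.Helper16.BRStmt Cfsg.Agent.Lib.Helper16.BRStmt2
  Cfsg.Agent.Lib.Helper16.BFStmt Cfsg.Agent.Lib.Helper16.BRCore
open scoped ComplexConjugate

universe u

/-- The arithmetic of the degree equation. -/
theorem arith (p n a b1 b2 : ℕ) (hp3 : 3 ≤ p) (hn : 1 ≤ n) (hcnt : a + b1 + b2 + 1 = p)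
    (hsum : (0 : ℤ) = 1 + (a : ℤ) * (1 + (n : ℤ) * (p : ℤ)) - (b1 : ℤ) * ((p : ℤ) - 1) -
      (b2 : ℤ) * (((p : ℤ) - 1) * (1 + (n : ℤ) * (p : ℤ)))) :
    b2 = 0 ∧ a * (n + 1) + 2 = p ∧ 2 ≤ b1 := by
  have hpz : (3 : ℤ) ≤ p := by exact_mod_cast hp3
  have hnz : (1 : ℤ) ≤ n := by exact_mod_cast hn
  have hcz : (a : ℤ) + b1 + b2 + 1 = p := by exact_mod_cast hcnt
  have ha0 : (0 : ℤ) ≤ a := Int.natCast_nonneg a
  have hb10 : (0 : ℤ) ≤ b1 := Int.natCast_nonneg b1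
  have hb20 : (0 : ℤ) ≤ b2 := Int.natCast_nonneg b2
  have hnp : (0 : ℤ) < (n : ℤ) * (p : ℤ) := mul_pos (by linarith) (by linarith)
  have hb2 : b2 = 0 := by
    by_contra hne
    have hb2pos : (1 : ℤ) ≤ b2 := by
      have h : 1 ≤ b2 := Nat.one_le_iff_ne_zero.2 hne
      exact_mod_cast h
    have h1 : (p : ℤ) - 1 ≤ (b2 : ℤ) * ((p : ℤ) - 1) := by nlinarith
    have h2 : (a : ℤ) - (b2 : ℤ) * ((p : ℤ) - 1) ≤ -1 := by linarith
    have h3 : ((a : ℤ) - (b2 : ℤ) * ((p : ℤ) - 1)) * (1 + (n : ℤ) * (p : ℤ)) ≤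
        -(1 + (n : ℤ) * (p : ℤ)) := by nlinarith
    have h4 : (0 : ℤ) ≤ (b1 : ℤ) * ((p : ℤ) - 1) := mul_nonneg hb10 (by linarith)
    nlinarith
  subst hb2
  simp only [Nat.cast_zero, zero_mul, sub_zero, add_zero] at hsum hcz
  have hb1e : (b1 : ℤ) = p - 1 - a := by linarith
  rw [hb1e] at hsum
  have h6 : (p : ℤ) * ((a : ℤ) * ((n : ℤ) + 1)) = p * ((p : ℤ) - 2) := by
    linear_combination (-1 : ℤ) * hsum
  have hp0 : (p : ℤ) ≠ 0 := by omega
  have h7 : (a : ℤ) * ((n : ℤ) + 1) = (p : ℤ) - 2 := mul_left_cancel₀ hp0 h6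
  have h8 : a * (n + 1) + 2 = p := by
    have h : ((a * (n + 1) + 2 : ℕ) : ℤ) = (p : ℤ) := by push_cast; linarith
    exact_mod_cast h
  refine ⟨rfl, h8, ?_⟩
  have h9 : 2 * (a : ℤ) ≤ (a : ℤ) * ((n : ℤ) + 1) := by nlinarith
  have h10 : (2 : ℤ) ≤ b1 := by
    have : (3 : ℤ) ≤ 2 * (b1 : ℤ) := by linarith
    omega
  exact_mod_cast h10

/-- [NFT1] if `n` is not of the exceptional form, then `|N_G(P) : C_G(P)| ≠ p - 1`. -/
theorem main : Cfsg.Agent.Lib.Helper16.BFStmt2.NFT1.{u} := by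
  intro hNFA hNFB G _ _ hperf p _ P hP hO n hn1 hNidx hFF he
  classical
  have hp : p.Prime := Fact.out
  obtain ⟨hp3, -, -, -, -⟩ := Cfsg.Agent.Lib.Helper85.BRLoc.main G hperf p P hP
  have hpodd : Odd p := by
    rcases hp.eq_two_or_odd' with h | h
    · omega
    · exact h
  have hCN : Subgroup.centralizer ((P : Subgroup G) : Set G) ≤
      Subgroup.normalizer ((P : Subgroup G) : Set G) := Subgroup.centralizer_le_normalizer _
  have hCidx : (Subgroup.centralizer ((P : Subgroup G) : Set G)).index =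
      (p - 1) * (1 + n * p) := by
    rw [← Subgroup.relIndex_mul_index hCN, he, hNidx]
  haveI : Fintype G := Fintype.ofFinite G
  haveI : Finite (IrrCharacter G) := Cfsg.Agent.Lib.CT.Wedderburn.finite_irrCharacter G
  obtain ⟨M, hM⟩ := Cfsg.Agent.Lib.CT.Knorr.exists_isPModular p hp
  have hMp : M.IsPrime := hM.2.1.isPrime
  obtain ⟨X, Y, hB0, hXY, hXc, hYc, εX, ε, hX, hε, hYd, hYr, hrel⟩ :=
    Cfsg.Agent.S4441.result p M hM (by omega) P hP (p - 1) he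
  rw [Nat.card_coe_set_eq] at hXc hYc
  have hYt : Y.ncard = 1 := by
    rw [hYc]
    exact Nat.div_self (by omega)
  obtain ⟨θ₀, hYeq⟩ := Set.ncard_eq_one.1 hYt
  have hθ₀ : θ₀ ∈ Y := by
    rw [hYeq]
    exact Set.mem_singleton _
  have hθ₀X : θ₀ ∉ X := fun h => (Set.disjoint_left.1 hXY) h hθ₀
  have h1reg : ¬ p ∣ orderOf (1 : G) := not_dvd_orderOf_one hp
  obtain ⟨z₀, hz₀, hz₀1⟩ : ∃ z ∈ (P : Subgroup G), z ≠ 1 := by
    by_contra hcon
    push Not at hcon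
    have hbot : (P : Subgroup G) = ⊥ := (Subgroup.eq_bot_iff_forall _).2 hcon
    rw [hbot, Subgroup.card_bot] at hP
    omega
  have hXval : ∀ χ ∈ X, ∀ z ∈ (P : Subgroup G), z ≠ 1 → (χ : G → ℂ) z = (εX χ : ℂ) := by
    intro χ hχ z hz hz1
    have h := (hX χ hχ).2.2 z hz hz1 1 (Subgroup.one_mem _) h1reg
    rwa [mul_one] at h
  have hchar : ∀ χ : IrrCharacter G, (χ : G → ℂ) 1 = (charDegree (χ : G → ℂ) : ℂ) := fun χ =>
    (Cfsg.Agent.Lib.CT.Wedderburn.char_natCast_charDegree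
      (Cfsg.Agent.Lib.CT.Ops.IsIrrCharacter.isCharacter χ.2)).symm
  have hY11 : ∀ θ ∈ Y, ∀ θ' ∈ Y, (θ : G → ℂ) 1 = (θ' : G → ℂ) 1 := by
    intro θ hθ θ' hθ'
    rw [hYeq, Set.mem_singleton_iff] at hθ hθ'
    rw [hθ, hθ']
  have hdeg : ∀ θ ∈ Y, (ε : ℂ) * (θ : G → ℂ) 1 = ∑ᶠ χ ∈ X, (εX χ : ℂ) * (χ : G → ℂ) 1 :=
    fun θ hθ => hrel θ hθ 1 h1reg
  have hθval : ∀ z ∈ (P : Subgroup G), z ≠ 1 → (θ₀ : G → ℂ) z = -(ε : ℂ) := by
    intro z hz hz1
    have h := Cfsg.Agent.Lib.Helper67.BRYA.main G p M hM P hP X Y hB0 hXY ⟨θ₀, hθ₀⟩ εX ε hε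
      hXval hY11 hdeg z hz hz1
    rw [hYeq, finsum_mem_singleton] at h
    exact h
  -- the common sign
  obtain ⟨s, hsθ, hsX⟩ : ∃ s : IrrCharacter G → ℤ, (s θ₀ = -ε) ∧ ∀ χ, χ ≠ θ₀ → s χ = εX χ :=
    ⟨fun χ => if χ = θ₀ then -ε else εX χ, by simp, fun χ hχ => by simp [hχ]⟩
  have hsX' : ∀ χ ∈ X, s χ = εX χ := fun χ hχ => hsX χ (fun h => hθ₀X (h ▸ hχ))
  obtain ⟨Bl, hBl⟩ : ∃ Bl : Set (IrrCharacter G), Bl = X ∪ {θ₀} := ⟨_, rfl⟩
  have hBlmem : ∀ χ, χ ∈ Bl ↔ (χ ∈ X ∨ χ = θ₀) := by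
    intro χ
    rw [hBl, Set.mem_union, Set.mem_singleton_iff]
  have hdXθ : Disjoint X ({θ₀} : Set (IrrCharacter G)) := by
    rw [Set.disjoint_singleton_right]
    exact hθ₀X
  have hs1 : ∀ χ ∈ Bl, s χ = 1 ∨ s χ = -1 := by
    intro χ hχ
    rcases (hBlmem χ).1 hχ with h | h
    · rw [hsX' χ h]
      exact (hX χ h).1
    · rw [h, hsθ]
      rcases hε with h | h
      · right; rw [h]
      · left; rw [h]; norm_num
  have hsval : ∀ χ ∈ Bl, ∀ z ∈ (P : Subgroup G), z ≠ 1 → (χ : G → ℂ) z = (s χ : ℂ) := by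
    intro χ hχ z hz hz1
    rcases (hBlmem χ).1 hχ with h | h
    · rw [hsX' χ h]
      exact hXval χ h z hz hz1
    · rw [h, hsθ, hθval z hz hz1]
      push_cast
      ring
  have hsmod : ∀ χ ∈ Bl, (charDegree (χ : G → ℂ) : ℤ) ≡ s χ [ZMOD (p : ℤ)] := by
    intro χ hχ
    rcases (hBlmem χ).1 hχ with h | h
    · rw [hsX' χ h]
      exact (hX χ h).2.1
    · rw [h, hsθ]
      have h1 := hYd θ₀ hθ₀
      refine h1.trans ?_
      rw [Int.modEq_iff_dvd, Nat.cast_sub hp.one_lt.le]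
      exact ⟨-ε, by push_cast; ring⟩
  have hsdvd : ∀ χ ∈ Bl, charDegree (χ : G → ℂ) ∣ (p - 1) * (1 + n * p) := by
    intro χ hχ
    have h := Cfsg.Agent.Lib.Helper91.BRDEG.main G p P hP χ (s χ) (hs1 χ hχ) z₀ hz₀ hz₀1
      (hsval χ hχ z₀ hz₀ hz₀1)
    rwa [hCidx] at h
  have htBl : triv G ∈ Bl := by
    rw [hBl, ← hYeq, ← hB0]
    exact triv_mem_principalBlock hMp
  have hst : s (triv G) = 1 := by
    have h := hsval _ htBl z₀ hz₀ hz₀1
    rw [coe_triv] at h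
    have h2 : ((1 : ℤ) : ℂ) = (s (triv G) : ℂ) := by simpa using h
    exact (Int.cast_injective h2).symm
  have hBlsum : ∑ᶠ χ ∈ Bl, (s χ : ℂ) * (χ : G → ℂ) 1 = 0 := by
    rw [hBl, finsum_mem_union hdXθ (Set.toFinite X) (Set.finite_singleton _),
      finsum_mem_singleton, hsθ]
    have h1 : ∑ᶠ χ ∈ X, (s χ : ℂ) * (χ : G → ℂ) 1 = ∑ᶠ χ ∈ X, (εX χ : ℂ) * (χ : G → ℂ) 1 :=
      finsum_mem_congr rfl (fun χ hχ => by rw [hsX' χ hχ])
    rw [h1, ← hdeg θ₀ hθ₀]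
    push_cast
    ring
  have hBlcard : Bl.ncard = p := by
    rw [hBl, Set.ncard_union_eq hdXθ (Set.toFinite X) (Set.finite_singleton _), hXc,
      Set.ncard_singleton]
    omega
  -- the three kinds of characters
  obtain ⟨A, hAmem⟩ : ∃ A : Set (IrrCharacter G),
      ∀ χ, χ ∈ A ↔ (χ ∈ Bl ∧ χ ≠ triv G ∧ s χ = 1) :=
    ⟨{χ | χ ∈ Bl ∧ χ ≠ triv G ∧ s χ = 1}, fun χ => Iff.rfl⟩
  obtain ⟨B1, hB1mem⟩ : ∃ B : Set (IrrCharacter G),
      ∀ χ, χ ∈ B ↔ (χ ∈ Bl ∧ s χ = -1 ∧ charDegree (χ : G → ℂ) = p - 1) :=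
    ⟨{χ | χ ∈ Bl ∧ s χ = -1 ∧ charDegree (χ : G → ℂ) = p - 1}, fun χ => Iff.rfl⟩
  obtain ⟨B2, hB2mem⟩ : ∃ B : Set (IrrCharacter G),
      ∀ χ, χ ∈ B ↔ (χ ∈ Bl ∧ s χ = -1 ∧ charDegree (χ : G → ℂ) ≠ p - 1) :=
    ⟨{χ | χ ∈ Bl ∧ s χ = -1 ∧ charDegree (χ : G → ℂ) ≠ p - 1}, fun χ => Iff.rfl⟩
  have hBleq : Bl = {triv G} ∪ (A ∪ (B1 ∪ B2)) := by
    ext χ
    constructor
    · intro h
      by_cases hχ : χ = triv G
      · left; exact hχ
      · right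
        rcases hs1 χ h with h1 | h1
        · left; exact (hAmem χ).2 ⟨h, hχ, h1⟩
        · right
          by_cases hd : charDegree (χ : G → ℂ) = p - 1
          · left; exact (hB1mem χ).2 ⟨h, h1, hd⟩
          · right; exact (hB2mem χ).2 ⟨h, h1, hd⟩
    · rintro (h | h | h | h)
      · rw [Set.mem_singleton_iff] at h; rw [h]; exact htBl
      · exact ((hAmem χ).1 h).1
      · exact ((hB1mem χ).1 h).1
      · exact ((hB2mem χ).1 h).1
  have hdB : Disjoint B1 B2 := by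
    rw [Set.disjoint_left]
    intro χ h1 h2
    exact ((hB2mem χ).1 h2).2.2 ((hB1mem χ).1 h1).2.2
  have hdA : Disjoint A (B1 ∪ B2) := by
    rw [Set.disjoint_left]
    intro χ h1 h2
    have ha := ((hAmem χ).1 h1).2.2
    rcases h2 with h2 | h2
    · have := ((hB1mem χ).1 h2).2.1; omega
    · have := ((hB2mem χ).1 h2).2.1; omega
  have hdT : Disjoint ({triv G} : Set (IrrCharacter G)) (A ∪ (B1 ∪ B2)) := by
    rw [Set.disjoint_singleton_left]
    rintro (h | h | h)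
    · exact ((hAmem _).1 h).2.1 rfl
    · have := ((hB1mem _).1 h).2.1; omega
    · have := ((hB2mem _).1 h).2.1; omega
  have hAfin : A.Finite := Set.toFinite A
  have hB1fin : B1.Finite := Set.toFinite B1
  have hB2fin : B2.Finite := Set.toFinite B2
  have hcnt : A.ncard + B1.ncard + B2.ncard + 1 = p := by
    rw [← hBlcard, hBleq,
      Set.ncard_union_eq hdT (Set.finite_singleton _) (hAfin.union (hB1fin.union hB2fin)),
      Set.ncard_singleton, Set.ncard_union_eq hdA hAfin (hB1fin.union hB2fin),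
      Set.ncard_union_eq hdB hB1fin hB2fin]
    omega
  -- degrees
  have hAdeg : ∀ χ ∈ A, charDegree (χ : G → ℂ) = 1 + n * p := by
    intro χ hχ
    obtain ⟨hχB, hχt, hχs⟩ := (hAmem χ).1 hχ
    have hmod : charDegree (χ : G → ℂ) % p = 1 := by
      have h1 := hsmod χ hχB
      rw [hχs] at h1
      have h2 : (charDegree (χ : G → ℂ) : ℤ) ≡ ((1 : ℕ) : ℤ) [ZMOD (p : ℤ)] := by
        simpa using h1
      have h3 := Int.natCast_modEq_iff.1 h2
      rw [Nat.ModEq, Nat.mod_eq_of_lt hp.one_lt] at h3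
      exact h3
    exact hNFA p (p - 1) n _ hp hp3 dvd_rfl hn1 hFF (hsdvd χ hχB) hmod
      (fun h => hχt (eq_triv_of_degree_one hperf χ h))
  have hBdeg : ∀ χ ∈ Bl, s χ = -1 → charDegree (χ : G → ℂ) = p - 1 ∨
      charDegree (χ : G → ℂ) = (p - 1) * (1 + n * p) := by
    intro χ hχB hχs
    have hmod : charDegree (χ : G → ℂ) % p = p - 1 := by
      have h1 := hsmod χ hχB
      rw [hχs] at h1
      have h2 : (charDegree (χ : G → ℂ) : ℤ) ≡ ((p - 1 : ℕ) : ℤ) [ZMOD (p : ℤ)] := by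
        refine h1.trans ?_
        rw [Int.modEq_iff_dvd, Nat.cast_sub hp.one_lt.le]
        simp
      have h3 := Int.natCast_modEq_iff.1 h2
      rw [Nat.ModEq, Nat.mod_eq_of_lt (by omega : p - 1 < p)] at h3
      exact h3
    rcases hNFB p (p - 1) n _ hp hp3 dvd_rfl hn1 hFF (hsdvd χ hχB) hmod with h | ⟨_, h⟩
    · left; exact h
    · right; exact h
  -- the degree equation
  have hsumC : (1 : ℂ) + (A.ncard : ℂ) * ((1 + n * p : ℕ) : ℂ) -
      (B1.ncard : ℂ) * ((p - 1 : ℕ) : ℂ) -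
      (B2.ncard : ℂ) * (((p - 1) * (1 + n * p) : ℕ) : ℂ) = 0 := by
    rw [← hBlsum, hBleq,
      finsum_mem_union hdT (Set.finite_singleton _) (hAfin.union (hB1fin.union hB2fin)),
      finsum_mem_singleton, finsum_mem_union hdA hAfin (hB1fin.union hB2fin),
      finsum_mem_union hdB hB1fin hB2fin, hst,
      finsum_mem_const_ncard A hAfin _ ((1 + n * p : ℕ) : ℂ) (by
        intro χ hχ
        rw [((hAmem χ).1 hχ).2.2, hchar χ, hAdeg χ hχ]
        simp),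
      finsum_mem_const_ncard B1 hB1fin _ (-((p - 1 : ℕ) : ℂ)) (by
        intro χ hχ
        rw [((hB1mem χ).1 hχ).2.1, hchar χ, ((hB1mem χ).1 hχ).2.2]
        simp),
      finsum_mem_const_ncard B2 hB2fin _ (-(((p - 1) * (1 + n * p) : ℕ) : ℂ)) (by
        intro χ hχ
        obtain ⟨h1, h2, h3⟩ := (hB2mem χ).1 hχ
        rcases hBdeg χ h1 h2 with h | h
        · exact absurd h h3
        · rw [h2, hchar χ, h]
          simp)]
    rw [coe_triv]
    push_cast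
    ring
  have hsumZ : (0 : ℤ) = 1 + (A.ncard : ℤ) * (1 + (n : ℤ) * (p : ℤ)) -
      (B1.ncard : ℤ) * ((p : ℤ) - 1) -
      (B2.ncard : ℤ) * (((p : ℤ) - 1) * (1 + (n : ℤ) * (p : ℤ))) := by
    have hc : ((p - 1 : ℕ) : ℂ) = (p : ℂ) - 1 := by
      rw [Nat.cast_sub hp.one_lt.le]
      simp
    have h2 : ((0 : ℤ) : ℂ) = ((1 + (A.ncard : ℤ) * (1 + (n : ℤ) * (p : ℤ)) -
        (B1.ncard : ℤ) * ((p : ℤ) - 1) -
        (B2.ncard : ℤ) * (((p : ℤ) - 1) * (1 + (n : ℤ) * (p : ℤ))) : ℤ) : ℂ) := by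
      push_cast at hsumC ⊢
      rw [hc] at hsumC
      linear_combination (-1 : ℂ) * hsumC
    exact Int.cast_injective h2
  obtain ⟨hb2, han, hb1⟩ := arith p n A.ncard B1.ncard B2.ncard hp3 hn1 hcnt hsumZ
  -- a character of degree `p - 1` in `X`
  obtain ⟨χB, hχB, hχBθ⟩ : ∃ χ ∈ B1, χ ≠ θ₀ := by
    by_contra hcon
    push Not at hcon
    have hsub : B1 ⊆ {θ₀} := fun χ hχ => hcon χ hχ
    have h := Set.ncard_le_ncard hsub (Set.finite_singleton _)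
    rw [Set.ncard_singleton] at h
    omega
  obtain ⟨hχBl, hχs, hχd⟩ := (hB1mem χB).1 hχB
  have hχX : χB ∈ X := by
    rcases (hBlmem χB).1 hχBl with h | h
    · exact h
    · exact absurd h hχBθ
  have hC : Subgroup.centralizer ((P : Subgroup G) : Set G) = (P : Subgroup G) := by
    refine Cfsg.Agent.Lib.Helper53.BRPD.main G p P hP hO χB ?_ ?_
    · rw [hchar χB, hχd]
    · intro x hx hx1 y hy hyreg
      have h := (hX χB hχX).2.2 x hx hx1 y hy hyreg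
      rw [h, ← hsX' χB hχX, hχs]
      simp
  have hGC := Subgroup.card_mul_index (Subgroup.centralizer ((P : Subgroup G) : Set G))
  rw [hCidx, hC, hP] at hGC
  have hNcard : Nat.card (Subgroup.normalizer ((P : Subgroup G) : Set G)) = p * (p - 1) := by
    have h1 := Subgroup.card_mul_index (Subgroup.normalizer ((P : Subgroup G) : Set G))
    rw [hNidx] at h1
    have h2 : Nat.card (Subgroup.normalizer ((P : Subgroup G) : Set G)) * (1 + n * p) =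
        p * (p - 1) * (1 + n * p) := by
      rw [h1, ← hGC]; ring
    exact Nat.eq_of_mul_eq_mul_right (by omega : 0 < 1 + n * p) h2
  have hGcard : Nat.card G = (1 + n * p) * (p * (p - 1)) := by
    rw [← hGC]; ring
  obtain ⟨y, hyN, hyo, -⟩ := Cfsg.Agent.Lib.Helper62.BRPH1.main G p P hP hC (p - 1) hNcard
  -- parity
  have h1 : Odd (p - 2) := Nat.Odd.sub_even (by omega) hpodd (by decide)
  have hdvd : (n + 1) ∣ (p - 2) := ⟨A.ncard, by
    have h : A.ncard * (n + 1) = (n + 1) * A.ncard := mul_comm _ _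
    omega⟩
  have h2 : Odd (n + 1) := Odd.of_dvd_nat h1 hdvd
  have h3 : Even n := by
    rcases Nat.even_or_odd n with h | h
    · exact h
    · exact absurd (Odd.add_odd h odd_one) (Nat.not_even_iff_odd.2 h2)
  have h4 : Odd (1 + n * p) := by
    rw [add_comm]
    exact Even.add_one (Even.mul_right h3 p)
  have h5 : Odd ((1 + n * p) * p) := Odd.mul h4 hpodd
  refine Cfsg.Agent.Lib.Helper33.BGCYC2.main G hperf y ?_ ?_
  · rw [hyo]
    obtain ⟨k, hk⟩ := hpodd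
    exact ⟨k, by omega⟩
  · rw [hyo, hGcard]
    have h6 : (1 + n * p) * (p * (p - 1)) / (p - 1) = (1 + n * p) * p := by
      rw [← mul_assoc]
      exact Nat.mul_div_cancel _ (by omega)
    rw [h6, ← even_iff_two_dvd]
    exact Nat.not_even_iff_odd.2 h5

end Cfsg.Agent.Lib.Helper80.BFNFT1
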