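import Mathlib
import Cfsg.Prelude.Def_Characters
import Cfsg.Agent.S0164
import Cfsg.Agent.Lib.CT.Ops
import Cfsg.Agent.Lib.CT.Orth
import Cfsg.Agent.Lib.CT.Kernel
import Cfsg.Agent.Lib.CT.Wedderburn
import Cfsg.Agent.Lib.Helper3.Orth
import Cfsg.Agent.Lib.Helper26.GenChar
import Cfsg.Agent.Lib.Helper80.Integrality

/-!
# The Brauer--Suzuki normal complement theorem (Isaacs 8.22)

`H` a Hall subgroup of `G` controlling its own fusion, such that every elementary subgroup of
order dividing `|H|` is conjugate into `H`.  For a class function `θ` of `H` define `tilde θ` on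
`G` by `tilde θ g = θ h` with `h ∈ H` conjugate to the "`π`-part" `g ^ e` of `g`.  Then `tilde`
maps characters to generalized characters (Brauer), is an isometry, and the intersection of the
kernels of the `tilde θ`, `θ ∈ Irr(H)`, is the normal complement.
-/

set_option autoImplicit false

namespace Cfsg.Agent.Lib.Helper80.BrauerSuzuki

open Cfsg
open scoped ComplexConjugate

universe u

/-! ### Power maps on elementary groups -/

theorem pow_index_center_mul {E : Type*} [Group E] [Finite E] (a b : E) :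
    (a * b) ^ (Subgroup.center E).index =
      a ^ (Subgroup.center E).index * b ^ (Subgroup.center E).index := by
  have h := map_mul (MonoidHom.transferCenterPow E) a b
  have h2 := congrArg Subtype.val h
  rw [Subgroup.coe_mul, MonoidHom.transferCenterPow_apply, MonoidHom.transferCenterPow_apply,
    MonoidHom.transferCenterPow_apply] at h2
  exact h2

theorem pow_index_center_mem {E : Type*} [Group E] [Finite E] (a : E) :
    a ^ (Subgroup.center E).index ∈ Subgroup.center E := by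
  have h := (MonoidHom.transferCenterPow E a).2
  rwa [MonoidHom.transferCenterPow_apply] at h

/-- On an elementary group of order dividing `n * m` (coprime), the `n`-part map `y ↦ y ^ e`
(`e ≡ 1 mod n`, `e ≡ 0 mod m`) is multiplicative. -/
theorem pow_mul_of_elementary {E : Type*} [Group E] [Finite E] (p : ℕ) (hp : p.Prime)
    (hE : IsElementary p E) (n m e : ℕ) (hcop : Nat.Coprime n m) (hcard : Nat.card E ∣ n * m)
    (he1 : e ≡ 1 [MOD n]) (he0 : e ≡ 0 [MOD m]) (a b : E) :
    (a * b) ^ e = a ^ e * b ^ e := by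
  obtain ⟨z, hz, -, k, hk⟩ := hE
  set c := (Subgroup.center E).index with hc
  have hle : Subgroup.zpowers z ≤ Subgroup.center E := by
    rw [Subgroup.zpowers_le]; exact hz
  have hcd : c ∣ p ^ k := hk ▸ Subgroup.index_dvd_of_le hle
  obtain ⟨j, -, hj⟩ := (Nat.dvd_prime_pow hp).1 hcd
  have hcnm : c ∣ n * m := (Subgroup.index_dvd_card _).trans hcard
  have hmul := pow_index_center_mul a b
  have ha := pow_index_center_mem a
  have hb := pow_index_center_mem b
  rw [← hc] at hmul ha hb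
  have hcomm : Commute (a ^ c) (b ^ c) := (Subgroup.mem_center_iff.1 ha (b ^ c)).symm
  by_cases hpn : p ∣ n
  · have h1 : Nat.Coprime c m := by
      rw [hj]
      exact Nat.Coprime.pow_left _ (Nat.Coprime.coprime_dvd_left hpn hcop)
    have h2 : c ∣ n := h1.dvd_of_dvd_mul_right hcnm
    have h3 : e ≡ 1 [MOD c] := he1.of_dvd h2
    obtain ⟨t, ht⟩ := (Nat.modEq_iff_dvd.1 h3)
    have h4 : (e : ℤ) = 1 + (c : ℤ) * (-t) := by push_cast at ht; linarith
    have key : ∀ y : E, y ^ e = y * (y ^ c) ^ (-t) := by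
      intro y
      rw [← zpow_natCast y e, h4, zpow_add, zpow_one, zpow_mul, zpow_natCast]
    rw [key, key a, key b, hmul, hcomm.mul_zpow]
    have h5 : (a ^ c) ^ (-t) ∈ Subgroup.center E := Subgroup.zpow_mem _ ha _
    have h6 := Subgroup.mem_center_iff.1 h5 b
    calc a * b * ((a ^ c) ^ (-t) * (b ^ c) ^ (-t))
        = a * (b * (a ^ c) ^ (-t)) * (b ^ c) ^ (-t) := by group
      _ = a * ((a ^ c) ^ (-t) * b) * (b ^ c) ^ (-t) := by rw [h6]
      _ = a * (a ^ c) ^ (-t) * (b * (b ^ c) ^ (-t)) := by group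
  · have h1 : Nat.Coprime c n := by
      rw [hj]
      exact Nat.Coprime.pow_left _ ((Nat.Prime.coprime_iff_not_dvd hp).2 hpn)
    have h2 : c ∣ m := h1.dvd_of_dvd_mul_left hcnm
    have h3 : c ∣ e := h2.trans ((Nat.modEq_zero_iff_dvd).1 he0)
    obtain ⟨t, ht⟩ := h3
    rw [ht, pow_mul, pow_mul, pow_mul, hmul, hcomm.mul_pow]

/-- A homomorphic image of an elementary group is elementary. -/
theorem isElementary_of_surjective {E A : Type*} [Group E] [Group A] (p : ℕ) (hp : p.Prime)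
    (f : E →* A) (hf : Function.Surjective f) (hE : IsElementary p E) : IsElementary p A := by
  obtain ⟨z, hz, hcop, k, hk⟩ := hE
  refine ⟨f z, ?_, ?_, ?_⟩
  · rw [Subgroup.mem_center_iff]
    intro a
    obtain ⟨b, rfl⟩ := hf a
    rw [← map_mul, ← map_mul, Subgroup.mem_center_iff.1 hz b]
  · exact Nat.Coprime.coprime_dvd_left (orderOf_map_dvd f z) hcop
  · have h1 := Subgroup.index_map_dvd (Subgroup.zpowers z) hf
    rw [MonoidHom.map_zpowers, hk] at h1
    obtain ⟨j, -, hj⟩ := (Nat.dvd_prime_pow hp).1 h1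
    exact ⟨j, hj⟩

/-- A subgroup of exponent dividing `n` in a group of order `n * m` (coprime) has order
dividing `n`. -/
theorem card_dvd_of_forall_pow {G : Type*} [Group G] [Finite G] (A : Subgroup G) (n m : ℕ)
    (hcop : Nat.Coprime n m) (hcard : Nat.card G = n * m) (hA : ∀ a ∈ A, a ^ n = 1) :
    Nat.card A ∣ n := by
  have h1 : Nat.Coprime (Nat.card A) m := by
    by_contra h
    obtain ⟨q, hq, hqA, hqm⟩ := Nat.Prime.not_coprime_iff_dvd.1 h
    have : Fact q.Prime := ⟨hq⟩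
    obtain ⟨a, ha⟩ := exists_prime_orderOf_dvd_card' q hqA
    have h2 : orderOf (a : G) ∣ n := orderOf_dvd_of_pow_eq_one (hA a a.2)
    rw [Subgroup.orderOf_coe, ha] at h2
    have h3 := Nat.dvd_gcd h2 hqm
    rw [Nat.Coprime.gcd_eq_one hcop] at h3
    exact hq.one_lt.ne' (Nat.dvd_one.1 h3)
  have h2 : Nat.card A ∣ n * m := hcard ▸ Subgroup.card_subgroup_dvd_card A
  exact h1.dvd_of_dvd_mul_right h2

/-- A cyclic group is elementary (for a large prime). -/
theorem exists_isElementary_zpowers {G : Type*} [Group G] [Finite G] (y : G) :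
    ∃ p : ℕ, p.Prime ∧ IsElementary p (Subgroup.zpowers y) := by
  obtain ⟨p, hle, hp⟩ := Nat.exists_infinite_primes (orderOf y + 1)
  refine ⟨p, hp, ⟨⟨y, Subgroup.mem_zpowers y⟩, ?_, ?_, 0, ?_⟩⟩
  · rw [Subgroup.mem_center_iff]
    rintro ⟨g, hg⟩
    obtain ⟨k, rfl⟩ := Subgroup.mem_zpowers_iff.1 hg
    apply Subtype.ext
    show y ^ k * y = y * y ^ k
    rw [← zpow_add_one, ← zpow_one_add, add_comm]
  · rw [Subgroup.orderOf_mk]
    refine Nat.Coprime.symm ((Nat.Prime.coprime_iff_not_dvd hp).2 fun h => ?_)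
    have := Nat.le_of_dvd (orderOf_pos y) h
    omega
  · rw [pow_zero, Subgroup.index_eq_one]
    rw [eq_top_iff]
    rintro ⟨g, hg⟩ -
    obtain ⟨k, rfl⟩ := Subgroup.mem_zpowers_iff.1 hg
    exact Subgroup.mem_zpowers_iff.2 ⟨k, Subtype.ext (by simp)⟩

/-! ### The setting -/

/-- The hypotheses of the Brauer--Suzuki theorem, together with an exponent `e` computing
`π`-parts. -/
structure Hyp {G : Type u} [Group G] (H : Subgroup G) (e : ℕ) : Prop where
  hall : Nat.Coprime (Nat.card H) H.index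
  fus : ∀ x ∈ H, ∀ y ∈ H, IsConj x y → ∃ h ∈ H, h * x * h⁻¹ = y
  elem : ∀ (E : Subgroup G) (p : ℕ), p.Prime → IsElementary p E → Nat.card E ∣ Nat.card H →
    ∃ g : G, E.map (MulAut.conj g).toMonoidHom ≤ H
  e1 : e ≡ 1 [MOD Nat.card H]
  e0 : e ≡ 0 [MOD H.index]

section Setting

variable {G : Type u} [Group G] [Finite G] {H : Subgroup G} {e : ℕ}

omit [Finite G] in
theorem Hyp.pow_pow_card (hyp : Hyp H e) (g : G) : (g ^ e) ^ Nat.card H = 1 := by
  obtain ⟨t, ht⟩ := (Nat.modEq_zero_iff_dvd).1 hyp.e0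
  rw [← pow_mul, ht, mul_comm, ← mul_assoc, Subgroup.card_mul_index, pow_mul, pow_card_eq_one',
    one_pow]

omit [Finite G] in
theorem Hyp.pow_of_pow_card (hyp : Hyp H e) {y : G} (hy : y ^ Nat.card H = 1) : y ^ e = y := by
  have h1 : e ≡ 1 [MOD orderOf y] := hyp.e1.of_dvd (orderOf_dvd_of_pow_eq_one hy)
  have := pow_eq_pow_iff_modEq.2 h1
  rwa [pow_one] at this

omit [Finite G] in
theorem Hyp.pow_of_mem (hyp : Hyp H e) {y : G} (hy : y ∈ H) : y ^ e = y := by
  apply hyp.pow_of_pow_card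
  have h1 : (⟨y, hy⟩ : H) ^ Nat.card H = 1 := pow_card_eq_one'
  have h2 := congrArg Subtype.val h1
  rw [Subgroup.coe_pow, Subgroup.coe_one] at h2
  exact h2

theorem Hyp.exists_conj_mem (hyp : Hyp H e) {y : G} (hy : y ^ Nat.card H = 1) :
    ∃ x : G, x * y * x⁻¹ ∈ H := by
  obtain ⟨p, hp, hE⟩ := exists_isElementary_zpowers y
  have hcard : Nat.card (Subgroup.zpowers y) ∣ Nat.card H := by
    rw [Nat.card_zpowers]; exact orderOf_dvd_of_pow_eq_one hy
  obtain ⟨x, hx⟩ := hyp.elem _ p hp hE hcard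
  exact ⟨x, hx ⟨y, Subgroup.mem_zpowers y, rfl⟩⟩

theorem Hyp.exists_rep (hyp : Hyp H e) (g : G) : ∃ h : H, ∃ x : G, x * g ^ e * x⁻¹ = (h : G) := by
  obtain ⟨x, hx⟩ := hyp.exists_conj_mem (hyp.pow_pow_card g)
  exact ⟨⟨_, hx⟩, x, rfl⟩

/-- A chosen element of `H` conjugate to the `π`-part `g ^ e` of `g`. -/
noncomputable def rep (hyp : Hyp H e) (g : G) : H := Classical.choose (hyp.exists_rep g)

theorem rep_spec (hyp : Hyp H e) (g : G) : ∃ x : G, x * g ^ e * x⁻¹ = (rep hyp g : G) :=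
  Classical.choose_spec (hyp.exists_rep g)

/-- The extension of a function on `H` to `G` through `π`-parts. -/
noncomputable def tilde (hyp : Hyp H e) (θ : H → ℂ) : G → ℂ := fun g => θ (rep hyp g)

theorem isConj_rep (hyp : Hyp H e) (g : G) (h : H) (x : G) (hx : x * g ^ e * x⁻¹ = (h : G)) :
    IsConj (rep hyp g) h := by
  obtain ⟨x', hx'⟩ := rep_spec hyp g
  have h1 : IsConj (rep hyp g : G) (h : G) := by
    rw [isConj_iff]
    refine ⟨x * x'⁻¹, ?_⟩
    rw [← hx', ← hx]; group
  obtain ⟨k, hk, hk2⟩ := hyp.fus _ (rep hyp g).2 _ h.2 h1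
  rw [isConj_iff]
  exact ⟨⟨k, hk⟩, Subtype.ext hk2⟩

theorem tilde_eq (hyp : Hyp H e) {θ : H → ℂ} (hθ : IsClassFunction H θ) (g : G) (h : H) (x : G)
    (hx : x * g ^ e * x⁻¹ = (h : G)) : tilde hyp θ g = θ h := by
  obtain ⟨k, hk⟩ := isConj_iff.1 (isConj_rep hyp g h x hx)
  show θ (rep hyp g) = θ h
  rw [← hk, hθ]

theorem isConj_rep_of_mem (hyp : Hyp H e) (h : H) : IsConj (rep hyp (h : G)) h :=
  isConj_rep hyp _ h 1 (by rw [hyp.pow_of_mem h.2]; group)

theorem rep_eq_one_iff (hyp : Hyp H e) (g : G) : rep hyp g = 1 ↔ g ^ e = 1 := by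
  obtain ⟨x, hx⟩ := rep_spec hyp g
  constructor
  · intro h
    rw [h, Subgroup.coe_one] at hx
    have : g ^ e = x⁻¹ * (x * g ^ e * x⁻¹) * x := by group
    rw [this, hx]; group
  · intro h
    rw [h] at hx
    apply Subtype.ext
    rw [← hx, Subgroup.coe_one]; group

theorem tilde_isClassFunction (hyp : Hyp H e) {θ : H → ℂ} (hθ : IsClassFunction H θ) :
    IsClassFunction G (tilde hyp θ) := by
  intro g x
  obtain ⟨x', hx'⟩ := rep_spec hyp g
  refine tilde_eq hyp hθ (x * g * x⁻¹) (rep hyp g) (x' * x⁻¹) ?_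
  rw [conj_pow, ← hx']; group

theorem tilde_restrict_isCharacter (hyp : Hyp H e) {θ : H → ℂ} (hθ : IsCharacter H θ)
    (E : Subgroup G) (p : ℕ) (hp : p.Prime) (hE : IsElementary p E) :
    IsCharacter E (fun y : E => tilde hyp θ (y : G)) := by
  have hcf : IsClassFunction H θ := Cfsg.Agent.Lib.CT.Wedderburn.char_isClassFunction hθ
  have hcardE : Nat.card E ∣ Nat.card H * H.index := by
    rw [Subgroup.card_mul_index]; exact Subgroup.card_subgroup_dvd_card E
  let f : E →* G :=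
    { toFun := fun y => (y : G) ^ e
      map_one' := by simp
      map_mul' := fun a b => by
        have h := pow_mul_of_elementary p hp hE _ _ e hyp.hall hcardE hyp.e1 hyp.e0 a b
        have h2 := congrArg Subtype.val h
        simpa using h2 }
  have hA : ∀ a ∈ f.range, a ^ Nat.card H = 1 := by
    rintro _ ⟨y, rfl⟩
    exact hyp.pow_pow_card (y : G)
  have hAel : IsElementary p f.range :=
    isElementary_of_surjective p hp f.rangeRestrict f.rangeRestrict_surjective hE
  have hAcard : Nat.card f.range ∣ Nat.card H :=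
    card_dvd_of_forall_pow f.range _ _ hyp.hall (Subgroup.card_mul_index H).symm hA
  obtain ⟨x, hx⟩ := hyp.elem f.range p hp hAel hAcard
  let φ : E →* H := ((MulAut.conj x).toMonoidHom.comp f).codRestrict H
    (fun y => hx ⟨f y, ⟨y, rfl⟩, rfl⟩)
  have h1 := Cfsg.Agent.Lib.CT.Ops.isCharacter_comp_hom φ hθ
  have h2 : (fun y : E => tilde hyp θ (y : G)) = fun y => θ (φ y) := by
    funext y
    exact tilde_eq hyp hcf (y : G) (φ y) x rfl
  rw [h2]; exact h1

theorem tilde_isGeneralizedCharacter (hyp : Hyp H e) {θ : H → ℂ} (hθ : IsCharacter H θ) :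
    IsGeneralizedCharacter G (tilde hyp θ) := by
  apply Cfsg.Agent.S0164.result
  · exact tilde_isClassFunction hyp (Cfsg.Agent.Lib.CT.Wedderburn.char_isClassFunction hθ)
  · intro E p hp hE
    exact ⟨_, 0, tilde_restrict_isCharacter hyp hθ E p hp hE,
      Cfsg.Agent.Lib.CT.Ops.isCharacter_zero, by simp⟩

end Setting

/-! ### Inner products -/

section Inner

open Cfsg.Agent.Lib.CT.Wedderburn Cfsg.Agent.Lib.Helper80.Integrality

variable {G : Type u} [Group G] [Fintype G] {H : Subgroup G} [Fintype H]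
  [Fintype (IrrCharacter H)] {e : ℕ}

/-- The normalised sum of `tilde θ` over `G`, i.e. `[tilde θ, 1_G]`. -/
noncomputable def avg (hyp : Hyp H e) (θ : H → ℂ) : ℂ :=
  (Nat.card G : ℂ)⁻¹ * ∑ g : G, tilde hyp θ g

omit [Fintype H] [Fintype (IrrCharacter H)] in
theorem avg_int (hyp : Hyp H e) {θ : H → ℂ} (hθ : IsCharacter H θ) :
    ∃ z : ℤ, avg hyp θ = z := by
  obtain ⟨α, β, hα, hβ, hαβ⟩ := tilde_isGeneralizedCharacter hyp hθ
  obtain ⟨a, ha⟩ := Cfsg.Agent.Lib.CT.Clifford.classInner_char_nat hα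
    (Cfsg.Agent.Lib.CT.Ops.isCharacter_one (G := G))
  obtain ⟨b, hb⟩ := Cfsg.Agent.Lib.CT.Clifford.classInner_char_nat hβ
    (Cfsg.Agent.Lib.CT.Ops.isCharacter_one (G := G))
  refine ⟨(a : ℤ) - b, ?_⟩
  have h1 : avg hyp θ = classInner α (fun _ => 1) - classInner β (fun _ => 1) := by
    unfold avg classInner
    rw [hαβ, ← mul_sub, ← Finset.sum_sub_distrib]
    congr 1
    refine Finset.sum_congr rfl fun g _ => ?_
    simp
  rw [h1, ha, hb]; push_cast; ring

open Classical in
theorem sum_irr_mul_avg (hyp : Hyp H e) (x : H) :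
    ∑ χ : IrrCharacter H, (χ : H → ℂ) x * conj (avg hyp (χ : H → ℂ)) =
      (Nat.card G : ℂ)⁻¹ * ((Nat.card (Subgroup.centralizer ({x} : Set H)) : ℂ) *
        ((Finset.univ.filter fun g : G => IsConj x (rep hyp g)).card : ℂ)) := by
  have h1 : ∀ χ : IrrCharacter H, (χ : H → ℂ) x * conj (avg hyp (χ : H → ℂ)) =
      (Nat.card G : ℂ)⁻¹ * ∑ g : G, (χ : H → ℂ) x * conj ((χ : H → ℂ) (rep hyp g)) := by
    intro χ
    unfold avg tilde
    rw [map_mul, map_inv₀, map_natCast, map_sum, Finset.mul_sum, Finset.mul_sum,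
      Finset.mul_sum]
    refine Finset.sum_congr rfl fun g _ => ?_
    ring
  simp only [h1]
  rw [← Finset.mul_sum, Finset.sum_comm]
  congr 1
  have h5 : ∀ g : G, ∑ χ : IrrCharacter H, (χ : H → ℂ) x * conj ((χ : H → ℂ) (rep hyp g)) =
      (Nat.card (Subgroup.centralizer ({x} : Set H)) : ℂ) *
        (if IsConj x (rep hyp g) then (1 : ℂ) else 0) := by
    intro g
    rw [Cfsg.Agent.Lib.Helper3.Orth.second_orthogonality_sum]
    by_cases hc : IsConj x (rep hyp g)
    · rw [if_pos hc, if_pos hc, mul_one]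
    · rw [if_neg hc, if_neg hc, mul_zero]
  rw [Finset.sum_congr rfl (fun g _ => h5 g), ← Finset.mul_sum, Finset.sum_boole]

theorem sum_sum_irr_mul_avg (hyp : Hyp H e) :
    ∑ x : H, ∑ χ : IrrCharacter H, (χ : H → ℂ) x * conj (avg hyp (χ : H → ℂ)) =
      (Nat.card H : ℂ) := by
  classical
  rw [Finset.sum_comm]
  let τ : IrrCharacter H := ⟨fun _ => 1, Cfsg.Agent.Lib.CT.Ops.isIrrCharacter_one⟩
  have hne : (Nat.card H : ℂ) ≠ 0 := Nat.cast_ne_zero.mpr Nat.card_pos.ne'
  have hneG : (Nat.card G : ℂ) ≠ 0 := Nat.cast_ne_zero.mpr Nat.card_pos.ne'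
  have h1 : ∀ χ : IrrCharacter H, ∑ x : H, (χ : H → ℂ) x =
      if χ = τ then (Nat.card H : ℂ) else 0 := by
    intro χ
    have := irr_orthonormal χ τ
    unfold classInner at this
    have h2 : ∑ x : H, (χ : H → ℂ) x = ∑ g : H, (χ : H → ℂ) g * conj ((τ : H → ℂ) g) := by
      refine Finset.sum_congr rfl fun g _ => ?_
      show _ = _ * conj (1 : ℂ)
      rw [map_one, mul_one]
    rw [h2]
    by_cases hc : χ = τ
    · rw [if_pos hc] at this ⊢
      rw [← mul_one (Nat.card H : ℂ), ← this, ← mul_assoc, mul_inv_cancel₀ hne, one_mul]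
    · rw [if_neg hc] at this ⊢
      rcases mul_eq_zero.1 this with h | h
      · exact absurd (inv_eq_zero.1 h) hne
      · exact h
  have h3 : ∀ χ : IrrCharacter H,
      ∑ x : H, (χ : H → ℂ) x * conj (avg hyp (χ : H → ℂ)) =
        if χ = τ then (Nat.card H : ℂ) else 0 := by
    intro χ
    rw [← Finset.sum_mul, h1]
    by_cases hc : χ = τ
    · rw [if_pos hc, hc]
      have h4 : avg hyp (τ : H → ℂ) = 1 := by
        unfold avg tilde
        show (Nat.card G : ℂ)⁻¹ * ∑ g : G, (1 : ℂ) = 1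
        rw [Finset.sum_const, Finset.card_univ, nsmul_eq_mul, mul_one,
          ← Nat.card_eq_fintype_card, inv_mul_cancel₀ hneG]
      rw [h4, map_one, mul_one]
    · rw [if_neg hc, zero_mul]
  simp only [h3]
  rw [Finset.sum_ite_eq' Finset.univ τ (fun _ => (Nat.card H : ℂ)), if_pos (Finset.mem_univ _)]

open Classical in
theorem card_dvd (hyp : Hyp H e) (x : H) :
    Nat.card G ∣ Nat.card (Subgroup.centralizer ({x} : Set H)) *
      (Finset.univ.filter fun g : G => IsConj x (rep hyp g)).card := by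
  apply dvd_of_isIntegral_div (Nat.card_pos.ne')
  have h := sum_irr_mul_avg hyp x
  have h2 : IsIntegral ℤ
      (∑ χ : IrrCharacter H, (χ : H → ℂ) x * conj (avg hyp (χ : H → ℂ))) := by
    refine IsIntegral.sum _ fun χ _ => IsIntegral.mul (isIntegral_irrCharacter χ x) ?_
    obtain ⟨z, hz⟩ := avg_int hyp (isCharacter_of_irr χ.2)
    rw [hz, map_intCast]
    exact isIntegral_algebraMap (R := ℤ) (A := ℂ) (x := z)
  rw [h] at h2
  convert h2 using 1
  push_cast
  rw [div_eq_inv_mul]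

open Classical in
theorem card_mul_eq (hyp : Hyp H e) (x : H) :
    Nat.card (Subgroup.centralizer ({x} : Set H)) *
      (Finset.univ.filter fun g : G => IsConj x (rep hyp g)).card = Nat.card G := by
  set t : H → ℕ := fun y => Nat.card (Subgroup.centralizer ({y} : Set H)) *
      (Finset.univ.filter fun g : G => IsConj y (rep hyp g)).card with ht
  have hdvd : ∀ y : H, Nat.card G ∣ t y := fun y => card_dvd hyp y
  have hpos : ∀ y : H, 0 < t y := by
    intro y
    refine Nat.mul_pos Nat.card_pos (Finset.card_pos.2 ⟨(y : G), ?_⟩)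
    rw [Finset.mem_filter]
    exact ⟨Finset.mem_univ _, (isConj_rep_of_mem hyp y).symm⟩
  have hGpos : 0 < Nat.card G := Nat.card_pos
  have hneG : (Nat.card G : ℂ) ≠ 0 := Nat.cast_ne_zero.mpr hGpos.ne'
  set q : H → ℕ := fun y => t y / Nat.card G with hq
  have hq1 : ∀ y : H, 1 ≤ q y := fun y =>
    (Nat.one_le_div_iff hGpos).2 (Nat.le_of_dvd (hpos y) (hdvd y))
  have hqt : ∀ y : H, t y = Nat.card G * q y := fun y => (Nat.mul_div_cancel' (hdvd y)).symm
  have hsum : ∑ y : H, q y = ∑ y : H, 1 := by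
    have h1 : ((∑ y : H, q y : ℕ) : ℂ) = (Nat.card H : ℂ) := by
      rw [← sum_sum_irr_mul_avg hyp, Nat.cast_sum]
      refine Finset.sum_congr rfl fun y _ => ?_
      rw [sum_irr_mul_avg hyp y, ← Nat.cast_mul]
      show _ = (Nat.card G : ℂ)⁻¹ * ((t y : ℕ) : ℂ)
      rw [hqt y, Nat.cast_mul, ← mul_assoc, inv_mul_cancel₀ hneG, one_mul]
    have h2 : (∑ y : H, q y) = Nat.card H := by exact_mod_cast h1
    rw [h2, Finset.sum_const, Finset.card_univ, Nat.card_eq_fintype_card, smul_eq_mul, mul_one]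
  have hall : ∀ y : H, q y = 1 := by
    by_contra hcon
    push Not at hcon
    obtain ⟨y, hy⟩ := hcon
    have hlt : ∑ y : H, 1 < ∑ y : H, q y :=
      Finset.sum_lt_sum (fun i _ => hq1 i)
        ⟨y, Finset.mem_univ _, lt_of_le_of_ne (hq1 y) (Ne.symm hy)⟩
    omega
  have := hqt x
  rw [hall x, mul_one] at this
  exact this

open Classical in
theorem sum_irr_mul_avg_eq_one (hyp : Hyp H e) (x : H) :
    ∑ χ : IrrCharacter H, (χ : H → ℂ) x * conj (avg hyp (χ : H → ℂ)) = 1 := by
  have hneG : (Nat.card G : ℂ) ≠ 0 := Nat.cast_ne_zero.mpr Nat.card_pos.ne'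
  rw [sum_irr_mul_avg hyp x, ← Nat.cast_mul, card_mul_eq hyp x, inv_mul_cancel₀ hneG]

theorem avg_irr (hyp : Hyp H e) (ψ : IrrCharacter H) :
    avg hyp (ψ : H → ℂ) = (Nat.card H : ℂ)⁻¹ * ∑ h : H, (ψ : H → ℂ) h := by
  classical
  have hne : (Nat.card H : ℂ) ≠ 0 := Nat.cast_ne_zero.mpr Nat.card_pos.ne'
  have h1 : ∑ x : H, conj ((ψ : H → ℂ) x) *
      ∑ χ : IrrCharacter H, (χ : H → ℂ) x * conj (avg hyp (χ : H → ℂ)) =
      ∑ x : H, conj ((ψ : H → ℂ) x) := by
    refine Finset.sum_congr rfl fun x _ => ?_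
    rw [sum_irr_mul_avg_eq_one, mul_one]
  have h2 : ∑ x : H, conj ((ψ : H → ℂ) x) *
      ∑ χ : IrrCharacter H, (χ : H → ℂ) x * conj (avg hyp (χ : H → ℂ)) =
      (Nat.card H : ℂ) * conj (avg hyp (ψ : H → ℂ)) := by
    simp only [Finset.mul_sum]
    rw [Finset.sum_comm]
    have h3 : ∀ χ : IrrCharacter H,
        ∑ x : H, conj ((ψ : H → ℂ) x) * ((χ : H → ℂ) x * conj (avg hyp (χ : H → ℂ))) =
        if χ = ψ then (Nat.card H : ℂ) * conj (avg hyp (ψ : H → ℂ)) else 0 := by
      intro χ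
      have h4 := irr_orthonormal χ ψ
      unfold classInner at h4
      have h5 : ∑ x : H, conj ((ψ : H → ℂ) x) * ((χ : H → ℂ) x * conj (avg hyp (χ : H → ℂ))) =
          (∑ g : H, (χ : H → ℂ) g * conj ((ψ : H → ℂ) g)) * conj (avg hyp (χ : H → ℂ)) := by
        rw [Finset.sum_mul]
        refine Finset.sum_congr rfl fun x _ => ?_
        ring
      rw [h5]
      by_cases hc : χ = ψ
      · rw [if_pos hc] at h4 ⊢
        have h6 : ∑ g : H, (χ : H → ℂ) g * conj ((ψ : H → ℂ) g) = Nat.card H := by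
          rw [← mul_one (Nat.card H : ℂ), ← h4, ← mul_assoc, mul_inv_cancel₀ hne, one_mul]
        rw [h6, hc]
      · rw [if_neg hc] at h4 ⊢
        rcases mul_eq_zero.1 h4 with h | h
        · exact absurd (inv_eq_zero.1 h) hne
        · rw [h, zero_mul]
    simp only [h3]
    rw [Finset.sum_ite_eq' Finset.univ ψ (fun _ => (Nat.card H : ℂ) * conj (avg hyp (ψ : H → ℂ))),
      if_pos (Finset.mem_univ _)]
  rw [h2] at h1
  have h7 : conj (avg hyp (ψ : H → ℂ)) =
      (Nat.card H : ℂ)⁻¹ * ∑ x : H, conj ((ψ : H → ℂ) x) := by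
    rw [← h1, ← mul_assoc, inv_mul_cancel₀ hne, one_mul]
  have h8 := congrArg conj h7
  rw [Complex.conj_conj, map_mul, map_inv₀, map_natCast, map_sum] at h8
  rw [h8]
  congr 1
  refine Finset.sum_congr rfl fun x _ => ?_
  rw [Complex.conj_conj]

theorem avg_classFunction (hyp : Hyp H e) {α : H → ℂ} (hα : IsClassFunction H α) :
    avg hyp α = (Nat.card H : ℂ)⁻¹ * ∑ h : H, α h := by
  have hexp := Cfsg.Agent.Lib.CT.Orth.classFunction_expand_sum α hα
  have h1 : avg hyp α =
      ∑ χ : IrrCharacter H, classInner α (χ : H → ℂ) * avg hyp (χ : H → ℂ) := by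
    have h2 : ∀ g : G, α (rep hyp g) =
        ∑ χ : IrrCharacter H, classInner α (χ : H → ℂ) * (χ : H → ℂ) (rep hyp g) :=
      fun g => hexp (rep hyp g)
    show (Nat.card G : ℂ)⁻¹ * ∑ g : G, α (rep hyp g) =
      ∑ χ : IrrCharacter H, classInner α (χ : H → ℂ) *
        ((Nat.card G : ℂ)⁻¹ * ∑ g : G, (χ : H → ℂ) (rep hyp g))
    rw [Finset.sum_congr rfl (fun g _ => h2 g), Finset.sum_comm, Finset.mul_sum]
    refine Finset.sum_congr rfl fun χ _ => ?_
    rw [← Finset.mul_sum]; ring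
  have h3 : (Nat.card H : ℂ)⁻¹ * ∑ h : H, α h =
      ∑ χ : IrrCharacter H, classInner α (χ : H → ℂ) *
        ((Nat.card H : ℂ)⁻¹ * ∑ h : H, (χ : H → ℂ) h) := by
    rw [Finset.sum_congr rfl (fun h _ => hexp h), Finset.sum_comm, Finset.mul_sum]
    refine Finset.sum_congr rfl fun χ _ => ?_
    rw [← Finset.mul_sum]; ring
  rw [h1, h3]
  refine Finset.sum_congr rfl fun χ _ => ?_
  rw [avg_irr hyp χ]

theorem classInner_tilde (hyp : Hyp H e) {θ ψ : H → ℂ} (hθ : IsClassFunction H θ)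
    (hψ : IsClassFunction H ψ) :
    classInner (tilde hyp θ) (tilde hyp ψ) = classInner θ ψ := by
  have h := avg_classFunction hyp (α := fun h => θ h * conj (ψ h))
    (fun g x => by show θ _ * conj (ψ _) = _; rw [hθ, hψ])
  exact h

theorem tilde_irr (hyp : Hyp H e) (θ : IrrCharacter H) :
    IsIrrCharacter G (tilde hyp (θ : H → ℂ)) := by
  have hθc := isCharacter_of_irr θ.2
  have hcf := char_isClassFunction hθc
  have h1 : classInner (tilde hyp (θ : H → ℂ)) (tilde hyp (θ : H → ℂ)) = 1 := by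
    rw [classInner_tilde hyp hcf hcf, irr_orthonormal θ θ, if_pos rfl]
  obtain ⟨μ, hμ, h2 | h2⟩ := Cfsg.Agent.Lib.Helper26.GenChar.eq_irr_or_neg_of_norm_one
    (tilde_isGeneralizedCharacter hyp hθc) h1
  · rw [h2]; exact hμ
  · exfalso
    have h3 : tilde hyp (θ : H → ℂ) 1 = (θ : H → ℂ) 1 := by
      show (θ : H → ℂ) (rep hyp 1) = _
      rw [(rep_eq_one_iff hyp 1).2 (one_pow e)]
    obtain ⟨a, ha, ha1⟩ := irr_exists_apply_one_pos θ.2
    obtain ⟨b, hb, hb1⟩ := irr_exists_apply_one_pos hμ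
    have h4 := congrFun h2 1
    rw [h3, ha1, Pi.neg_apply, hb1] at h4
    have h5 : ((a + b : ℕ) : ℂ) = 0 := by push_cast; rw [h4]; ring
    have h6 : a + b = 0 := by exact_mod_cast h5
    omega

end Inner

/-- **Brauer--Suzuki** (Isaacs 8.22): a Hall subgroup controlling its own fusion into which all
elementary subgroups of suitable order can be conjugated has a normal complement. -/
theorem exists_normal_complement {G : Type u} [Group G] [Finite G] (H : Subgroup G)
    (hHall : Nat.Coprime (Nat.card H) H.index)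
    (hfus : ∀ x ∈ H, ∀ y ∈ H, IsConj x y → ∃ h ∈ H, h * x * h⁻¹ = y)
    (helem : ∀ (E : Subgroup G) (p : ℕ), p.Prime → IsElementary p E →
      Nat.card E ∣ Nat.card H → ∃ g : G, E.map (MulAut.conj g).toMonoidHom ≤ H) :
    ∃ K : Subgroup G, K.Normal ∧ K ⊔ H = ⊤ ∧ K ⊓ H = ⊥ := by
  classical
  obtain ⟨e, he1, he0⟩ := Nat.chineseRemainder hHall 1 0
  have hyp : Hyp H e := ⟨hHall, hfus, helem, he1, he0⟩
  have := Fintype.ofFinite G
  have := Fintype.ofFinite H
  have := Cfsg.Agent.Lib.CT.Wedderburn.finite_irrCharacter H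
  have := Fintype.ofFinite (IrrCharacter H)
  have hker : ∀ θ : IrrCharacter H, ∃ N : Subgroup G, N.Normal ∧
      ∀ g, g ∈ N ↔ tilde hyp (θ : H → ℂ) g = tilde hyp (θ : H → ℂ) 1 := fun θ =>
    Cfsg.Agent.Lib.CT.Kernel.exists_normal_ker
      (Cfsg.Agent.Lib.CT.Wedderburn.isCharacter_of_irr (tilde_irr hyp θ))
  choose N hN hmem using hker
  have hrep1 : rep hyp (1 : G) = 1 := (rep_eq_one_iff hyp 1).2 (one_pow e)
  have hK : ∀ g : G, g ∈ (⨅ θ, N θ) ↔ g ^ e = 1 := by
    intro g
    rw [Subgroup.mem_iInf, ← rep_eq_one_iff hyp g]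
    constructor
    · intro h
      have h1 : ∀ θ : IrrCharacter H, (θ : H → ℂ) (rep hyp g) = (θ : H → ℂ) 1 := by
        intro θ
        have h0 := (hmem θ g).1 (h θ)
        unfold tilde at h0
        rw [hrep1] at h0
        exact h0
      by_contra hne
      have h2 := Cfsg.Agent.Lib.Helper3.Orth.second_orthogonality_sum (rep hyp g) (1 : H)
      rw [if_neg (fun hc => hne (isConj_one_left.1 hc))] at h2
      have h3 := Cfsg.Agent.Lib.Helper3.Orth.second_orthogonality_sum (1 : H) (1 : H)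
      rw [if_pos (IsConj.refl 1)] at h3
      have h4 : ∑ χ : IrrCharacter H, (χ : H → ℂ) (rep hyp g) * conj ((χ : H → ℂ) 1) =
          ∑ χ : IrrCharacter H, (χ : H → ℂ) 1 * conj ((χ : H → ℂ) 1) :=
        Finset.sum_congr rfl fun χ _ => by rw [h1 χ]
      rw [h2, h3] at h4
      have h5 : (Nat.card (Subgroup.centralizer ({1} : Set H)) : ℂ) ≠ 0 :=
        Nat.cast_ne_zero.mpr Nat.card_pos.ne'
      exact h5 h4.symm
    · intro h θ
      rw [hmem θ g]
      show (θ : H → ℂ) (rep hyp g) = (θ : H → ℂ) (rep hyp 1)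
      rw [h, hrep1]
  have hdisj : Disjoint H (⨅ θ, N θ) := by
    rw [Subgroup.disjoint_def]
    intro g hgH hgK
    have := (hK g).1 hgK
    rwa [hyp.pow_of_mem hgH] at this
  refine ⟨⨅ θ, N θ, Subgroup.normal_iInf_normal hN, ?_, ?_⟩
  · have hcard : Nat.card H * Nat.card (⨅ θ, N θ : Subgroup G) = Nat.card G := by
      have h1 := card_mul_eq hyp (1 : H)
      have h2 : Nat.card (Subgroup.centralizer ({1} : Set H)) = Nat.card H := by
        have : Subgroup.centralizer ({1} : Set H) = ⊤ := by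
          rw [eq_top_iff]
          intro g _
          rw [Subgroup.mem_centralizer_iff]
          intro h hh
          rw [Set.mem_singleton_iff.1 hh]; simp
        rw [this]; exact Subgroup.card_top
      have h3 : (Finset.univ.filter fun g : G => IsConj (1 : H) (rep hyp g)).card =
          Nat.card (⨅ θ, N θ : Subgroup G) := by
        rw [Nat.card_eq_fintype_card]
        symm
        apply Fintype.card_of_subtype
        intro g
        simp only [Finset.mem_filter, Finset.mem_univ, true_and]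
        rw [hK g, ← rep_eq_one_iff hyp g]
        exact isConj_one_right
      rw [← h1, h2, h3]
    have hc := Subgroup.isComplement'_of_card_mul_and_disjoint hcard hdisj
    rw [sup_comm]; exact hc.sup_eq_top
  · rw [inf_comm]; exact disjoint_iff.1 hdisj

end Cfsg.Agent.Lib.Helper80.BrauerSuzuki
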