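import Mathlib
import Cfsg.Agent.Lib.Helper80.DefOneCol
import Cfsg.Agent.Lib.Helper80.AbSylowGT
import Cfsg.Agent.Lib.CT.SectionOrth
import Cfsg.Agent.Lib.CT.Ops

/-!
# Blocks of defect one: the Gram matrix of the columns

`P` a Sylow `p`-subgroup of order `p`, `C = C_G(P)`, `N = N_G(P)`, `π : C →* P` the projection.
For an irreducible character `θ` of `C` with `P` in its kernel and non-principal linear
characters `ψ`, `ψ'` of `P`:

`∑ χ, col θ ψ χ * col θ ψ' χ = |C|⁻¹ (#{n ∈ N | θ^n = θ} + #{n ∈ N | θ^n = θ, ψ'^n = ψ})`.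
-/

set_option autoImplicit false
set_option linter.unusedSectionVars false
set_option linter.style.haveILetI false
set_option maxHeartbeats 1000000

namespace Cfsg.Agent.Lib.Helper80.DefOneGram

open Cfsg Cfsg.Agent.Lib.CT Cfsg.Agent.Lib.CT.Wedderburn Cfsg.Agent.Lib.Helper17.BrGrp
  Cfsg.Agent.Lib.Helper80.DefOneLoc Cfsg.Agent.Lib.Helper80.DefOneCol
  Cfsg.Agent.Lib.Helper80.AbSylowCh
open scoped ComplexConjugate

universe u
variable {G : Type u} [Group G] {p : ℕ} [Fact p.Prime] [Fintype G] (P : Sylow p G)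
  (hP : Nat.card P = p)

local notation "𝐂" => Subgroup.centralizer ((P : Subgroup G) : Set G)
local notation "𝐍" => Subgroup.normalizer ((P : Subgroup G) : Set G)

theorem conj_mem_centralizer {n c : G} (hn : n ∈ 𝐍) (hc : c ∈ 𝐂) : n * c * n⁻¹ ∈ 𝐂 := by
  rw [Subgroup.mem_centralizer_iff] at hc ⊢
  intro w hw
  have hw' : n⁻¹ * w * n⁻¹⁻¹ ∈ (P : Subgroup G) :=
    (Subgroup.mem_normalizer_iff.mp (Subgroup.inv_mem _ hn) w).mp hw
  have h := hc _ hw'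
  rw [inv_inv] at h
  calc w * (n * c * n⁻¹) = n * (n⁻¹ * w * n * c) * n⁻¹ := by group
    _ = n * (c * (n⁻¹ * w * n)) * n⁻¹ := by rw [h]
    _ = n * c * n⁻¹ * w := by group

/-- Conjugation by an element of the normalizer, as an automorphism of `C_G(P)`. -/
def cjC (n : ↥𝐍) : ↥𝐂 ≃* ↥𝐂 where
  toFun c := ⟨(n : G) * c * (n : G)⁻¹, conj_mem_centralizer P n.2 c.2⟩
  invFun c := ⟨(n : G)⁻¹ * c * (n : G), by
    have := conj_mem_centralizer P (Subgroup.inv_mem _ n.2) c.2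
    rwa [inv_inv] at this⟩
  left_inv c := Subtype.ext (by simp [mul_assoc])
  right_inv c := Subtype.ext (by simp [mul_assoc])
  map_mul' a b := Subtype.ext (by simp [mul_assoc])

theorem cjC_coe (n : ↥𝐍) (c : ↥𝐂) : ((cjC P n c : ↥𝐂) : G) = (n : G) * c * (n : G)⁻¹ := rfl

theorem cjC_mul (a b : ↥𝐍) (c : ↥𝐂) : cjC P (a * b) c = cjC P a (cjC P b c) := by
  apply Subtype.ext
  simp only [cjC_coe, Subgroup.coe_mul]
  group

theorem cjC_one (c : ↥𝐂) : cjC P 1 c = c := by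
  apply Subtype.ext
  rw [cjC_coe, Subgroup.coe_one]
  group

/-- The conjugate function `θ^n : c ↦ θ (n c n⁻¹)`. -/
def conjTh (θ : ↥𝐂 → ℂ) (n : ↥𝐍) : ↥𝐂 → ℂ := fun c => θ (cjC P n c)

theorem conjTh_mul (θ : ↥𝐂 → ℂ) (a b : ↥𝐍) :
    conjTh P θ (a * b) = conjTh P (conjTh P θ a) b := by
  funext c
  unfold conjTh
  rw [cjC_mul]

theorem conjTh_one (θ : ↥𝐂 → ℂ) : conjTh P θ 1 = θ := by
  funext c
  unfold conjTh
  rw [cjC_one]

theorem conjTh_irr {θ : ↥𝐂 → ℂ} (hθ : IsIrrCharacter ↥𝐂 θ) (n : ↥𝐍) :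
    IsIrrCharacter ↥𝐂 (conjTh P θ n) :=
  Ops.isIrrCharacter_comp_mulEquiv (cjC P n) hθ

theorem conjTh_triv {θ : ↥𝐂 → ℂ}
    (hθP : ∀ x : ↥𝐂, (x : G) ∈ (P : Subgroup G) → θ x = θ 1) (n : ↥𝐍) :
    ∀ x : ↥𝐂, (x : G) ∈ (P : Subgroup G) → conjTh P θ n x = conjTh P θ n 1 := by
  intro x hx
  unfold conjTh
  rw [map_one, hθP]
  rw [cjC_coe]
  exact (Subgroup.mem_normalizer_iff.mp n.2 _).mp hx

/-- Conjugation by an element of `C_G(P)` fixes the class functions of `C_G(P)`. -/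
theorem conjTh_of_mem {θ : ↥𝐂 → ℂ} (hθ : IsClassFunction ↥𝐂 θ) (n : ↥𝐍) (hn : (n : G) ∈ 𝐂) :
    conjTh P θ n = θ := by
  funext c
  unfold conjTh
  have e : cjC P n c = (⟨(n : G), hn⟩ : ↥𝐂) * c * (⟨(n : G), hn⟩ : ↥𝐂)⁻¹ := Subtype.ext rfl
  rw [e, hθ]

variable [Fintype ↥(Subgroup.centralizer ((P : Subgroup G) : Set G))] [Fintype ↥(P : Subgroup G)]
  (π : ↥(Subgroup.centralizer ((P : Subgroup G) : Set G)) →* ↥(P : Subgroup G))
  (hπP : ∀ c : ↥(Subgroup.centralizer ((P : Subgroup G) : Set G)),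
    (c : G) ∈ (P : Subgroup G) → ((π c : ↥(P : Subgroup G)) : G) = (c : G))
  (hπreg : ∀ c : ↥(Subgroup.centralizer ((P : Subgroup G) : Set G)), π c = 1 ↔ ¬ p ∣ orderOf c)

include hP hπP hπreg in
/-- The projection commutes with conjugation by the normalizer. -/
theorem proj_cjC (n : ↥𝐍) (c : ↥𝐂) :
    π (cjC P n c) = cj (P : Subgroup G) (n : G) n.2 (π c) := by
  have hr : π ((inc P hP (π c))⁻¹ * c) = 1 := by
    rw [map_mul, map_inv, proj_inc P hP π hπP, inv_mul_cancel]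
  have hc : c = inc P hP (π c) * ((inc P hP (π c))⁻¹ * c) := by group
  have h1 : π (cjC P n (inc P hP (π c))) = cj (P : Subgroup G) (n : G) n.2 (π c) := by
    apply Subtype.ext
    rw [hπP]
    · rfl
    · exact (cj (P : Subgroup G) (n : G) n.2 (π c)).2
  have h2 : π (cjC P n ((inc P hP (π c))⁻¹ * c)) = 1 := by
    rw [hπreg, MulEquiv.orderOf_eq]
    exact (hπreg _).mp hr
  conv_lhs => rw [hc]
  rw [map_mul, map_mul, h1, h2, mul_one]

include hP hπP hπreg in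
/-- `π c` is the `p`-part of `c`. -/
theorem isPPart_proj (c : ↥𝐂) : IsPPart p (c : G) ((π c : ↥(P : Subgroup G)) : G) := by
  have hr : π ((inc P hP (π c))⁻¹ * c) = 1 := by
    rw [map_mul, map_inv, proj_inc P hP π hπP, inv_mul_cancel]
  refine ⟨(((inc P hP (π c))⁻¹ * c : ↥𝐂) : G), ?_, ?_,
    ColumnId.orderOf_coe_of_isPGroup P.2 (π c), ?_⟩
  · show ((π c : ↥(P : Subgroup G)) : G) * (((π c : ↥(P : Subgroup G)) : G)⁻¹ * (c : G)) = c
    group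
  · have hmem := ((inc P hP (π c))⁻¹ * c : ↥𝐂).2
    rw [Subgroup.mem_centralizer_iff] at hmem
    exact hmem _ (π c).2
  · rw [Subgroup.orderOf_coe]
    exact (hπreg _).mp hr

include hP hπP hπreg in
/-- Fusion of `p`-singular elements of `C_G(P)` is controlled by the normalizer. -/
theorem mem_normalizer_of_conj (c : ↥𝐂) (hc : π c ≠ 1) (s : G)
    (hs : s * (c : G) * s⁻¹ ∈ 𝐂) : s ∈ 𝐍 := by
  have hp : p.Prime := Fact.out
  have h1 := SectionOrth.isPPart_conj (isPPart_proj P hP π hπP hπreg c) s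
  have h2 := isPPart_proj P hP π hπP hπreg ⟨s * (c : G) * s⁻¹, hs⟩
  have h3 := SectionOrth.isPPart_unique hp h1 h2
  apply mem_normalizer_of_conj_mem P hP (π c).2 (fun h => hc (Subtype.ext h))
  rw [h3]
  exact (π _).2

include hP hπP hπreg in
/-- The induced function at a `p`-singular element of `C_G(P)`. -/
theorem indFun_apply_sing [Fintype ↥𝐍] (α : ↥𝐂 → ℂ) (c : ↥𝐂) (hc : π c ≠ 1) :
    indFun 𝐂 α (c : G) = (Nat.card ↥𝐂 : ℂ)⁻¹ * ∑ n : ↥𝐍, α (cjC P n c) := by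
  rw [FrobRec.indFun_apply]
  congr 1
  have h1 : ∀ x : G, extendByZero 𝐂 α (x⁻¹ * (c : G) * x) =
      extendByZero 𝐍 (fun n : ↥𝐍 => α (cjC P n⁻¹ c)) x := by
    intro x
    by_cases hx : x ∈ 𝐍
    · rw [FrobRec.extendByZero_apply_of_mem _ _ hx]
      have hmem : x⁻¹ * (c : G) * x ∈ 𝐂 := by
        have := (cjC P (⟨x, hx⟩ : ↥𝐍)⁻¹ c).2
        rw [cjC_coe, Subgroup.coe_inv, inv_inv] at this
        exact this
      rw [FrobRec.extendByZero_apply_of_mem _ _ hmem]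
      congr 1
      apply Subtype.ext
      rw [cjC_coe, Subgroup.coe_inv, inv_inv]
    · rw [FrobRec.extendByZero_apply_of_not_mem _ _ hx, FrobRec.extendByZero_apply_of_not_mem]
      intro hmem
      apply hx
      have := mem_normalizer_of_conj P hP π hπP hπreg c hc x⁻¹ (by rwa [inv_inv])
      exact (Subgroup.inv_mem_iff _).mp this
  rw [Finset.sum_congr rfl (fun x _ => h1 x), FrobRec.sum_extendByZero]
  exact Fintype.sum_equiv (Equiv.inv ↥𝐍) _ _ (fun n => rfl)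

include hP hπP hπreg in
theorem alpha_cjC (θ : ↥𝐂 → ℂ) (ψ : ↥(P : Subgroup G) →* ℂˣ) (n : ↥𝐍) (c : ↥𝐂) :
    DefOneCol.alpha P π θ ψ (cjC P n c) =
      DefOneCol.alpha P π (conjTh P θ n) (ψ.comp (cj (P : Subgroup G) (n : G) n.2)) c := by
  unfold DefOneCol.alpha conjTh
  rw [proj_cjC P hP π hπP hπreg n c]
  rfl

include hP hπP hπreg in
/-- Inner products of characters of `C_G(P)` with `P` in the kernel: reduction to the
`p`-regular elements. -/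
theorem classInner_triv {θ₁ θ₂ : ↥𝐂 → ℂ} (h₁ : IsCharacter ↥𝐂 θ₁) (h₂ : IsCharacter ↥𝐂 θ₂)
    (hP₁ : ∀ x : ↥𝐂, (x : G) ∈ (P : Subgroup G) → θ₁ x = θ₁ 1)
    (hP₂ : ∀ x : ↥𝐂, (x : G) ∈ (P : Subgroup G) → θ₂ x = θ₂ 1) :
    classInner θ₁ θ₂ = (p : ℂ) * ((Nat.card ↥𝐂 : ℂ)⁻¹ *
      ∑ r : ↥𝐂, (if p ∣ orderOf r then 0 else θ₁ r * conj (θ₂ r))) := by
  unfold classInner
  rw [sum_decomp P hP π hπP hπreg (fun c => θ₁ c * conj (θ₂ c))]
  have key : ∀ z : ↥(P : Subgroup G), ∑ r : ↥𝐂, (if p ∣ orderOf r then (0 : ℂ) else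
      θ₁ (inc P hP z * r) * conj (θ₂ (inc P hP z * r))) =
      ∑ r : ↥𝐂, (if p ∣ orderOf r then 0 else θ₁ r * conj (θ₂ r)) := by
    intro z
    refine Finset.sum_congr rfl fun r _ => ?_
    rw [Kernel.apply_mul_of_eq h₁ (hP₁ _ z.2) r, Kernel.apply_mul_of_eq h₂ (hP₂ _ z.2) r]
  refine Eq.trans (congrArg (fun t => (Nat.card ↥𝐂 : ℂ)⁻¹ * t)
    (Finset.sum_congr rfl fun z _ => key z)) ?_
  rw [Finset.sum_const, Finset.card_univ, nsmul_eq_mul, ← Nat.card_eq_fintype_card,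
    show Nat.card ↥(P : Subgroup G) = p from hP]
  ring

include hP hπP hπreg in
/-- Inner products of the functions `(ψ ∘ π - 1) θ`. -/
theorem classInner_alpha {θ₁ θ₂ : ↥𝐂 → ℂ} (h₁ : IsIrrCharacter ↥𝐂 θ₁)
    (h₂ : IsIrrCharacter ↥𝐂 θ₂)
    (hP₁ : ∀ x : ↥𝐂, (x : G) ∈ (P : Subgroup G) → θ₁ x = θ₁ 1)
    (hP₂ : ∀ x : ↥𝐂, (x : G) ∈ (P : Subgroup G) → θ₂ x = θ₂ 1)
    (ψ₁ ψ₂ : ↥(P : Subgroup G) →* ℂˣ) (hψ₁ : ψ₁ ≠ 1) (hψ₂ : ψ₂ ≠ 1)
    [Decidable (θ₁ = θ₂)] [Decidable (ψ₁ = ψ₂)] :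
    classInner (DefOneCol.alpha P π θ₁ ψ₁) (DefOneCol.alpha P π θ₂ ψ₂) =
      (if θ₁ = θ₂ then 1 else 0) * ((if ψ₁ = ψ₂ then 1 else 0) + 1) := by
  have horth : classInner θ₁ θ₂ = if θ₁ = θ₂ then 1 else 0 := by
    have h := irr_orthonormal (⟨θ₁, h₁⟩ : IrrCharacter ↥𝐂) ⟨θ₂, h₂⟩
    rw [h]
    by_cases h' : θ₁ = θ₂
    · rw [if_pos h', if_pos (Subtype.ext h')]
    · rw [if_neg h', if_neg (fun h'' => h' (congrArg Subtype.val h''))]
  have htriv := classInner_triv P hP π hπP hπreg (isCharacter_of_irr h₁) (isCharacter_of_irr h₂)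
    hP₁ hP₂
  have hsum := sum_th_mul_conj ψ₁ ψ₂ hψ₁ hψ₂
  have hmain : classInner (DefOneCol.alpha P π θ₁ ψ₁) (DefOneCol.alpha P π θ₂ ψ₂) =
      (∑ z : ↥(P : Subgroup G), (((ψ₁ z : ℂˣ) : ℂ) - 1) * conj (((ψ₂ z : ℂˣ) : ℂ) - 1)) *
        ((Nat.card ↥𝐂 : ℂ)⁻¹ *
          ∑ r : ↥𝐂, (if p ∣ orderOf r then 0 else θ₁ r * conj (θ₂ r))) := by
    unfold classInner
    rw [sum_decomp P hP π hπP hπreg
      (fun c => DefOneCol.alpha P π θ₁ ψ₁ c * conj (DefOneCol.alpha P π θ₂ ψ₂ c))]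
    have key : ∀ (z : ↥(P : Subgroup G)) (r : ↥𝐂), (if p ∣ orderOf r then (0 : ℂ) else
        DefOneCol.alpha P π θ₁ ψ₁ (inc P hP z * r) *
          conj (DefOneCol.alpha P π θ₂ ψ₂ (inc P hP z * r))) =
        (((ψ₁ z : ℂˣ) : ℂ) - 1) * conj (((ψ₂ z : ℂˣ) : ℂ) - 1) *
          (if p ∣ orderOf r then 0 else θ₁ r * conj (θ₂ r)) := by
      intro z r
      by_cases hr : p ∣ orderOf r
      · rw [if_pos hr, if_pos hr, mul_zero]
      · rw [if_neg hr, if_neg hr]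
        have e1 : π (inc P hP z * r) = z := by
          rw [map_mul, proj_inc P hP π hπP, (hπreg r).mpr hr, mul_one]
        unfold DefOneCol.alpha
        rw [e1, Kernel.apply_mul_of_eq (isCharacter_of_irr h₁) (hP₁ _ z.2) r,
          Kernel.apply_mul_of_eq (isCharacter_of_irr h₂) (hP₂ _ z.2) r]
        simp only [map_sub, map_mul, map_one]
        ring
    refine Eq.trans (congrArg (fun t => (Nat.card ↥𝐂 : ℂ)⁻¹ * t)
      (Finset.sum_congr rfl fun z _ => Finset.sum_congr rfl fun r _ => key z r)) ?_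
    simp_rw [← Finset.mul_sum]
    rw [← Finset.sum_mul]
    ring
  rw [hmain, hsum, ← horth, htriv, ← Nat.card_eq_fintype_card,
    show Nat.card ↥(P : Subgroup G) = p from hP]
  ring

theorem classInner_ind_irr {θ : ↥𝐂 → ℂ} (hθ : IsIrrCharacter ↥𝐂 θ)
    (ψ : ↥(P : Subgroup G) →* ℂˣ) (χ : IrrCharacter G) :
    classInner (indFun 𝐂 (DefOneCol.alpha P π θ ψ)) (χ : G → ℂ) =
      col P π θ ψ (χ : G → ℂ) := by
  rw [FrobRec.frobenius_reciprocity _ _ _ (Orth.irr_isClassFunction χ)]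
  obtain ⟨D, hD⟩ := col_int P π hθ ψ (isCharacter_of_irr χ.2)
  rw [Clifford.classInner_conj_symm]
  show conj (col P π θ ψ (χ : G → ℂ)) = col P π θ ψ (χ : G → ℂ)
  rw [hD, map_intCast]

include hP hπP hπreg in
/-- The Gram matrix of the columns, as a count in the normalizer. -/
theorem gram [Fintype (IrrCharacter G)] [Fintype ↥𝐍] {θ : ↥𝐂 → ℂ}
    (hθ : IsIrrCharacter ↥𝐂 θ)
    (hθP : ∀ x : ↥𝐂, (x : G) ∈ (P : Subgroup G) → θ x = θ 1)
    (ψ ψ' : ↥(P : Subgroup G) →* ℂˣ) (hψ : ψ ≠ 1) (hψ' : ψ' ≠ 1) :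
    ∑ χ : IrrCharacter G, col P π θ ψ (χ : G → ℂ) * col P π θ ψ' (χ : G → ℂ) =
      (Nat.card ↥𝐂 : ℂ)⁻¹ * ((Nat.card {n : ↥𝐍 // conjTh P θ n = θ} : ℂ) +
        (Nat.card {n : ↥𝐍 // conjTh P θ n = θ ∧
          ψ'.comp (cj (P : Subgroup G) (n : G) n.2) = ψ} : ℂ)) := by
  classical
  have hne' : ∀ x : ↥𝐍, ψ'.comp (cj (P : Subgroup G) (x : G) x.2) ≠ 1 := by
    intro x h
    apply hψ'
    refine MonoidHom.ext fun w => ?_
    have h2 := DFunLike.congr_fun h (cj (P : Subgroup G) ((x⁻¹ : ↥𝐍) : G) (x⁻¹).2 w)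
    have e : cj (P : Subgroup G) (x : G) x.2
        (cj (P : Subgroup G) ((x⁻¹ : ↥𝐍) : G) (x⁻¹).2 w) = w := by
      apply Subtype.ext
      simp only [cj_coe, Subgroup.coe_inv]
      group
    rw [MonoidHom.comp_apply, e] at h2
    exact h2
  have h1 : ∑ χ : IrrCharacter G, col P π θ ψ (χ : G → ℂ) * col P π θ ψ' (χ : G → ℂ) =
      classInner (indFun 𝐂 (DefOneCol.alpha P π θ ψ))
        (indFun 𝐂 (DefOneCol.alpha P π θ ψ')) := by
    rw [Cfsg.Agent.Lib.Helper75.Section2.classInner_eq_sum _ _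
      (FrobRec.indFun_isClassFunction _ _)]
    refine Finset.sum_congr rfl fun χ _ => ?_
    rw [classInner_ind_irr P π hθ ψ χ, classInner_ind_irr P π hθ ψ' χ]
    obtain ⟨D, hD⟩ := col_int P π hθ ψ' (isCharacter_of_irr χ.2)
    rw [hD, map_intCast]
  have h2 : classInner (indFun 𝐂 (DefOneCol.alpha P π θ ψ))
      (indFun 𝐂 (DefOneCol.alpha P π θ ψ')) =
      classInner (DefOneCol.alpha P π θ ψ)
        (fun c : ↥𝐂 => indFun 𝐂 (DefOneCol.alpha P π θ ψ') (c : G)) :=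
    FrobRec.frobenius_reciprocity _ _ _ (FrobRec.indFun_isClassFunction _ _)
  have h3 : classInner (DefOneCol.alpha P π θ ψ)
      (fun c : ↥𝐂 => indFun 𝐂 (DefOneCol.alpha P π θ ψ') (c : G)) =
      (Nat.card ↥𝐂 : ℂ)⁻¹ * ∑ n : ↥𝐍, classInner (DefOneCol.alpha P π θ ψ)
        (DefOneCol.alpha P π (conjTh P θ n) (ψ'.comp (cj (P : Subgroup G) (n : G) n.2))) := by
    unfold classInner
    have key : ∀ c : ↥𝐂, DefOneCol.alpha P π θ ψ c *
        conj (indFun 𝐂 (DefOneCol.alpha P π θ ψ') (c : G)) =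
        (Nat.card ↥𝐂 : ℂ)⁻¹ * ∑ n : ↥𝐍, DefOneCol.alpha P π θ ψ c *
          conj (DefOneCol.alpha P π (conjTh P θ n)
            (ψ'.comp (cj (P : Subgroup G) (n : G) n.2)) c) := by
      intro c
      by_cases hc : π c = 1
      · have h0 : DefOneCol.alpha P π θ ψ c = 0 := by
          unfold DefOneCol.alpha
          rw [hc, map_one, Units.val_one, one_mul, sub_self]
        rw [h0, zero_mul]
        simp
      · rw [indFun_apply_sing P hP π hπP hπreg _ c hc, map_mul, map_inv₀,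
          Complex.conj_natCast, map_sum, Finset.mul_sum, Finset.mul_sum, Finset.mul_sum]
        refine Finset.sum_congr rfl fun n _ => ?_
        rw [alpha_cjC P hP π hπP hπreg]
        ring
    refine Eq.trans (congrArg (fun t => (Nat.card ↥𝐂 : ℂ)⁻¹ * t)
      (Finset.sum_congr rfl fun c _ => key c)) ?_
    congr 1
    rw [← Finset.mul_sum, ← Finset.mul_sum, Finset.sum_comm]
  have h4 : ∀ n : ↥𝐍, classInner (DefOneCol.alpha P π θ ψ)
      (DefOneCol.alpha P π (conjTh P θ n) (ψ'.comp (cj (P : Subgroup G) (n : G) n.2))) =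
      (if θ = conjTh P θ n then 1 else 0) *
        ((if ψ = ψ'.comp (cj (P : Subgroup G) (n : G) n.2) then 1 else 0) + 1) :=
    fun n => classInner_alpha P hP π hπP hπreg hθ (conjTh_irr P hθ n) hθP
      (conjTh_triv P hθP n) ψ _ hψ (hne' n)
  rw [h1, h2, h3, Finset.sum_congr rfl (fun n _ => h4 n)]
  congr 1
  have e : ∀ n : ↥𝐍, ((if θ = conjTh P θ n then 1 else 0) *
      ((if ψ = ψ'.comp (cj (P : Subgroup G) (n : G) n.2) then 1 else 0) + 1) : ℂ) =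
      (if conjTh P θ n = θ then 1 else 0) +
        (if conjTh P θ n = θ ∧ ψ'.comp (cj (P : Subgroup G) (n : G) n.2) = ψ
          then 1 else 0) := by
    intro n
    by_cases ha : conjTh P θ n = θ
    · by_cases hb : ψ'.comp (cj (P : Subgroup G) (n : G) n.2) = ψ
      · rw [if_pos ha.symm, if_pos hb.symm, if_pos ha, if_pos ⟨ha, hb⟩]
        ring
      · rw [if_pos ha.symm, if_neg (fun h => hb h.symm), if_pos ha, if_neg (fun h => hb h.2)]
        ring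
    · have hc : ¬ (conjTh P θ n = θ ∧ ψ'.comp (cj (P : Subgroup G) (n : G) n.2) = ψ) :=
        fun h => ha h.1
      have ha' : ¬ (θ = conjTh P θ n) := fun h => ha h.symm
      rw [if_neg ha', if_neg ha, if_neg hc]
      ring
  rw [Finset.sum_congr rfl (fun n _ => e n), Finset.sum_add_distrib, Finset.sum_boole,
    Finset.sum_boole, Nat.card_eq_fintype_card, Nat.card_eq_fintype_card,
    Fintype.card_subtype, Fintype.card_subtype]

/-- The relation "`ψ'` is a conjugate of `ψ` under the stabilizer of `θ` in the normalizer". -/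
def RelS (θ : ↥𝐂 → ℂ) (ψ ψ' : ↥(P : Subgroup G) →* ℂˣ) : Prop :=
  ∃ n : ↥𝐍, conjTh P θ n = θ ∧ ψ'.comp (cj (P : Subgroup G) (n : G) n.2) = ψ

theorem cj_one' : cj (P : Subgroup G) ((1 : ↥𝐍) : G) (1 : ↥𝐍).2 = MonoidHom.id _ := by
  refine MonoidHom.ext fun w => Subtype.ext ?_
  rw [cj_coe, Subgroup.coe_one]
  simp

theorem relS_refl (θ : ↥𝐂 → ℂ) (ψ : ↥(P : Subgroup G) →* ℂˣ) : RelS P θ ψ ψ :=
  ⟨1, conjTh_one P θ, by rw [cj_one', MonoidHom.comp_id]⟩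

theorem relS_ne {θ : ↥𝐂 → ℂ} {ψ ψ' : ↥(P : Subgroup G) →* ℂˣ} (hψ : ψ ≠ 1)
    (h : RelS P θ ψ ψ') : ψ' ≠ 1 := by
  rintro rfl
  obtain ⟨n, -, h⟩ := h
  exact hψ (by rw [← h]; exact MonoidHom.one_comp _)

include hP in
/-- The elements of the stabilizer of `θ` carrying `ψ'` to `ψ` form a coset of `C_G(P)`. -/
theorem card_stab2 {θ : ↥𝐂 → ℂ} (hθ : IsClassFunction ↥𝐂 θ)
    (ψ ψ' : ↥(P : Subgroup G) →* ℂˣ) (hψ : ψ ≠ 1) (hR : RelS P θ ψ ψ') :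
    Nat.card {n : ↥𝐍 // conjTh P θ n = θ ∧
      ψ'.comp (cj (P : Subgroup G) (n : G) n.2) = ψ} = Nat.card ↥𝐂 := by
  obtain ⟨n₀, hθ₀, hψ₀⟩ := hR
  have hR' : Rel (P : Subgroup G) ψ ψ' := (rel_iff _ _ _).mpr ⟨n₀, n₀.2, hψ₀⟩
  rw [← count_T p P (hfrob P hP) ψ ψ' hψ hR']
  refine Nat.card_congr (Equiv.subtypeEquivRight fun n => ?_)
  constructor
  · exact fun h => h.2
  · intro h
    refine ⟨?_, h⟩
    have hm : ((n₀⁻¹ * n : ↥𝐍) : G) ∈ 𝐂 := by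
      refine AbSylowGT.mem_centralizer_of_stab p P (hfrob P hP) _ (n₀⁻¹ * n).2 ψ hψ ?_
      intro w w' hw'
      have e1 : ψ w' = ψ' (cj (P : Subgroup G) (n₀ : G) n₀.2 w') :=
        (DFunLike.congr_fun hψ₀ w').symm
      have e2 : ψ w = ψ' (cj (P : Subgroup G) (n : G) n.2 w) := (DFunLike.congr_fun h w).symm
      have e3 : cj (P : Subgroup G) (n₀ : G) n₀.2 w' = cj (P : Subgroup G) (n : G) n.2 w := by
        apply Subtype.ext
        rw [cj_coe, cj_coe, hw']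
        simp only [Subgroup.coe_mul, Subgroup.coe_inv]
        group
      rw [e1, e2, e3]
    have e : conjTh P θ n = conjTh P θ (n₀ * (n₀⁻¹ * n)) := by
      congr 1
      group
    rw [e, conjTh_mul, hθ₀]
    exact conjTh_of_mem P hθ _ hm

theorem card_stab2_zero (θ : ↥𝐂 → ℂ) (ψ ψ' : ↥(P : Subgroup G) →* ℂˣ)
    (hR : ¬ RelS P θ ψ ψ') :
    Nat.card {n : ↥𝐍 // conjTh P θ n = θ ∧
      ψ'.comp (cj (P : Subgroup G) (n : G) n.2) = ψ} = 0 := by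
  have : IsEmpty {n : ↥𝐍 // conjTh P θ n = θ ∧
      ψ'.comp (cj (P : Subgroup G) (n : G) n.2) = ψ} :=
    ⟨fun x => hR ⟨x.1, x.2.1, x.2.2⟩⟩
  exact Nat.card_of_isEmpty

include hP in
/-- Each class of non-principal linear characters of `P` under the stabilizer of `θ` is a
regular orbit of the stabilizer modulo `C_G(P)`. -/
theorem card_class_mul {θ : ↥𝐂 → ℂ} (hθ : IsClassFunction ↥𝐂 θ)
    (ψ : ↥(P : Subgroup G) →* ℂˣ) (hψ : ψ ≠ 1) :
    Nat.card {n : ↥𝐍 // conjTh P θ n = θ} =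
      Nat.card {ψ' : ↥(P : Subgroup G) →* ℂˣ // RelS P θ ψ ψ'} * Nat.card ↥𝐂 := by
  classical
  have hPab : ∀ a ∈ (P : Subgroup G), ∀ b ∈ (P : Subgroup G), a * b = b * a :=
    fun a ha b hb => comm_of_mem P hP ha hb
  have := finite_hom (P : Subgroup G) hPab
  have hinv : ∀ x : ↥𝐍, (cj (P : Subgroup G) ((x⁻¹ : ↥𝐍) : G) (x⁻¹).2).comp
      (cj (P : Subgroup G) (x : G) x.2) = MonoidHom.id _ := by
    intro x
    refine MonoidHom.ext fun w => Subtype.ext ?_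
    simp only [MonoidHom.comp_apply, cj_coe, MonoidHom.id_apply, Subgroup.coe_inv]
    group
  have hinv' : ∀ x : ↥𝐍, (cj (P : Subgroup G) (x : G) x.2).comp
      (cj (P : Subgroup G) ((x⁻¹ : ↥𝐍) : G) (x⁻¹).2) = MonoidHom.id _ := by
    intro x
    refine MonoidHom.ext fun w => Subtype.ext ?_
    simp only [MonoidHom.comp_apply, cj_coe, MonoidHom.id_apply, Subgroup.coe_inv]
    group
  have hiff : ∀ (x : ↥𝐍) (ψ' : ↥(P : Subgroup G) →* ℂˣ),
      ψ.comp (cj (P : Subgroup G) ((x⁻¹ : ↥𝐍) : G) (x⁻¹).2) = ψ' ↔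
        ψ'.comp (cj (P : Subgroup G) (x : G) x.2) = ψ := by
    intro x ψ'
    constructor
    · intro h
      rw [← h, MonoidHom.comp_assoc, hinv x, MonoidHom.comp_id]
    · intro h
      rw [← h, MonoidHom.comp_assoc, hinv' x, MonoidHom.comp_id]
  let F : {n : ↥𝐍 // conjTh P θ n = θ} →
      {ψ' : ↥(P : Subgroup G) →* ℂˣ // RelS P θ ψ ψ'} := fun x =>
    ⟨ψ.comp (cj (P : Subgroup G) (((x.1)⁻¹ : ↥𝐍) : G) ((x.1)⁻¹).2),
      ⟨x.1, x.2, (hiff x.1 _).mp rfl⟩⟩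
  have hfib : ∀ b, Nat.card {x // F x = b} = Nat.card ↥𝐂 := by
    intro b
    rw [← card_stab2 P hP hθ ψ b.1 hψ b.2]
    have eq1 : {x // F x = b} ≃ {x : {n : ↥𝐍 // conjTh P θ n = θ} //
        b.1.comp (cj (P : Subgroup G) ((x.1 : ↥𝐍) : G) x.1.2) = ψ} :=
      Equiv.subtypeEquivRight fun x => by
        rw [← hiff x.1 b.1]
        exact Subtype.ext_iff
    have eq2 := Equiv.subtypeSubtypeEquivSubtypeInter (fun n : ↥𝐍 => conjTh P θ n = θ)
      (fun n : ↥𝐍 => b.1.comp (cj (P : Subgroup G) (n : G) n.2) = ψ)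
    exact Nat.card_congr (eq1.trans eq2)
  exact Cfsg.Agent.Lib.Helper75.SelfCent.card_eq_mul_of_fiber F _ hfib

/-- The stabilizer of `θ` in the normalizer, as a subtype and as the subgroup `T`. -/
theorem card_stab (θ : ↥𝐂 → ℂ) (T : Subgroup G)
    (hT : ∀ g : G, g ∈ T ↔ (g ∈ 𝐍 ∧ ∀ c c' : ↥𝐂, (c' : G) = g * c * g⁻¹ → θ c' = θ c)) :
    Nat.card {n : ↥𝐍 // conjTh P θ n = θ} = Nat.card ↥T := by
  refine Nat.card_congr
    { toFun := fun x => ⟨(x.1 : G), (hT _).mpr ⟨x.1.2, fun c c' h => ?_⟩⟩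
      invFun := fun t => ⟨⟨(t : G), ((hT _).mp t.2).1⟩, ?_⟩
      left_inv := fun x => rfl
      right_inv := fun t => rfl }
  · have e : c' = cjC P x.1 c := Subtype.ext h
    rw [e]
    exact congrFun x.2 c
  · funext c
    exact ((hT _).mp t.2).2 c (cjC P ⟨(t : G), ((hT _).mp t.2).1⟩ c) rfl

theorem centralizer_le_stab {θ : ↥𝐂 → ℂ} (hθ : IsClassFunction ↥𝐂 θ) (T : Subgroup G)
    (hT : ∀ g : G, g ∈ T ↔ (g ∈ 𝐍 ∧ ∀ c c' : ↥𝐂, (c' : G) = g * c * g⁻¹ → θ c' = θ c)) :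
    𝐂 ≤ T := by
  intro g hg
  rw [hT]
  refine ⟨Subgroup.centralizer_le_normalizer _ hg, fun c c' h => ?_⟩
  have e : c' = (⟨g, hg⟩ : ↥𝐂) * c * (⟨g, hg⟩ : ↥𝐂)⁻¹ := Subtype.ext h
  rw [e, hθ]

include hP hπP hπreg in
/-- The Gram matrix of the columns. -/
theorem gram_T [Fintype (IrrCharacter G)] [Fintype ↥𝐍] {θ : ↥𝐂 → ℂ}
    (hθ : IsIrrCharacter ↥𝐂 θ)
    (hθP : ∀ x : ↥𝐂, (x : G) ∈ (P : Subgroup G) → θ x = θ 1) (T : Subgroup G)
    (hT : ∀ g : G, g ∈ T ↔ (g ∈ 𝐍 ∧ ∀ c c' : ↥𝐂, (c' : G) = g * c * g⁻¹ → θ c' = θ c))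
    (ψ ψ' : ↥(P : Subgroup G) →* ℂˣ) (hψ : ψ ≠ 1) (hψ' : ψ' ≠ 1)
    [Decidable (RelS P θ ψ ψ')] :
    ∑ χ : IrrCharacter G, col P π θ ψ (χ : G → ℂ) * col P π θ ψ' (χ : G → ℂ) =
      (((Subgroup.centralizer ((P : Subgroup G) : Set G)).relIndex T : ℕ) : ℂ) +
        (if RelS P θ ψ ψ' then 1 else 0) := by
  have hcl : IsClassFunction ↥𝐂 θ := Orth.irr_isClassFunction ⟨θ, hθ⟩
  have hCT := centralizer_le_stab P hcl T hT
  have hcard : (Nat.card ↥T : ℂ) = (Nat.card ↥𝐂 : ℂ) *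
      (((Subgroup.centralizer ((P : Subgroup G) : Set G)).relIndex T : ℕ) : ℂ) := by
    exact_mod_cast Cfsg.Agent.Lib.Helper76.PSolv.card_eq_card_mul_relIndex hCT
  have hCne : (Nat.card ↥𝐂 : ℂ) ≠ 0 := Nat.cast_ne_zero.mpr Nat.card_pos.ne'
  rw [gram P hP π hπP hπreg hθ hθP ψ ψ' hψ hψ', card_stab P θ T hT, hcard]
  by_cases hR : RelS P θ ψ ψ'
  · rw [if_pos hR, card_stab2 P hP hcl ψ ψ' hψ hR]
    field_simp
  · rw [if_neg hR, card_stab2_zero P θ ψ ψ' hR, Nat.cast_zero]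
    field_simp
    ring

include hP in
/-- Each class of non-principal linear characters has `|T : C|` elements. -/
theorem card_class_T {θ : ↥𝐂 → ℂ} (hθ : IsIrrCharacter ↥𝐂 θ) (T : Subgroup G)
    (hT : ∀ g : G, g ∈ T ↔ (g ∈ 𝐍 ∧ ∀ c c' : ↥𝐂, (c' : G) = g * c * g⁻¹ → θ c' = θ c))
    (ψ : ↥(P : Subgroup G) →* ℂˣ) (hψ : ψ ≠ 1) :
    Nat.card {ψ' : ↥(P : Subgroup G) →* ℂˣ // RelS P θ ψ ψ'} =
      (Subgroup.centralizer ((P : Subgroup G) : Set G)).relIndex T := by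
  have hcl : IsClassFunction ↥𝐂 θ := Orth.irr_isClassFunction ⟨θ, hθ⟩
  have hCT := centralizer_le_stab P hcl T hT
  have h1 := card_class_mul P hP hcl ψ hψ
  rw [card_stab P θ T hT, Cfsg.Agent.Lib.Helper76.PSolv.card_eq_card_mul_relIndex hCT,
    mul_comm] at h1
  exact (Nat.eq_of_mul_eq_mul_right Nat.card_pos h1).symm

end Cfsg.Agent.Lib.Helper80.DefOneGram
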