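import Mathlib
import Cfsg.Agent.Lib.Helper80.S4705Stmt

/-!
# S4705: the final assembly

From the pieces of stages A, B, C, D to the statement.
-/

set_option autoImplicit false
set_option maxHeartbeats 1000000

namespace Cfsg.Agent.Lib.Helper80.FTASM

open Cfsg Cfsg.Agent.Lib.Helper80.S4705Stmt

universe u

/-- The final assembly of S4705. -/
theorem main : Res.{u} → R2.{u} → LocGP.{u} → PerfIrr.{u} → PerfNN.{u} → PerfPerf.{u} →
    StageC.{u} → GLZ.{u} → Goal.{u} := by
  intro hRes hR2 hLoc hPI hPN hPP hC hGLZ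
  intro G _ _ p _ hp5 P hP hnn ζ hζ hfaith hdeg
  have hHyp : Hyp G p P ζ := ⟨hp5, hP, hnn, hζ, hfaith, hdeg⟩
  -- stage A for `G`
  obtain ⟨hCR, hV2⟩ := hRes G p P ζ hHyp
  obtain ⟨hNI, hV⟩ := hR2 G p P ζ hHyp hV2
  have hp2 : 2 < p := lt_trans (by norm_num) hp5
  have hLG := hLoc G p P hp2 hP hCR hNI
  -- stage B
  have hle : (P : Subgroup G) ≤ Subgroup.normalClosure ((P : Subgroup G) : Set G) :=
    Subgroup.le_normalClosure
  have hirrL := hPI G p P ζ hHyp
  have hnnL := hPN G p P hnn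
  have hperfL := hPP G p P ζ hHyp
  have hcardPL : Nat.card (P.subtype hle) = p := by
    have h1 : Nat.card ↥((P : Subgroup G).subgroupOf
        (Subgroup.normalClosure ((P : Subgroup G) : Set G))) = Nat.card ↥(P : Subgroup G) :=
      Nat.card_congr (Subgroup.subgroupOfEquivOfLe hle).toEquiv
    exact h1.trans hP
  have hHypL : Hyp ↥(Subgroup.normalClosure ((P : Subgroup G) : Set G)) p (P.subtype hle)
      (fun l : ↥(Subgroup.normalClosure ((P : Subgroup G) : Set G)) => ζ (l : G)) := by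
    refine ⟨hp5, hcardPL, hnnL, hirrL, ?_, ?_⟩
    · intro g hg
      have h1 : ζ (g : G) = ζ 1 := by simpa using hg
      exact Subtype.ext (hfaith (g : G) h1)
    · have h1 : charDegree (fun l : ↥(Subgroup.normalClosure ((P : Subgroup G) : Set G)) =>
          ζ (l : G)) = charDegree ζ := by
        unfold charDegree
        simp
      rw [h1, hdeg]
  -- stage A for `L`
  obtain ⟨hCRL, hV2L⟩ := hRes _ p (P.subtype hle) _ hHypL
  obtain ⟨hNIL, hVL⟩ := hR2 _ p (P.subtype hle) _ hHypL hV2L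
  -- stage C
  obtain ⟨hZL, a, F, instF, instF', hpa, hFa, ⟨eL⟩⟩ :=
    hC _ p (P.subtype hle) _ hHypL hperfL hCRL hNIL hVL
  -- stage D
  have hinv : ∃ n ∈ Subgroup.normalClosure ((P : Subgroup G) : Set G),
      ∀ x ∈ (P : Subgroup G), n * x * n⁻¹ = x⁻¹ := by
    obtain ⟨n, hn⟩ := hNIL.1
    refine ⟨(n : G), n.2, fun x hx => ?_⟩
    have h1 := hn ⟨x, hle hx⟩ (by
      rw [Sylow.coe_subtype, Subgroup.mem_subgroupOf]
      exact hx)
    have h2 := congrArg Subtype.val h1
    simpa using h2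
  obtain ⟨eG⟩ := hGLZ G p P hp2 hP hNI hLG hinv hZL
  exact ⟨a, F, instF, instF', hpa, hFa, ⟨eG.trans (MulEquiv.prodCongr eL (MulEquiv.refl _))⟩⟩

end Cfsg.Agent.Lib.Helper80.FTASM
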