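import Mathlib
import Cfsg.Agent.Lib.Helper80.S4705Stmt
import Cfsg.Agent.Lib.Helper80.CenterDvd

/-!
# S4705: the assembly of stage C

A perfect group `G` with the hypotheses and the local facts has trivial centre and is isomorphic
to `SL(2, F)`, `|F| = 2^a = p - 1`.
-/

set_option autoImplicit false
set_option maxHeartbeats 1000000

namespace Cfsg.Agent.Lib.Helper80.FTASMC

open Cfsg Cfsg.Agent.Lib.Helper80.S4705Stmt

universe u

/-- The assembly of stage C of S4705. -/
theorem main : Det.{u} → Alt.{u} → PowB.{u} → LocGP.{u} → Sing.{u} → LamIP.{u} → Star.{u} →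
    P2.{u} → P1.{u} → E2.{u} → OrdR.{u} → Arith → OrdG.{u} → Quot.{u} → Ident.{u} → SLCyc.{u} →
    CExt.{u} → StageC.{u} := by
  intro hDet hAlt hPowB hLoc hSing hLamIP hStar hP2 hP1 hE2 hOrdR hArith hOrdG hQuot hIdent hSLCyc
    hCExt G _ _ p _ P ζ hHyp hperf hCR hNI hV
  have hp : p.Prime := Fact.out
  have hp5 : 5 < p := hHyp.1
  have hP : Nat.card P = p := hHyp.2.1
  have hirr : IsIrrCharacter G ζ := hHyp.2.2.2.1
  have hfaith : ∀ g : G, ζ g = ζ 1 → g = 1 := hHyp.2.2.2.2.1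
  have hdeg : charDegree ζ = p - 2 := hHyp.2.2.2.2.2
  have hp2 : 2 < p := lt_trans (by norm_num) hp5
  have hLG := hLoc G p P hp2 hP hCR hNI
  have hpodd : Odd p := hp.odd_of_ne_two (by omega)
  -- the centre has odd order
  have hZodd : Odd (Nat.card ↥(Subgroup.center G)) := by
    by_contra hne
    rw [Nat.not_odd_iff_even] at hne
    have h2 : 2 ∣ Nat.card ↥(Subgroup.center G) := hne.two_dvd
    obtain ⟨z, hz⟩ := exists_prime_orderOf_dvd_card' 2 h2
    have h3 := hDet G ζ hperf hirr hfaith (z : G) z.2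
    rw [hdeg] at h3
    have h4 : orderOf (z : G) ∣ p - 2 := orderOf_dvd_of_pow_eq_one h3
    rw [Subgroup.orderOf_coe, hz] at h4
    obtain ⟨k, hk⟩ := hpodd
    omega
  have hSS := hSing G p P hp2 hP hNI hLG
  obtain ⟨hSO, hST⟩ := hStar hAlt hPowB hLamIP G p P ζ hHyp hV hSS hLG hZodd
  have hvan := hP2 G p P ζ hHyp hSO
  obtain ⟨hinv, hno4⟩ := hP1 G p P ζ hHyp hST
  have hE := hE2 G p P ζ hHyp hinv hno4
  have hR := hOrdR G p P ζ hHyp hvan
  have hcd : (p - 2) ∣ (Subgroup.center G).index := by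
    obtain ⟨n, ρ, hρ, hχ⟩ := hirr
    haveI := hρ
    have h1 := Cfsg.Agent.Lib.Helper80.CenterDvd.finrank_dvd_index_center ρ
    have hn : charDegree ζ = n := by
      rw [← hχ]
      unfold charDegree
      rw [Representation.char_one]
      simp
    rw [Module.finrank_fin_fun] at h1
    rw [← hdeg, hn]
    exact h1
  obtain ⟨hcard, m0, hm0⟩ := hOrdG hArith G p P ζ hHyp hLG hZodd hE hR hcd
  obtain ⟨hperfQ, hcardQ, hSylQ, hN2⟩ := hQuot G p P ζ hHyp hperf hZodd hLG hcard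
  obtain ⟨m, F, instF, instF', hFm, hpm, ⟨eQ⟩⟩ :=
    hIdent (G ⧸ Subgroup.center G) p hp5 hperfQ hcardQ hSylQ hN2
  -- the centre is trivial
  have hZ : Subgroup.center G = ⊥ := by
    by_contra hne
    have hne1 : Nat.card ↥(Subgroup.center G) ≠ 1 := fun h =>
      hne ((Subgroup.eq_bot_iff_card _).2 h)
    obtain ⟨r, hr, hrdvd⟩ := Nat.exists_prime_and_dvd hne1
    haveI : Fact r.Prime := ⟨hr⟩
    have hr2 : r ≠ 2 := by
      rintro rfl
      exact (Nat.not_even_iff_odd.2 hZodd) (even_iff_two_dvd.2 hrdvd)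
    have hrp : r ≠ p := by
      intro hrp
      obtain ⟨z, hz⟩ := exists_prime_orderOf_dvd_card' r hrdvd
      refine hLG.2.1 (z : G) z.2 ?_
      rw [Subgroup.orderOf_coe, hz, hrp]
    refine hCExt G r hperf ?_ hrdvd
    refine @hSLCyc F instF instF' (G ⧸ Subgroup.center G) _ _ eQ r _ ?_
    intro k hk
    rw [hcardQ] at hk
    have hp1 : p - 1 = 2 ^ m := by omega
    have hc1 : Nat.Coprime (r ^ k) p := Nat.Coprime.pow_left k ((Nat.coprime_primes hr hp).2 hrp)
    have hc2 : Nat.Coprime (r ^ k) (p - 1) := by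
      rw [hp1]
      exact Nat.Coprime.pow _ _ ((Nat.coprime_primes hr Nat.prime_two).2 hr2)
    have h1 : r ^ k ∣ p - 2 := (hc1.mul_right hc2).dvd_of_dvd_mul_left hk
    have h2 : @Fintype.card F instF' - 1 = p - 2 := by
      rw [hFm]
      omega
    rw [h2]
    exact h1
  refine ⟨hZ, m, F, instF, instF', hpm, hFm, ⟨?_⟩⟩
  exact ((QuotientGroup.quotientMulEquivOfEq hZ).trans QuotientGroup.quotientBot).symm.trans eQ

end Cfsg.Agent.Lib.Helper80.FTASMC
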